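import Mathlib
import Cfsg.Prelude.Def_GeometricClasses

set_option autoImplicit false

namespace Cfsg.Agent.Lib.Helper93

open Matrix

variable {F : Type*} [Field F] {ι : Type} [Fintype ι] [DecidableEq ι]

theorem mem_specialLinear_iff (g : GL ι F) :
    g ∈ Cfsg.Geo.specialLinear ι F ↔ (g : Matrix ι ι F).det = 1 := by
  unfold Cfsg.Geo.specialLinear
  rw [MonoidHom.mem_ker]
  constructor
  · intro h
    have := congrArg Units.val h
    simpa using this
  · intro h
    apply Units.ext
    simpa using h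

theorem mem_subspaceStabilizer_iff (W : Submodule F (ι → F)) (g : GL ι F) :
    g ∈ Cfsg.Geo.subspaceStabilizer W ↔ ∀ v, v ∈ W ↔ (g : Matrix ι ι F) *ᵥ v ∈ W :=
  Iff.rfl

/-- The transvection `x ↦ x + f x • v` (with `f v = 0`) as an element of `SL` inside `GL`. -/
theorem exists_transvection_GL (f : Module.Dual F (ι → F)) (v : ι → F) (h : f v = 0) :
    ∃ g : GL ι F, g ∈ Cfsg.Geo.specialLinear ι F ∧
      ∀ x, (g : Matrix ι ι F) *ᵥ x = x + f x • v := by
  set M : Matrix ι ι F := LinearMap.toMatrix' (LinearMap.transvection f v) with hM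
  have hdet : M.det = 1 := by
    rw [hM, LinearMap.det_toMatrix', LinearMap.transvection.det, h, add_zero]
  refine ⟨Matrix.GeneralLinearGroup.mkOfDetNeZero M (by rw [hdet]; exact one_ne_zero), ?_, ?_⟩
  · rw [mem_specialLinear_iff]
    exact hdet
  · intro x
    show M *ᵥ x = _
    rw [← Matrix.toLin'_apply, hM, Matrix.toLin'_toMatrix', LinearMap.transvection.apply]

/-- A transvection along `v` with functional vanishing on `W` stabilises `W`. -/
theorem transvection_mem_stab (W : Submodule F (ι → F)) (f : Module.Dual F (ι → F)) (v : ι → F)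
    (h : f v = 0) (hW : W ≤ LinearMap.ker f) (g : GL ι F)
    (hg : ∀ x, (g : Matrix ι ι F) *ᵥ x = x + f x • v) :
    g ∈ Cfsg.Geo.subspaceStabilizer W := by
  rw [mem_subspaceStabilizer_iff]
  intro x
  rw [hg]
  constructor
  · intro hx
    have : f x = 0 := hW hx
    rw [this, zero_smul, add_zero]; exact hx
  · intro hx
    have h1 : f (x + f x • v) = 0 := hW hx
    rw [map_add, map_smul, h, smul_zero, add_zero] at h1
    rwa [h1, zero_smul, add_zero] at hx

/-- For a proper nonzero subspace, some element of `SL` does not stabilise it. -/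
theorem exists_sl_not_stab (W : Submodule F (ι → F)) (hW0 : W ≠ ⊥) (hW1 : W ≠ ⊤) :
    ∃ g : GL ι F, g ∈ Cfsg.Geo.specialLinear ι F ∧ g ∉ Cfsg.Geo.subspaceStabilizer W := by
  obtain ⟨w, hwW, hw0⟩ := (Submodule.ne_bot_iff W).mp hW0
  obtain ⟨v, hv⟩ : ∃ v, v ∉ W := by
    by_contra hcon
    push Not at hcon
    exact hW1 (eq_top_iff.mpr fun x _ => hcon x)
  have hwv : w ∉ Submodule.span F {v} := by
    intro hmem
    obtain ⟨c, rfl⟩ := Submodule.mem_span_singleton.mp hmem
    have hc : c ≠ 0 := by rintro rfl; exact hw0 (zero_smul _ _)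
    apply hv
    have := W.smul_mem c⁻¹ hwW
    rwa [smul_smul, inv_mul_cancel₀ hc, one_smul] at this
  obtain ⟨f, hfw, hfv⟩ := Submodule.exists_le_ker_of_notMem hwv
  have hfv0 : f v = 0 := hfv (Submodule.mem_span_singleton_self v)
  obtain ⟨g, hgSL, hg⟩ := exists_transvection_GL f v hfv0
  refine ⟨g, hgSL, fun hstab => ?_⟩
  rw [mem_subspaceStabilizer_iff] at hstab
  have h1 := (hstab w).mp hwW
  rw [hg] at h1
  have h2 : f w • v ∈ W := by
    have := W.sub_mem h1 hwW
    simpa using this
  apply hv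
  have := W.smul_mem (f w)⁻¹ h2
  rwa [smul_smul, inv_mul_cancel₀ hfw, one_smul] at this

end Cfsg.Agent.Lib.Helper93
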