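import Mathlib
import Cfsg.Prelude.Def_GeometricClasses
import Cfsg.Agent.Lib.Helper93.Transv

set_option autoImplicit false

namespace Cfsg.Agent.Lib.Helper93

open Matrix

variable {F : Type*} [Field F] {ι : Type} [Fintype ι] [DecidableEq ι]

theorem gl_ext {g g' : GL ι F}
    (h : ∀ x, (g : Matrix ι ι F) *ᵥ x = (g' : Matrix ι ι F) *ᵥ x) : g = g' := by
  apply Units.ext
  apply Matrix.toLin'.injective
  apply LinearMap.ext
  intro x
  simp only [Matrix.toLin'_apply]
  exact h x

theorem gl_mul_mulVec (g h : GL ι F) (x : ι → F) :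
    ((g * h : GL ι F) : Matrix ι ι F) *ᵥ x = (g : Matrix ι ι F) *ᵥ ((h : Matrix ι ι F) *ᵥ x) := by
  rw [Units.val_mul, Matrix.mulVec_mulVec]

theorem gl_inv_mulVec (g : GL ι F) (x : ι → F) :
    ((g⁻¹ : GL ι F) : Matrix ι ι F) *ᵥ ((g : Matrix ι ι F) *ᵥ x) = x := by
  rw [Matrix.mulVec_mulVec, ← Units.val_mul, inv_mul_cancel, Units.val_one, Matrix.one_mulVec]

theorem gl_mulVec_inv (g : GL ι F) (x : ι → F) :
    (g : Matrix ι ι F) *ᵥ (((g⁻¹ : GL ι F) : Matrix ι ι F) *ᵥ x) = x := by
  rw [Matrix.mulVec_mulVec, ← Units.val_mul, mul_inv_cancel, Units.val_one, Matrix.one_mulVec]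

/-- The transvection `x ↦ x + φ x • v` as an element of `GL`. -/
noncomputable def tvGL (φ : Module.Dual F (ι → F)) (v : ι → F) (h : φ v = 0) : GL ι F :=
  Classical.choose (exists_transvection_GL φ v h)

theorem tvGL_mem_SL (φ : Module.Dual F (ι → F)) (v : ι → F) (h : φ v = 0) :
    tvGL φ v h ∈ Cfsg.Geo.specialLinear ι F :=
  (Classical.choose_spec (exists_transvection_GL φ v h)).1

theorem tvGL_mulVec (φ : Module.Dual F (ι → F)) (v : ι → F) (h : φ v = 0) (x : ι → F) :
    (tvGL φ v h : Matrix ι ι F) *ᵥ x = x + φ x • v :=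
  (Classical.choose_spec (exists_transvection_GL φ v h)).2 x

/-- Conjugating a transvection. -/
theorem tvGL_conj (m : GL ι F) (φ : Module.Dual F (ι → F)) (v : ι → F)
    (h : φ ((m : Matrix ι ι F) *ᵥ v) = 0) :
    tvGL φ ((m : Matrix ι ι F) *ᵥ v) h =
      m * tvGL (φ.comp (Matrix.toLin' (m : Matrix ι ι F))) v
        (by rw [LinearMap.comp_apply, Matrix.toLin'_apply]; exact h) * m⁻¹ := by
  apply gl_ext
  intro x
  rw [tvGL_mulVec, gl_mul_mulVec, gl_mul_mulVec, tvGL_mulVec, LinearMap.comp_apply,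
    Matrix.toLin'_apply, gl_mulVec_inv, Matrix.mulVec_add, Matrix.mulVec_smul, gl_mulVec_inv]

theorem tvGL_smul (c : F) (φ : Module.Dual F (ι → F)) (v : ι → F) (h : φ (c • v) = 0)
    (h' : (c • φ) v = 0) : tvGL φ (c • v) h = tvGL (c • φ) v h' := by
  apply gl_ext
  intro x
  rw [tvGL_mulVec, tvGL_mulVec, LinearMap.smul_apply, smul_smul, smul_eq_mul, mul_comm]

/-- If a subgroup `M` of `SL` contains the parabolic `Stab(W) ∩ SL` properly, then it contains
every transvection. -/
theorem all_transvections_mem (W : Submodule F (ι → F))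
    (M : Subgroup (GL ι F))
    (hPM : Cfsg.Geo.subspaceStabilizer W ⊓ Cfsg.Geo.specialLinear ι F ≤ M)
    (g : GL ι F) (hgM : g ∈ M) (hgW : g ∉ Cfsg.Geo.subspaceStabilizer W)
    (φ : Module.Dual F (ι → F)) (v : ι → F) (h : φ v = 0) : tvGL φ v h ∈ M := by
  -- the set of good vectors
  have hW_good : ∀ v ∈ W, ∀ (φ : Module.Dual F (ι → F)) (h : φ v = 0), tvGL φ v h ∈ M := by
    intro v hv φ h
    apply hPM
    refine ⟨(mem_subspaceStabilizer_iff W _).mpr (fun x => ?_), tvGL_mem_SL φ v h⟩
    rw [tvGL_mulVec]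
    constructor
    · intro hx; exact W.add_mem hx (W.smul_mem _ hv)
    · intro hx
      have := W.sub_mem hx (W.smul_mem (φ x) hv)
      simpa using this
  have hker_good : ∀ (φ : Module.Dual F (ι → F)) (v : ι → F) (h : φ v = 0),
      W ≤ LinearMap.ker φ → tvGL φ v h ∈ M := by
    intro φ v h hW
    apply hPM
    exact ⟨transvection_mem_stab W φ v h hW _ (tvGL_mulVec φ v h), tvGL_mem_SL φ v h⟩
  -- invariance of good vectors under M
  have hinv : ∀ m ∈ M, ∀ v : ι → F,
      (∀ (φ : Module.Dual F (ι → F)) (h : φ v = 0), tvGL φ v h ∈ M) →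
      ∀ (φ : Module.Dual F (ι → F)) (h : φ ((m : Matrix ι ι F) *ᵥ v) = 0),
        tvGL φ ((m : Matrix ι ι F) *ᵥ v) h ∈ M := by
    intro m hm v hv φ h
    rw [tvGL_conj]
    exact M.mul_mem (M.mul_mem hm (hv _ _)) (M.inv_mem hm)
  have hsmul : ∀ (c : F) (v : ι → F),
      (∀ (φ : Module.Dual F (ι → F)) (h : φ v = 0), tvGL φ v h ∈ M) →
      ∀ (φ : Module.Dual F (ι → F)) (h : φ (c • v) = 0), tvGL φ (c • v) h ∈ M := by
    intro c v hv φ h
    have h' : (c • φ) v = 0 := by
      rw [LinearMap.smul_apply, ← map_smul]; exact h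
    rw [tvGL_smul c φ v h h']
    exact hv _ _
  -- a good vector outside W
  obtain ⟨a, haW, ha⟩ : ∃ a : ι → F, a ∉ W ∧
      ∀ (φ : Module.Dual F (ι → F)) (h : φ a = 0), tvGL φ a h ∈ M := by
    rw [mem_subspaceStabilizer_iff] at hgW
    push Not at hgW
    obtain ⟨x, hx⟩ := hgW
    rcases hx with ⟨hxW, hgx⟩ | ⟨hxW, hgx⟩
    · exact ⟨_, hgx, hinv g hgM x (hW_good x hxW)⟩
    · refine ⟨x, hxW, ?_⟩
      have h2 := hinv g⁻¹ (M.inv_mem hgM) _ (hW_good _ hgx)
      rw [gl_inv_mulVec] at h2
      exact h2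
  -- step 1: all c • a + w are good
  have step1 : ∀ (c : F) (w : ι → F), w ∈ W →
      ∀ (φ : Module.Dual F (ι → F)) (h : φ (c • a + w) = 0), tvGL φ (c • a + w) h ∈ M := by
    intro c w hw
    by_cases hc : c = 0
    · subst hc
      rw [zero_smul, zero_add]
      exact hW_good w hw
    · have hca : c • a ∉ W := by
        intro h'
        apply haW
        have := W.smul_mem c⁻¹ h'
        rwa [smul_smul, inv_mul_cancel₀ hc, one_smul] at this
      have hcaw : c • a ∉ Submodule.span F {w} := by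
        intro h'
        apply hca
        exact (Submodule.span_singleton_le_iff_mem w W).mpr hw h'
      obtain ⟨ψ, hψ1, hψ2⟩ := Submodule.exists_le_ker_of_notMem hcaw
      have hψw : ψ w = 0 := hψ2 (Submodule.mem_span_singleton_self w)
      have hψw' : ψ ((ψ (c • a))⁻¹ • w) = 0 := by rw [map_smul, hψw, smul_zero]
      have hT := hW_good ((ψ (c • a))⁻¹ • w) (W.smul_mem _ hw) ψ hψw'
      have key := hinv _ hT (c • a) (hsmul c a ha)
      have heq : (tvGL ψ ((ψ (c • a))⁻¹ • w) hψw' : Matrix ι ι F) *ᵥ (c • a) = c • a + w := by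
        rw [tvGL_mulVec, smul_smul, mul_inv_cancel₀ hψ1, one_smul]
      rw [heq] at key
      exact key
  -- step 2: everything is good
  by_cases hv : v ∈ W ⊔ Submodule.span F {a}
  · obtain ⟨w, hw, y, hy, rfl⟩ := Submodule.mem_sup.mp hv
    obtain ⟨c, rfl⟩ := Submodule.mem_span_singleton.mp hy
    have := step1 c w hw φ (by rw [add_comm]; exact h)
    have heq : tvGL φ (w + c • a) h = tvGL φ (c • a + w) (by rw [add_comm]; exact h) := by
      apply gl_ext; intro x; rw [tvGL_mulVec, tvGL_mulVec, add_comm w]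
    rw [heq]; exact this
  · -- v ∉ W + ⟨a⟩ : move a to v by a transvection in the parabolic
    have hav : a ∉ W ⊔ Submodule.span F {v - a} := by
      intro h'
      obtain ⟨w, hw, y, hy, hsum⟩ := Submodule.mem_sup.mp h'
      obtain ⟨c, rfl⟩ := Submodule.mem_span_singleton.mp hy
      by_cases hc : c = 0
      · subst hc
        rw [zero_smul, add_zero] at hsum
        exact haW (hsum ▸ hw)
      · apply hv
        have hcv : c • v = (1 + c) • a - w := by
          have h3 : c • (v - a) = a - w := eq_sub_of_add_eq' hsum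
          rw [smul_sub] at h3
          have h4 : c • v = (a - w) + c • a := by rw [← h3]; abel
          rw [h4, add_smul, one_smul]; abel
        have hcv' : c • v ∈ W ⊔ Submodule.span F {a} := by
          rw [hcv]
          exact Submodule.sub_mem _
            (Submodule.mem_sup_right (Submodule.smul_mem _ _ (Submodule.mem_span_singleton_self a)))
            (Submodule.mem_sup_left hw)
        have := Submodule.smul_mem _ c⁻¹ hcv'
        rwa [smul_smul, inv_mul_cancel₀ hc, one_smul] at this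
    obtain ⟨ψ, hψ1, hψ2⟩ := Submodule.exists_le_ker_of_notMem hav
    have hψW : W ≤ LinearMap.ker ψ := le_trans le_sup_left hψ2
    have hψva : ψ (v - a) = 0 := hψ2 (Submodule.mem_sup_right (Submodule.mem_span_singleton_self _))
    have hψ' : ψ ((ψ a)⁻¹ • (v - a)) = 0 := by rw [map_smul, hψva, smul_zero]
    have hT := hker_good ψ ((ψ a)⁻¹ • (v - a)) hψ' hψW
    have key := hinv _ hT a ha
    have heq : (tvGL ψ ((ψ a)⁻¹ • (v - a)) hψ' : Matrix ι ι F) *ᵥ a = v := by
      rw [tvGL_mulVec, smul_smul, mul_inv_cancel₀ hψ1, one_smul]; abel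
    rw [heq] at key
    exact key φ h

/-- The linear equivalence of `F^ι` given by an element of `GL`. -/
noncomputable def glEquiv (g : GL ι F) : (ι → F) ≃ₗ[F] (ι → F) :=
  LinearEquiv.ofLinearMap (Matrix.toLin' (g : Matrix ι ι F))
    (Matrix.toLin' ((g⁻¹ : GL ι F) : Matrix ι ι F))
    (by rw [← Matrix.toLin'_mul, ← Units.val_mul, mul_inv_cancel, Units.val_one, Matrix.toLin'_one])
    (by rw [← Matrix.toLin'_mul, ← Units.val_mul, inv_mul_cancel, Units.val_one, Matrix.toLin'_one])

theorem glEquiv_apply (g : GL ι F) (x : ι → F) : glEquiv g x = (g : Matrix ι ι F) *ᵥ x := by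
  simp [glEquiv]

theorem mem_map_glEquiv (g : GL ι F) (W : Submodule F (ι → F)) (x : ι → F) :
    x ∈ W.map (glEquiv g).toLinearMap ↔ ∃ y ∈ W, (g : Matrix ι ι F) *ᵥ y = x := by
  rw [Submodule.mem_map]
  constructor
  · rintro ⟨y, hy, rfl⟩; exact ⟨y, hy, (glEquiv_apply g y).symm⟩
  · rintro ⟨y, hy, rfl⟩; exact ⟨y, hy, glEquiv_apply g y⟩

theorem finrank_map_glEquiv (g : GL ι F) (W : Submodule F (ι → F)) :
    Module.finrank F (W.map (glEquiv g).toLinearMap) = Module.finrank F W :=
  LinearEquiv.finrank_map_eq (glEquiv g) W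

/-- A group containing all transvections is transitive on subspaces of a given dimension. -/
theorem exists_map_eq_of_transvections (M : Subgroup (GL ι F))
    (hM : ∀ (φ : Module.Dual F (ι → F)) (v : ι → F) (h : φ v = 0), tvGL φ v h ∈ M) :
    ∀ (k : ℕ) (W U : Submodule F (ι → F)), Module.finrank F W = Module.finrank F U →
      Module.finrank F U ≤ Module.finrank F (W ⊓ U : Submodule F (ι → F)) + k →
      ∃ m ∈ M, W.map (glEquiv m).toLinearMap = U := by
  intro k
  induction k with
  | zero =>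
    intro W U hWU hk
    have h1 : W ⊓ U = U := Submodule.eq_of_le_of_finrank_le inf_le_right (by omega)
    have h2 : U ≤ W := by rw [← h1]; exact inf_le_left
    have h3 : U = W := Submodule.eq_of_le_of_finrank_le h2 (by omega)
    refine ⟨1, M.one_mem, ?_⟩
    ext x
    rw [mem_map_glEquiv, h3]
    constructor
    · rintro ⟨y, hy, rfl⟩; simpa using hy
    · intro hx; exact ⟨x, hx, by simp⟩
  | succ k ih =>
    intro W U hWU hk
    by_cases hEq : W = U
    · refine ⟨1, M.one_mem, ?_⟩
      ext x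
      rw [mem_map_glEquiv, hEq]
      constructor
      · rintro ⟨y, hy, rfl⟩; simpa using hy
      · intro hx; exact ⟨x, hx, by simp⟩
    · obtain ⟨u, huU, huW⟩ : ∃ u ∈ U, u ∉ W := by
        by_contra hcon
        push Not at hcon
        exact hEq (Submodule.eq_of_le_of_finrank_le hcon (by omega)).symm
      obtain ⟨w₀, hw₀W, hw₀U⟩ : ∃ w ∈ W, w ∉ U := by
        by_contra hcon
        push Not at hcon
        exact hEq (Submodule.eq_of_le_of_finrank_le hcon (by omega))
      have hw₀N : w₀ ∉ (W ⊓ U) ⊔ Submodule.span F {u - w₀} := by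
        intro h'
        obtain ⟨x, hx, y, hy, hsum⟩ := Submodule.mem_sup.mp h'
        obtain ⟨c, rfl⟩ := Submodule.mem_span_singleton.mp hy
        by_cases hc : c = 0
        · subst hc
          rw [zero_smul, add_zero] at hsum
          exact hw₀U (hsum ▸ hx.2)
        · apply huW
          have hcu : c • u = (1 + c) • w₀ - x := by
            have h3 : c • (u - w₀) = w₀ - x := eq_sub_of_add_eq' hsum
            rw [smul_sub] at h3
            have h4 : c • u = (w₀ - x) + c • w₀ := by rw [← h3]; abel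
            rw [h4, add_smul, one_smul]; abel
          have hcu' : c • u ∈ W := by
            rw [hcu]
            exact W.sub_mem (W.smul_mem _ hw₀W) hx.1
          have := W.smul_mem c⁻¹ hcu'
          rwa [smul_smul, inv_mul_cancel₀ hc, one_smul] at this
      obtain ⟨φ, hφ1, hφ2⟩ := Submodule.exists_le_ker_of_notMem hw₀N
      have hφv : φ ((φ w₀)⁻¹ • (u - w₀)) = 0 := by
        rw [map_smul, hφ2 (Submodule.mem_sup_right (Submodule.mem_span_singleton_self _)),
          smul_zero]
      have htM := hM φ _ hφv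
      have htw : (tvGL φ _ hφv : Matrix ι ι F) *ᵥ w₀ = u := by
        rw [tvGL_mulVec, smul_smul, mul_inv_cancel₀ hφ1, one_smul]; abel
      have htx : ∀ x ∈ W ⊓ U, (tvGL φ _ hφv : Matrix ι ι F) *ᵥ x = x := by
        intro x hx
        have : φ x = 0 := hφ2 (Submodule.mem_sup_left hx)
        rw [tvGL_mulVec, this, zero_smul, add_zero]
      have hle : (W ⊓ U) ⊔ Submodule.span F {u} ≤
          (W.map (glEquiv (tvGL φ _ hφv)).toLinearMap) ⊓ U := by
        apply sup_le
        · intro x hx
          exact ⟨(mem_map_glEquiv _ _ _).mpr ⟨x, hx.1, htx x hx⟩, hx.2⟩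
        · rw [Submodule.span_singleton_le_iff_mem]
          exact ⟨(mem_map_glEquiv _ _ _).mpr ⟨w₀, hw₀W, htw⟩, huU⟩
      have hlt : W ⊓ U < (W ⊓ U) ⊔ Submodule.span F {u} := by
        refine lt_of_le_of_ne le_sup_left ?_
        intro heq
        have : u ∈ W ⊓ U := by
          rw [heq]; exact Submodule.mem_sup_right (Submodule.mem_span_singleton_self u)
        exact huW this.1
      have h1 := Submodule.finrank_lt_finrank_of_lt hlt
      have h2 := Submodule.finrank_mono hle
      obtain ⟨m₁, hm₁, hmap⟩ := ih (W.map (glEquiv (tvGL φ _ hφv)).toLinearMap) U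
        (by rw [finrank_map_glEquiv]; exact hWU) (by omega)
      refine ⟨m₁ * tvGL φ _ hφv, M.mul_mem hm₁ htM, ?_⟩
      rw [← hmap]
      ext x
      rw [mem_map_glEquiv, mem_map_glEquiv]
      constructor
      · rintro ⟨y, hy, rfl⟩
        exact ⟨_, (mem_map_glEquiv _ _ _).mpr ⟨y, hy, rfl⟩, (gl_mul_mulVec _ _ _).symm⟩
      · rintro ⟨z, hz, rfl⟩
        obtain ⟨y, hy, rfl⟩ := (mem_map_glEquiv _ _ _).mp hz
        exact ⟨y, hy, gl_mul_mulVec _ _ _⟩

/-- Maximality of parabolic subgroups of `SL`. -/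
theorem parabolic_maximal (W : Submodule F (ι → F)) (hW0 : W ≠ ⊥) (hW1 : W ≠ ⊤) :
    Cfsg.Geo.IsMaximalIn (Cfsg.Geo.specialLinear ι F)
      (Cfsg.Geo.subspaceStabilizer W ⊓ Cfsg.Geo.specialLinear ι F) := by
  refine ⟨?_, ?_⟩
  · refine lt_of_le_of_ne inf_le_right ?_
    intro heq
    obtain ⟨g, hgSL, hg⟩ := exists_sl_not_stab W hW0 hW1
    rw [← heq] at hgSL
    exact hg hgSL.1
  · intro M hPM hMSL
    by_cases hMP : M = Cfsg.Geo.subspaceStabilizer W ⊓ Cfsg.Geo.specialLinear ι F
    · exact Or.inl hMP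
    · right
      apply le_antisymm hMSL
      obtain ⟨g, hgM, hgP⟩ : ∃ g ∈ M, g ∉ Cfsg.Geo.subspaceStabilizer W ⊓
          Cfsg.Geo.specialLinear ι F := by
        by_contra hcon
        push Not at hcon
        exact hMP (le_antisymm hcon hPM)
      have hgW : g ∉ Cfsg.Geo.subspaceStabilizer W := fun h => hgP ⟨h, hMSL hgM⟩
      have hT := all_transvections_mem W M hPM g hgM hgW
      intro s hs
      obtain ⟨m, hm, hmap⟩ := exists_map_eq_of_transvections M hT
        (Module.finrank F (W.map (glEquiv s).toLinearMap)) W (W.map (glEquiv s).toLinearMap)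
        (finrank_map_glEquiv s W).symm (by omega)
      have hms : m⁻¹ * s ∈ Cfsg.Geo.subspaceStabilizer W ⊓ Cfsg.Geo.specialLinear ι F := by
        refine ⟨(mem_subspaceStabilizer_iff W _).mpr (fun x => ?_),
          Subgroup.mul_mem _ (Subgroup.inv_mem _ (hMSL hm)) hs⟩
        rw [gl_mul_mulVec]
        constructor
        · intro hx
          have h1 : (s : Matrix ι ι F) *ᵥ x ∈ W.map (glEquiv m).toLinearMap := by
            rw [hmap]; exact (mem_map_glEquiv _ _ _).mpr ⟨x, hx, rfl⟩
          obtain ⟨y, hy, hyx⟩ := (mem_map_glEquiv _ _ _).mp h1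
          rw [← hyx, gl_inv_mulVec]
          exact hy
        · intro hx
          have h1 : (s : Matrix ι ι F) *ᵥ x ∈ W.map (glEquiv m).toLinearMap := by
            refine (mem_map_glEquiv _ _ _).mpr ⟨_, hx, ?_⟩
            rw [gl_mulVec_inv]
          rw [hmap] at h1
          obtain ⟨y, hy, hyx⟩ := (mem_map_glEquiv _ _ _).mp h1
          have : y = x := by
            have h2 := congrArg (fun z => ((s⁻¹ : GL ι F) : Matrix ι ι F) *ᵥ z) hyx
            simpa [gl_inv_mulVec] using h2
          rw [← this]; exact hy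
      have : s = m * (m⁻¹ * s) := by group
      rw [this]
      exact M.mul_mem hm (hPM hms)

end Cfsg.Agent.Lib.Helper93
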