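import Cfsg.Agent.Lib.Helper93.SRGd

set_option autoImplicit false

namespace Cfsg.Agent.Lib.Helper93.HSG

/-- The number of set bits among the lowest `k` bits of `m`. -/
def pc : ℕ → ℕ → ℕ
  | 0, _ => 0
  | k + 1, m => m % 2 + pc k (m / 2)

theorem card_filter_testBit (n m : ℕ) :
    (Finset.univ.filter (fun u : Fin n => m.testBit u = true)).card = pc n m := by
  induction n generalizing m with
  | zero => simp [pc]
  | succ n ih =>
    rw [Finset.card_filter, Fin.sum_univ_succ, pc]
    have h1 : (∑ i : Fin n, if m.testBit ((i.succ : Fin (n + 1)) : ℕ) = true then 1 else 0)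
        = pc n (m / 2) := by
      rw [← ih (m / 2), Finset.card_filter]
      apply Finset.sum_congr rfl
      intro i _
      rw [Fin.val_succ, Nat.testBit_succ]
    rw [h1]
    congr 1
    rw [Fin.val_zero, Nat.testBit_zero]
    rcases Nat.mod_two_eq_zero_or_one m with h | h <;> simp [h]

/-- The rows of the adjacency matrix of a concrete Higman–Sims graph, as bitmasks. -/
def hsRows : List ℕ := [
  8388606,
  17592177655809,
  1152903912680849409,
  4721213825251863953409,
  2413137345184868325130241,
  152357774416207920339353601,
  4799553647251750028495028225,
  35131583118638885721776062465,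
  133862850272019281621773451265,
  185091701173582428160047185921,
  367417949947133017859813277697,
  170961984161447210983347978241,
  837543866955804638674233065473,
  1129169508242861914093080543233,
  170864176057011021055745064961,
  426550220041608509795774496769,
  138974583443858169717952872449,
  958504706201650837923309813761,
  714642765847559625589527674881,
  716343261621804925300840071169,
  516419940574426126659339943937,
  694581417012645330287415263233,
  404888757415944595962310164481,
  409042105296029829557504709134,
  549756603100672197850705952854,
  801103044624144988097392772134,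
  120815613417571611347444195462,
  654583834015734333131153475846,
  1113664882881691719110297190810,
  228556304247836846378008838186,
  737899787754711522275125904458,
  46138110833761199992448002058,
  97487781857382010794948960306,
  673951966315483522796689080850,
  100435140026538947580451232786,
  1069582010290561151362322664162,
  338267343887701355551579984162,
  158501226640641538147102130498,
  9962465375368859012330238018,
  158469115670146016234047014018,
  2506411959210501679304970370,
  2558212486651263436531705602,
  9983503720568157615955837442,
  322638136966968731475800049666,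
  1096660132301936259684915759164,
  831965540755324236528992944332,
  179586213845742146299043120396,
  18047198812693400359449993228,
  715618806252090690855658063508,
  4086170902834310913667936532,
  169174661621933141960517943316,
  108940387650882672537124343908,
  478465113215022291169195590052,
  49827807113365928220559942180,
  950854167930827653045366637380,
  84185393722055395508318383172,
  318172960577020149529355819140,
  39774911515016873690502957572,
  19971842116502960721847669764,
  5271092575057914495407538180,
  128866656668582274343347823192,
  166053214879088340688764699672,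
  30051478024183125175099199512,
  490225011136081041316953784424,
  82942964885088644883560805544,
  636612063023383188086964912936,
  336745087573155188011750922568,
  356613854253471951136148439688,
  79850782923514103441877239944,
  967244547973038078018216200,
  633983112157823018963853970952,
  1431826240022383156900646920,
  812088668575907348105461237104,
  199308348169963057210093895856,
  329446793840878136988644217392,
  396189170821744722093025546448,
  638796403840988377298725079120,
  40252396497785596544809183376,
  317229391001717028200410254096,
  20503383109042977266860441872,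
  6267071854861514307166364688,
  44566145126153345771912880224,
  634444572442638815011366060192,
  1856947993216424433588316448,
  79383131771237648026952680992,
  24758841517291180607273700384,
  466041052206827219353376800,
  96736499549304852768629184,
  158533999144825948213707474112,
  15263573922146861992941120,
  9914412471095233702933037632,
  59421140832815751969272121408,
  42387973692109664167269248,
  635063259057866522375965691264,
  2515174968763951405445784192,
  2478458639550456679978046720,
  158475705935360522689698431232,
  79537661702720082057974807040,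
  359130531601098237715456,
  9908437515295167059197833216]

/-- Row `i` of the adjacency matrix. -/
def hsRow (i : ℕ) : ℕ := hsRows.getD i 0

/-- Adjacency in the concrete Higman–Sims graph. -/
def hsAdj (i j : Fin 100) : Prop := (hsRow i).testBit j = true

instance hsAdj_dec : DecidableRel hsAdj := fun i j =>
  inferInstanceAs (Decidable ((hsRow i).testBit j = true))

theorem hsAdj_symm : ∀ i j : Fin 100, hsAdj i j → hsAdj j i := by decide +kernel

theorem hsAdj_irrefl : ∀ i : Fin 100, ¬ hsAdj i i := by decide +kernel

/-- A concrete Higman–Sims graph on `Fin 100`. -/
def hsGraph : SimpleGraph (Fin 100) where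
  Adj := hsAdj
  symm := ⟨fun i j h => hsAdj_symm i j h⟩
  loopless := ⟨hsAdj_irrefl⟩

instance hsGraph_dec : DecidableRel hsGraph.Adj := hsAdj_dec

theorem hs_deg : ∀ v : Fin 100, pc 100 (hsRow v) = 22 := by decide +kernel

theorem hs_adj : ∀ v w : Fin 100, (hsRow v).testBit w = true →
    pc 100 (hsRow v &&& hsRow w) = 0 := by decide +kernel

theorem hs_nadj : ∀ v w : Fin 100, v ≠ w → ¬ (hsRow v).testBit w = true →
    pc 100 (hsRow v &&& hsRow w) = 6 := by decide +kernel

theorem hs_nb (v : Fin 100) :
    nb hsGraph v = Finset.univ.filter (fun u : Fin 100 => (hsRow v).testBit u = true) := rfl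

theorem hs_nb_inter (v w : Fin 100) : nb hsGraph v ∩ nb hsGraph w =
    Finset.univ.filter (fun u : Fin 100 => (hsRow v &&& hsRow w).testBit u = true) := by
  ext u
  rw [Finset.mem_inter, hs_nb, hs_nb, Finset.mem_filter, Finset.mem_filter, Finset.mem_filter,
    Nat.testBit_and, Bool.and_eq_true]
  simp

theorem hsGraph_srg : Srg hsGraph := by
  refine ⟨Fintype.card_fin 100, fun v => ?_, fun v w h => ?_, fun v w hne h => ?_⟩
  · rw [hs_nb, card_filter_testBit]
    exact hs_deg v
  · rw [← Finset.card_eq_zero, hs_nb_inter, card_filter_testBit]
    exact hs_adj v w h
  · rw [hs_nb_inter, card_filter_testBit]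
    exact hs_nadj v w hne h

/-- The transpositions of an odd automorphism. -/
def hsSwaps : List (Fin 100 × Fin 100) := [
(1, 22), (2, 11), (3, 15), (4, 17), (5, 9), (6, 19), (7, 13), (8, 20), (10, 16), (12, 21), (14, 18), (23, 86), (24, 91), (25, 70), (26, 77), (28, 98), (29, 33), (30, 96), (31, 45), (32, 92), (34, 50), (35, 53), (36, 90), (37, 62), (38, 39), (40, 69), (41, 82), (42, 72), (43, 58), (44, 57), (46, 76), (47, 93), (48, 83), (49, 68), (51, 78), (52, 97), (54, 85), (55, 56), (59, 66), (60, 73), (61, 71), (63, 89), (64, 94), (67, 81), (74, 84), (75, 99), (80, 88)]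

/-- An odd automorphism of the concrete Higman–Sims graph, as a permutation. -/
def hsTau : Equiv.Perm (Fin 100) := (hsSwaps.map fun p => Equiv.swap p.1 p.2).prod

/-- The values of `hsTau`. -/
def hsTauVals : List ℕ := [
0, 22, 11, 15, 17, 9, 19, 13, 20, 5, 16, 2, 21, 7, 18, 3, 10, 4, 14, 6, 8, 12, 1, 86, 91, 70, 77, 27, 98, 33, 96, 45, 92, 29, 50, 53, 90, 62, 39, 38, 69, 82, 72, 58, 57, 31, 76, 93, 83, 68, 34, 78, 97, 35, 85, 56, 55, 44, 43, 66, 73, 71, 37, 89, 94, 65, 59, 81, 49, 40, 25, 61, 42, 60, 84, 99, 46, 26, 51, 79, 88, 67, 41, 48, 74, 54, 23, 87, 80, 63, 36, 24, 32, 47, 64, 95, 30, 52, 28, 75]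

theorem hsTau_val : ∀ i : Fin 100, ((hsTau i : Fin 100) : ℕ) = hsTauVals.getD i 0 := by
  decide +kernel

theorem hsTau_adj_aux : ∀ i j : Fin 100, (hsRow i).testBit j = true →
    (hsRow (hsTauVals.getD i 0)).testBit (hsTauVals.getD j 0) = true := by decide +kernel

theorem hsTau_adj (i j : Fin 100) (h : hsGraph.Adj i j) : hsGraph.Adj (hsTau i) (hsTau j) := by
  have := hsTau_adj_aux i j h
  rw [← hsTau_val, ← hsTau_val] at this
  exact this

theorem hsTau_sign : Equiv.Perm.sign hsTau = -1 := by
  have h0 : hsSwaps.all (fun p => decide (p.1 ≠ p.2)) = true := by decide +kernel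
  have h1 : ∀ p ∈ hsSwaps, p.1 ≠ p.2 := fun p hp =>
    of_decide_eq_true (List.all_eq_true.mp h0 p hp)
  have h2 : ∀ g ∈ hsSwaps.map (fun p => Equiv.swap p.1 p.2), Equiv.Perm.IsSwap g := by
    intro g hg
    rw [List.mem_map] at hg
    obtain ⟨p, hp, rfl⟩ := hg
    exact ⟨p.1, p.2, h1 p hp, rfl⟩
  have h3 := Equiv.Perm.sign_prod_list_swap h2
  rw [hsTau, h3]
  rfl

end Cfsg.Agent.Lib.Helper93.HSG
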