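import Cfsg.Agent.Lib.Helper93.HSc

set_option autoImplicit false

namespace Cfsg.Agent.Lib.Helper93.HSG

theorem hsTau_invol : ∀ i : Fin 100, hsTau (hsTau i) = i := by decide +kernel

theorem hsTau_zero : hsTau 0 = 0 := by decide +kernel

theorem hsTau_adj_inv (i j : Fin 100) (h : hsGraph.Adj (hsTau i) (hsTau j)) :
    hsGraph.Adj i j := by
  have h2 := hsTau_adj _ _ h
  have hi : hsTau (hsTau i) = i := hsTau_invol i
  have hj : hsTau (hsTau j) = j := hsTau_invol j
  have h3 : hsGraph.Adj (hsTau (hsTau i)) (hsTau (hsTau j)) = hsGraph.Adj i j :=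
    congrArg₂ (fun a b => hsGraph.Adj a b) hi hj
  exact h3.mp h2

attribute [local irreducible] hsTau

/-- The odd automorphism of the concrete Higman–Sims graph. -/
def hsTauIso : hsGraph ≃g hsGraph where
  toEquiv := hsTau
  map_rel_iff' := ⟨hsTau_adj_inv _ _, hsTau_adj _ _⟩

/-- The concrete Higman–Sims graph has an automorphism fixing a vertex and acting as an odd
permutation on the vertices. -/
theorem hs_odd_aut : ∃ τ : hsGraph ≃g hsGraph,
    Equiv.Perm.sign τ.toEquiv = -1 ∧ τ 0 = 0 :=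
  ⟨hsTauIso, hsTau_sign, hsTau_zero⟩

end Cfsg.Agent.Lib.Helper93.HSG
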