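import Mathlib

set_option autoImplicit false

namespace Cfsg.Agent.Lib.Helper93.HSG

open MulAction
open scoped Pointwise

/-- A simple subgroup of index two with more than two elements is the only subgroup of index
two. -/
theorem eq_of_index_two_simple {S : Type*} [Group S] (M X : Subgroup S)
    (hM : M.index = 2) (hX : X.index = 2) [IsSimpleGroup M] (hc : 2 < Nat.card M) : X = M := by
  have hXn : X.Normal := Subgroup.normal_of_index_eq_two hX
  rcases Subgroup.Normal.eq_bot_or_eq_top (inferInstance : (X.subgroupOf M).Normal) with h | h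
  · exfalso
    have h1 : X.relIndex M ∣ X.index := Subgroup.relIndex_dvd_index_of_normal X M
    rw [Subgroup.relIndex, h, Subgroup.index_bot, hX] at h1
    have := Nat.le_of_dvd (by norm_num) h1
    omega
  · rw [Subgroup.subgroupOf_eq_top] at h
    have h2 := Subgroup.relIndex_mul_index h
    rw [hM, hX] at h2
    have h3 : M.relIndex X = 1 := by omega
    rw [Subgroup.relIndex_eq_one] at h3
    exact le_antisymm h3 h

variable {G V : Type*} [Group G] [MulAction G V]

theorem fixed_ne_univ [FaithfulSMul G V] (N : Subgroup G) (hN : N ≠ ⊥) :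
    fixedPoints N V ≠ Set.univ := by
  intro h
  apply hN
  rw [Subgroup.eq_bot_iff_forall]
  intro n hn
  apply FaithfulSMul.eq_of_smul_eq_smul (α := V)
  intro x
  have hx : x ∈ fixedPoints N V := by
    rw [h]
    trivial
  rw [one_smul]
  exact hx ⟨n, hn⟩

theorem card_dvd_of_pretransitive (N : Subgroup G) [IsPretransitive N V] (v : V) :
    Nat.card V ∣ Nat.card N := by
  rw [← index_stabilizer_of_transitive N v]
  exact Subgroup.index_dvd_card _

/-- A finite group acting faithfully and primitively on 100 points with a simple point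
stabiliser is simple. -/
theorem simple_of_primitive [Finite G] [Finite V] [FaithfulSMul G V] [IsPreprimitive G V]
    (hV : Nat.card V = 100) (v : V) [IsSimpleGroup (stabilizer G v)] : IsSimpleGroup G := by
  have key : ∀ N : Subgroup G, N.Normal → N ≠ ⊥ → IsPretransitive N V := by
    intro N hN hne
    exact IsQuasiPreprimitive.isPretransitive_of_normal (fixed_ne_univ N hne)
  have hnt : Nontrivial G := by
    by_contra hcon
    rw [not_nontrivial_iff_subsingleton] at hcon
    have h1 := index_stabilizer_of_transitive G v
    have h2 := Subgroup.index_dvd_card (stabilizer G v)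
    rw [h1, hV, Nat.card_unique] at h2
    norm_num at h2
  refine { exists_pair_ne := hnt.exists_pair_ne, eq_bot_or_eq_top_of_normal := ?_ }
  intro N hN
  by_cases hne : N = ⊥
  · exact Or.inl hne
  right
  have hNt := key N hN hne
  rcases Subgroup.Normal.eq_bot_or_eq_top
    (inferInstance : (N.subgroupOf (stabilizer G v)).Normal) with h | h
  · exfalso
    have hdisj : ∀ n ∈ N, n • v = v → n = 1 := by
      intro n hn hnv
      have hmem : (⟨n, hnv⟩ : stabilizer G v) ∈ N.subgroupOf (stabilizer G v) :=
        Subgroup.mem_subgroupOf.mpr hn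
      rw [h, Subgroup.mem_bot] at hmem
      exact congrArg Subtype.val hmem
    have hstab : stabilizer N v = ⊥ := by
      rw [Subgroup.eq_bot_iff_forall]
      intro n hn
      apply Subtype.ext
      exact hdisj n.1 n.2 hn
    have hcard : Nat.card N = 100 := by
      have := index_stabilizer_of_transitive N v
      rw [hstab, Subgroup.index_bot, hV] at this
      exact this
    have : Fact (Nat.Prime 5) := ⟨by norm_num⟩
    have hn5 : Nat.card (Sylow 5 N) = 1 := by
      have P : Sylow 5 N := default
      have h1 := Sylow.card_dvd_index P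
      have h2 : (P : Subgroup N).index ∣ Nat.card N := Subgroup.index_dvd_card _
      have h3 : Nat.card (Sylow 5 N) % 5 = 1 := card_sylow_modEq_one 5 N
      have h4 : Nat.card (Sylow 5 N) ∣ 100 := hcard ▸ h1.trans h2
      have h5 : ∀ d ∈ Nat.divisors 100, d % 5 = 1 → d = 1 := by decide
      exact h5 _ (Nat.mem_divisors.mpr ⟨h4, by norm_num⟩) h3
    have : Subsingleton (Sylow 5 N) := (Nat.card_eq_one_iff_unique.mp hn5).1
    have P : Sylow 5 N := default
    have : (P : Subgroup N).Characteristic := Sylow.characteristic_of_subsingleton P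
    have hPn : ((P : Subgroup N).map N.subtype).Normal := inferInstance
    have hPne : (P : Subgroup N).map N.subtype ≠ ⊥ := by
      rw [Ne, Subgroup.map_eq_bot_iff_of_injective _ N.subtype_injective]
      exact P.ne_bot_of_dvd_card (by rw [hcard]; norm_num)
    have hPt := key _ hPn hPne
    have h6 := card_dvd_of_pretransitive ((P : Subgroup N).map N.subtype) v
    rw [hV] at h6
    have h7 : Nat.card ((P : Subgroup N).map N.subtype) = Nat.card (P : Subgroup N) :=
      Subgroup.card_map_of_injective N.subtype_injective
    obtain ⟨k, hk⟩ := IsPGroup.iff_card.mp P.isPGroup'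
    rw [h7, hk] at h6
    have h8 : 2 ∣ 5 ^ k := (by norm_num : 2 ∣ 100).trans h6
    have h9 := Nat.Prime.dvd_of_dvd_pow Nat.prime_two h8
    norm_num at h9
  · rw [Subgroup.subgroupOf_eq_top] at h
    rw [Subgroup.eq_top_iff']
    intro g
    obtain ⟨n, hn⟩ := exists_smul_eq N v (g • v)
    have hn' : n.1 • v = g • v := hn
    have hmem : n.1⁻¹ * g ∈ stabilizer G v := by
      rw [mem_stabilizer_iff, mul_smul, ← hn', inv_smul_smul]
    have := N.mul_mem n.2 (h hmem)
    rwa [mul_inv_cancel_left] at this

/-- Primitivity of a subgroup of index two in a rank three group of degree 100 with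
subdegrees 1, 22, 77. -/
theorem preprimitive_index_two {A : Type*} [Group A] [MulAction A V] [Finite V]
    [IsPretransitive A V] (hV : Nat.card V = 100)
    (H : Subgroup A) (hH : H.index = 2) (v : V) (a : A) (hav : a • v = v) (haH : a ∉ H)
    (X Y : Set V) (hX : X.ncard = 22) (hY : Y.ncard = 77) (hvX : v ∉ X) (hvY : v ∉ Y)
    (hcov : ∀ x, x = v ∨ x ∈ X ∨ x ∈ Y)
    (hXt : ∀ x ∈ X, ∀ x' ∈ X, ∃ g : A, g • v = v ∧ g • x = x')
    (hYt : ∀ y ∈ Y, ∀ y' ∈ Y, ∃ g : A, g • v = v ∧ g • y = y') :
    IsPretransitive H V ∧ IsPreprimitive H V := by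
  have hHn : H.Normal := Subgroup.normal_of_index_eq_two hH
  have hbase : ∀ y : V, ∃ h : H, h • v = y := by
    intro y
    obtain ⟨g, hg⟩ := exists_smul_eq A v y
    by_cases hgH : g ∈ H
    · exact ⟨⟨g, hgH⟩, hg⟩
    · refine ⟨⟨g * a, ?_⟩, ?_⟩
      · rw [Subgroup.mul_mem_iff_of_index_two hH]
        exact ⟨fun h => absurd h hgH, fun h => absurd h haH⟩
      · show (g * a) • v = y
        rw [mul_smul, hav, hg]
  have hHt : IsPretransitive H V := by
    refine ⟨fun x y => ?_⟩
    obtain ⟨h1, rfl⟩ := hbase x
    obtain ⟨h2, rfl⟩ := hbase y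
    refine ⟨h2 * h1⁻¹, ?_⟩
    rw [mul_smul, inv_smul_smul]
  refine ⟨hHt, ?_⟩
  -- invariant sets
  have hinv : ∀ O : Set V, v ∈ O → (∀ g : A, g • v = v → g • O = O) →
      O.ncard = 1 ∨ O.ncard = 23 ∨ O.ncard = 78 ∨ O.ncard = 100 := by
    intro O hvO hO
    have hXO : X ⊆ O ∨ Disjoint X O := by
      by_cases hd : Disjoint X O
      · exact Or.inr hd
      · left
        rw [Set.not_disjoint_iff] at hd
        obtain ⟨x, hxX, hxO⟩ := hd
        intro x' hx'
        obtain ⟨g, hgv, hgx⟩ := hXt x hxX x' hx'
        rw [← hO g hgv, ← hgx]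
        exact Set.smul_mem_smul_set hxO
    have hYO : Y ⊆ O ∨ Disjoint Y O := by
      by_cases hd : Disjoint Y O
      · exact Or.inr hd
      · left
        rw [Set.not_disjoint_iff] at hd
        obtain ⟨x, hxX, hxO⟩ := hd
        intro x' hx'
        obtain ⟨g, hgv, hgx⟩ := hYt x hxX x' hx'
        rw [← hO g hgv, ← hgx]
        exact Set.smul_mem_smul_set hxO
    have hXf : X.Finite := Set.toFinite X
    have hYf : Y.Finite := Set.toFinite Y
    have hvX1 : (insert v X).ncard = 23 := by
      rw [Set.ncard_insert_of_notMem hvX hXf, hX]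
    have hvY1 : (insert v Y).ncard = 78 := by
      rw [Set.ncard_insert_of_notMem hvY hYf, hY]
    rcases hXO with hXO | hXO <;> rcases hYO with hYO | hYO
    · right; right; right
      have : O = Set.univ := by
        apply Set.eq_univ_of_forall
        intro x
        rcases hcov x with rfl | hx | hx
        · exact hvO
        · exact hXO hx
        · exact hYO hx
      rw [this, Set.ncard_univ, hV]
    · right; left
      have : O = insert v X := by
        ext x
        constructor
        · intro hx
          rcases hcov x with rfl | hx' | hx'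
          · exact Set.mem_insert _ _
          · exact Set.mem_insert_of_mem _ hx'
          · exact absurd hx (Set.disjoint_left.mp hYO hx')
        · intro hx
          rcases Set.mem_insert_iff.mp hx with rfl | hx'
          · exact hvO
          · exact hXO hx'
      rw [this, hvX1]
    · right; right; left
      have : O = insert v Y := by
        ext x
        constructor
        · intro hx
          rcases hcov x with rfl | hx' | hx'
          · exact Set.mem_insert _ _
          · exact absurd hx (Set.disjoint_left.mp hXO hx')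
          · exact Set.mem_insert_of_mem _ hx'
        · intro hx
          rcases Set.mem_insert_iff.mp hx with rfl | hx'
          · exact hvO
          · exact hYO hx'
      rw [this, hvY1]
    · left
      have : O = {v} := by
        ext x
        constructor
        · intro hx
          rcases hcov x with rfl | hx' | hx'
          · exact Set.mem_singleton _
          · exact absurd hx (Set.disjoint_left.mp hXO hx')
          · exact absurd hx (Set.disjoint_left.mp hYO hx')
        · intro hx
          rw [Set.mem_singleton_iff] at hx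
          rw [hx]
          exact hvO
      rw [this, Set.ncard_singleton]
  apply IsPreprimitive.of_isTrivialBlock_base v
  intro B hvB hB
  -- elements of `H` fixing `v` fix `B`
  have hfix : ∀ h : A, h ∈ H → h • v = v → h • B = B := by
    intro h hh hhv
    rcases hB.smul_eq_or_disjoint ⟨h, hh⟩ with h1 | h1
    · exact h1
    · exfalso
      have h2 : v ∈ (⟨h, hh⟩ : H) • B := by
        have : (⟨h, hh⟩ : H) • v ∈ (⟨h, hh⟩ : H) • B := Set.smul_mem_smul_set hvB
        rwa [show (⟨h, hh⟩ : H) • v = v from hhv] at this
      exact Set.disjoint_left.mp h1 h2 hvB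
  have hswap : ∀ g : A, g • v = v → (g • B = B ∧ g • (a • B) = a • B) ∨
      (g • B = a • B ∧ g • (a • B) = B) := by
    intro g hgv
    have hainv : a⁻¹ • v = v := by
      rw [inv_smul_eq_iff, hav]
    by_cases hgH : g ∈ H
    · left
      refine ⟨hfix g hgH hgv, ?_⟩
      have h1 : a⁻¹ * g * a ∈ H := by
        have := hHn.conj_mem g hgH a⁻¹
        rwa [inv_inv] at this
      have h2 : (a⁻¹ * g * a) • v = v := by
        rw [mul_smul, mul_smul, hav, hgv, hainv]
      have h3 := hfix _ h1 h2
      rw [smul_smul, show g * a = a * (a⁻¹ * g * a) by group, ← smul_smul, h3]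
    · right
      have h1 : a⁻¹ * g ∈ H := by
        rw [Subgroup.mul_mem_iff_of_index_two hH, Subgroup.inv_mem_iff]
        exact ⟨fun h => absurd h haH, fun h => absurd h hgH⟩
      have h2 : (a⁻¹ * g) • v = v := by
        rw [mul_smul, hgv, hainv]
      have h3 := hfix _ h1 h2
      have h4 : g * a ∈ H := by
        rw [Subgroup.mul_mem_iff_of_index_two hH]
        exact ⟨fun h => absurd h hgH, fun h => absurd h haH⟩
      have h5 : (g * a) • v = v := by
        rw [mul_smul, hav, hgv]
      have h6 := hfix _ h4 h5
      refine ⟨?_, ?_⟩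
      · rw [show g = a * (a⁻¹ * g) by group, ← smul_smul, h3]
      · rw [smul_smul, h6]
  have hI := hinv (B ∩ a • B) ⟨hvB, by
      have : a • v ∈ a • B := Set.smul_mem_smul_set hvB
      rwa [hav] at this⟩ (by
    intro g hgv
    rw [Set.smul_set_inter]
    rcases hswap g hgv with ⟨h1, h2⟩ | ⟨h1, h2⟩
    · rw [h1, h2]
    · rw [h1, h2, Set.inter_comm])
  have hU := hinv (B ∪ a • B) (Or.inl hvB) (by
    intro g hgv
    rw [Set.smul_set_union]
    rcases hswap g hgv with ⟨h1, h2⟩ | ⟨h1, h2⟩
    · rw [h1, h2]
    · rw [h1, h2, Set.union_comm])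
  have hsum : (B ∪ a • B).ncard + (B ∩ a • B).ncard = 2 * B.ncard := by
    rw [Set.ncard_union_add_ncard_inter B (a • B) (Set.toFinite _) (Set.toFinite _),
      Set.ncard_smul_set]
    ring
  have hdvd : B.ncard ∣ 100 := by
    rw [← hV]
    exact hB.ncard_dvd_card ⟨v, hvB⟩
  have hIB : (B ∩ a • B).ncard ≤ B.ncard :=
    Set.ncard_le_ncard Set.inter_subset_left (Set.toFinite _)
  have hBU : B.ncard ≤ (B ∪ a • B).ncard :=
    Set.ncard_le_ncard Set.subset_union_left (Set.toFinite _)
  have hcases : B.ncard = 1 ∨ B.ncard = 100 := by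
    rcases hI with h1 | h1 | h1 | h1 <;> rcases hU with h2 | h2 | h2 | h2 <;>
      first
      | omega
      | (exfalso
         have h3 : B.ncard = 12 ∨ B.ncard = 23 ∨ B.ncard = 78 ∨ B.ncard = 89 := by omega
         rcases h3 with h3 | h3 | h3 | h3 <;> rw [h3] at hdvd <;> norm_num at hdvd)
  rcases hcases with h | h
  · left
    rw [← Set.ncard_le_one_iff_subsingleton]
    omega
  · right
    rw [Set.eq_univ_iff_ncard, h, hV]

end Cfsg.Agent.Lib.Helper93.HSG
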