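import Cfsg.Agent.Lib.Helper93.HSc
import Cfsg.Agent.Lib.Helper93.HSs

set_option autoImplicit false

namespace Cfsg.Agent.Lib.Helper93.HSG

open MulAction
open Cfsg.Agent.Lib.Helper93.P4

variable {V : Type*} [Fintype V] [DecidableEq V] {G : SimpleGraph V} [DecidableRel G.Adj]

/-- Two strongly regular graphs with parameters `(100, 22, 0, 6)` are isomorphic, by an
isomorphism matching two given vertices. -/
theorem Srg.iso_pt {W : Type*} [Fintype W] [DecidableEq W] {H : SimpleGraph W}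
    [DecidableRel H.Adj] (S : Srg G) (S' : Srg H) (v0 : V) (w0 : W) :
    ∃ φ : G ≃g H, φ v0 = w0 := by
  obtain ⟨e, he⟩ := Cfsg.Agent.Lib.Helper93.Der.steiner22_iso (S.card_pts v0) (S'.card_pts w0)
    (S.local_steiner v0) (S'.local_steiner w0)
  obtain ⟨φ, hφ, -⟩ := S.extend S' v0 w0 e he
  exact ⟨φ, hφ⟩

omit [Fintype V] [DecidableEq V] [DecidableRel G.Adj] in
theorem stab_apply {v0 : V} (φ : stabilizer (G ≃g G) v0) : φ.1 v0 = v0 := φ.2

omit [Fintype V] [DecidableEq V] [DecidableRel G.Adj] in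
theorem stab_symm_apply {v0 : V} (φ : stabilizer (G ≃g G) v0) : φ.1.symm v0 = v0 := by
  rw [RelIso.symm_apply_eq]
  exact (stab_apply φ).symm

/-- The permutation of the neighbours of `v0` induced by an automorphism fixing `v0`. -/
def resPerm (v0 : V) (φ : stabilizer (G ≃g G) v0) : Equiv.Perm (Pts G v0) where
  toFun p := ⟨φ.1 p.1, by
    have := φ.1.map_rel_iff.mpr p.2
    rwa [stab_apply φ] at this⟩
  invFun p := ⟨φ.1.symm p.1, by
    have := φ.1.symm.map_rel_iff.mpr p.2
    rwa [stab_symm_apply φ] at this⟩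
  left_inv p := Subtype.ext (φ.1.symm_apply_apply p.1)
  right_inv p := Subtype.ext (φ.1.apply_symm_apply p.1)

theorem blk_resPerm (v0 : V) (φ : stabilizer (G ≃g G) v0) (b : V) :
    (blk G v0 b).image (resPerm v0 φ) = blk G v0 (φ.1 b) := by
  ext q
  rw [Finset.mem_image, mem_blk]
  constructor
  · rintro ⟨p, hp, rfl⟩
    rw [mem_blk] at hp
    exact φ.1.map_rel_iff.mpr hp
  · intro hq
    refine ⟨(resPerm v0 φ).symm q, ?_, Equiv.apply_symm_apply _ _⟩
    rw [mem_blk]
    have : G.Adj (φ.1 b) (φ.1 (φ.1.symm q.1)) := by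
      rw [RelIso.apply_symm_apply]
      exact hq
    exact φ.1.map_rel_iff.mp this

theorem resPerm_mem (v0 : V) (φ : stabilizer (G ≃g G) v0) :
    resPerm v0 φ ∈ Cfsg.setSystemAut (design G v0) := by
  apply Cfsg.Agent.Lib.Helper93.Der.aut_of_maps
  rintro _ ⟨b, hb0, hb, rfl⟩
  refine ⟨φ.1 b, ?_, ?_, ?_⟩
  · intro h
    apply hb0
    exact φ.1.injective (h.trans (stab_apply φ).symm)
  · intro h
    apply hb
    have h2 : G.Adj (φ.1 v0) (φ.1 b) := by
      rw [stab_apply φ]
      exact h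
    exact φ.1.map_rel_iff.mp h2
  · exact blk_resPerm v0 φ b

/-- Restriction to the neighbours of `v0`, as a homomorphism from the stabiliser of `v0` to the
automorphism group of the local design. -/
def resHom (v0 : V) : stabilizer (G ≃g G) v0 →* Cfsg.setSystemAut (design G v0) where
  toFun φ := ⟨resPerm v0 φ, resPerm_mem v0 φ⟩
  map_one' := by
    apply Subtype.ext
    apply Equiv.ext
    intro p
    rfl
  map_mul' φ ψ := by
    apply Subtype.ext
    apply Equiv.ext
    intro p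
    rfl

theorem resHom_apply (v0 : V) (φ : stabilizer (G ≃g G) v0) (p : Pts G v0) :
    ((resHom v0 φ).1 p).1 = φ.1 p.1 := rfl

theorem Srg.resHom_bijective (S : Srg G) (v0 : V) :
    Function.Bijective (resHom (G := G) v0) := by
  constructor
  · intro φ φ' h
    apply Subtype.ext
    apply S.ext_unique (v0 := v0)
    · rw [stab_apply φ, stab_apply φ']
    · intro p hp
      have := congrArg (fun σ : Cfsg.setSystemAut (design G v0) => (σ.1 ⟨p, hp⟩).1) h
      exact this
  · intro g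
    have he : (fun s : Finset (Pts G v0) => s.image g.1) '' design G v0 = design G v0 :=
      (aut_iff g.1).mp g.2
    obtain ⟨φ, hφ0, hφp⟩ := S.extend S v0 v0 g.1 he
    refine ⟨⟨φ, hφ0⟩, ?_⟩
    apply Subtype.ext
    apply Equiv.ext
    intro p
    apply Subtype.ext
    exact hφp p

theorem Srg.stab_trans_nb (S : Srg G) (v : V) {x x' : V} (hx : G.Adj v x) (hx' : G.Adj v x') :
    ∃ g : G ≃g G, g • v = v ∧ g • x = x' := by
  have h3 := (Cfsg.Agent.Lib.Helper93.Der.aut22 (S.card_pts v) (S.local_steiner v)).2.1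
  have h1 : IsMultiplyPretransitive (Cfsg.setSystemAut (design G v)) (Pts G v) 1 :=
    isMultiplyPretransitive_of_le (n := 3) (by norm_num)
      (by rw [Nat.card_eq_fintype_card, S.card_pts]; norm_num)
  rw [is_one_pretransitive_iff] at h1
  obtain ⟨σ, hσ⟩ := exists_smul_eq (Cfsg.setSystemAut (design G v))
    (⟨x, hx⟩ : Pts G v) ⟨x', hx'⟩
  obtain ⟨φ, rfl⟩ := (S.resHom_bijective v).2 σ
  refine ⟨φ.1, φ.2, ?_⟩
  have := congrArg Subtype.val hσ
  exact this

theorem Srg.stab_trans_nnb (S : Srg G) (v : V) {y y' : V} (hy0 : y ≠ v) (hy : ¬ G.Adj v y)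
    (hy0' : y' ≠ v) (hy' : ¬ G.Adj v y') :
    ∃ g : G ≃g G, g • v = v ∧ g • y = y' := by
  have h3 := (Cfsg.Agent.Lib.Helper93.Der.aut22 (S.card_pts v) (S.local_steiner v)).2.1
  have hSt := S.local_steiner v
  have hb : blk G v y ∈ design G v := ⟨y, hy0, hy, rfl⟩
  have hb' : blk G v y' ∈ design G v := ⟨y', hy0', hy', rfl⟩
  obtain ⟨t, htb, ht⟩ := Finset.exists_subset_card_eq
    (show 3 ≤ (blk G v y).card by rw [S.card_blk hy0 hy]; norm_num)
  obtain ⟨t', htb', ht'⟩ := Finset.exists_subset_card_eq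
    (show 3 ≤ (blk G v y').card by rw [S.card_blk hy0' hy']; norm_num)
  let x : Fin 3 ↪ Pts G v :=
    (Finset.equivFinOfCardEq ht).symm.toEmbedding.trans (Function.Embedding.subtype _)
  let x' : Fin 3 ↪ Pts G v :=
    (Finset.equivFinOfCardEq ht').symm.toEmbedding.trans (Function.Embedding.subtype _)
  obtain ⟨σ, hσ⟩ := exists_smul_eq (Cfsg.setSystemAut (design G v)) x x'
  have hσi : ∀ i, σ.1 (x i) = x' i := fun i =>
    congrArg (fun f : Fin 3 ↪ Pts G v => f i) hσ
  have himg : (blk G v y).image σ.1 ∈ design G v := aut_image σ.2 hb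
  have hsub : t' ⊆ (blk G v y).image σ.1 := by
    intro q hq
    obtain ⟨i, hi⟩ := (Finset.equivFinOfCardEq ht').symm.surjective ⟨q, hq⟩
    have hxi : x' i = q := congrArg Subtype.val hi
    rw [← hxi, ← hσi i, Finset.mem_image]
    exact ⟨x i, htb ((Finset.equivFinOfCardEq ht).symm i).2, rfl⟩
  have heq : (blk G v y).image σ.1 = blk G v y' := by
    obtain ⟨c, -, hc⟩ := hSt.2 t' ht'
    rw [hc _ ⟨himg, hsub⟩, hc _ ⟨hb', htb'⟩]
  obtain ⟨φ, rfl⟩ := (S.resHom_bijective v).2 σ
  refine ⟨φ.1, φ.2, ?_⟩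
  have h1 : (blk G v y).image (resPerm v φ) = blk G v y' := heq
  rw [blk_resPerm] at h1
  have h2 : φ.1 y ≠ v := by
    intro h
    apply hy0
    exact φ.1.injective (h.trans (stab_apply φ).symm)
  have h4 : ¬ G.Adj v (φ.1 y) := by
    intro h
    apply hy
    have h5 : G.Adj (φ.1 v) (φ.1 y) := by
      rw [stab_apply φ]
      exact h
    exact φ.1.map_rel_iff.mp h5
  exact S.blk_inj h2 h4 hy0' hy' h1

end Cfsg.Agent.Lib.Helper93.HSG
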