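import Cfsg.Agent.Lib.Helper93.HSg
import Cfsg.Agent.Lib.Helper93.HSc2

set_option autoImplicit false

namespace Cfsg.Agent.Lib.Helper93.HSG

open MulAction

variable {V : Type*} [Fintype V] [DecidableEq V] {G : SimpleGraph V} [DecidableRel G.Adj]

omit [Fintype V] [DecidableEq V] [DecidableRel G.Adj] in
theorem one_toEquiv : (1 : G ≃g G).toEquiv = 1 := rfl

omit [Fintype V] [DecidableEq V] [DecidableRel G.Adj] in
theorem mul_toEquiv (φ ψ : G ≃g G) : (φ * ψ).toEquiv = φ.toEquiv * ψ.toEquiv := rfl

/-- The sign of the permutation of the vertices induced by an automorphism. -/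
def sgnHom (G : SimpleGraph V) : (G ≃g G) →* ℤˣ where
  toFun φ := Equiv.Perm.sign φ.toEquiv
  map_one' := by
    rw [one_toEquiv]
    exact map_one _
  map_mul' φ ψ := by
    rw [mul_toEquiv]
    exact map_mul _ _ _

omit [DecidableRel G.Adj] in
theorem sgnHom_apply (φ : G ≃g G) : sgnHom G φ = Equiv.Perm.sign φ.toEquiv := rfl

/-- The automorphism group of a strongly regular graph with parameters `(100, 22, 0, 6)`
contains a simple subgroup of order `44352000`. -/
theorem Srg.exists_HS (S : Srg G) : ∃ H : Subgroup (G ≃g G), Cfsg.IsHS H := by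
  have hV : Nat.card V = 100 := by rw [Nat.card_eq_fintype_card, S.card]
  have hfin : Finite (G ≃g G) :=
    Finite.of_injective (fun φ : G ≃g G => (φ : V → V)) DFunLike.coe_injective
  have hAt : IsPretransitive (G ≃g G) V := ⟨fun x y => S.iso_pt S x y⟩
  -- an odd automorphism
  obtain ⟨τ, hτs, hτ0⟩ := hs_odd_aut
  obtain ⟨v0⟩ : Nonempty V := by
    rw [← Fintype.card_pos_iff, S.card]
    norm_num
  obtain ⟨φ, -⟩ := S.iso_pt hsGraph_srg v0 0
  obtain ⟨a, ha⟩ : ∃ a : G ≃g G, a = (φ.trans τ).trans φ.symm := ⟨_, rfl⟩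
  obtain ⟨v, hv⟩ : ∃ v : V, v = φ.symm 0 := ⟨_, rfl⟩
  have hav : a • v = v := by
    rw [ha, hv]
    show φ.symm (τ (φ (φ.symm 0))) = φ.symm 0
    rw [RelIso.apply_symm_apply, hτ0]
  have hasgn : sgnHom G a = -1 := by
    rw [sgnHom_apply, ha]
    show Equiv.Perm.sign ((φ.toEquiv.trans τ.toEquiv).trans φ.toEquiv.symm) = -1
    rw [Equiv.Perm.sign_trans_trans_symm, hτs]
  obtain ⟨H, hHdef⟩ : ∃ H : Subgroup (G ≃g G), H = (sgnHom G).ker := ⟨_, rfl⟩
  have haH : a ∉ H := by
    rw [hHdef, MonoidHom.mem_ker, hasgn]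
    decide
  have hH : H.index = 2 := by
    rw [Subgroup.index_eq_two_iff]
    refine ⟨a, fun b => ?_⟩
    rw [hHdef, MonoidHom.mem_ker, MonoidHom.mem_ker, map_mul, hasgn]
    rcases Int.units_eq_one_or (sgnHom G b) with h | h <;> rw [h] <;> decide
  -- orders
  have hautc := (Cfsg.Agent.Lib.Helper93.Der.aut22 (S.card_pts v) (S.local_steiner v)).1
  have hstab : Nat.card (stabilizer (G ≃g G) v) = 887040 := by
    rw [Nat.card_eq_of_bijective _ (S.resHom_bijective v)]
    exact hautc
  have hA : Nat.card (G ≃g G) = 88704000 := by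
    have h1 := index_stabilizer_of_transitive (G ≃g G) v
    have h2 := Subgroup.index_mul_card (stabilizer (G ≃g G) v)
    rw [h1, hV, hstab] at h2
    omega
  have hHc : Nat.card H = 44352000 := by
    have := Subgroup.index_mul_card H
    rw [hH, hA] at this
    omega
  -- primitivity
  have hX : {x | G.Adj v x}.ncard = 22 := by
    have : {x | G.Adj v x} = ↑(nb G v) := by
      ext x
      simp [mem_nb]
    rw [this, Set.ncard_coe_finset]
    exact S.deg v
  have hvnb : v ∉ nb G v := by
    rw [mem_nb]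
    exact G.irrefl
  have hY : {x | x ≠ v ∧ ¬ G.Adj v x}.ncard = 77 := by
    have : {x | x ≠ v ∧ ¬ G.Adj v x} = ↑((insert v (nb G v))ᶜ : Finset V) := by
      ext x
      simp [mem_nb, and_comm]
    rw [this, Set.ncard_coe_finset, Finset.card_compl, S.card, Finset.card_insert_of_notMem hvnb,
      S.deg v]
  have hP := preprimitive_index_two (A := G ≃g G) (V := V) hV H hH v a hav haH
    {x | G.Adj v x} {x | x ≠ v ∧ ¬ G.Adj v x} hX hY (fun h => G.irrefl h) (fun h => h.1 rfl)
    (fun x => by
      by_cases h1 : x = v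
      · exact Or.inl h1
      · by_cases h2 : G.Adj v x
        · exact Or.inr (Or.inl h2)
        · exact Or.inr (Or.inr ⟨h1, h2⟩))
    (fun x hx x' hx' => S.stab_trans_nb v hx hx')
    (fun y hy y' hy' => S.stab_trans_nnb v hy.1 hy.2 hy'.1 hy'.2)
  obtain ⟨hHt, hHp⟩ := hP
  have hfaith : FaithfulSMul H V := ⟨fun {h1 h2} hh => Subtype.ext (RelIso.ext hh)⟩
  -- the point stabiliser is simple
  have hsimp : IsSimpleGroup (stabilizer H v) := by
    obtain ⟨-, -, M, hM2, hMs, hMc⟩ :=
      Cfsg.Agent.Lib.Helper93.Der.aut22 (S.card_pts v) (S.local_steiner v)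
    let f0 : stabilizer H v →* stabilizer (G ≃g G) v :=
      { toFun := fun h => ⟨h.1.1, h.2⟩
        map_one' := rfl
        map_mul' := fun _ _ => rfl }
    let f : stabilizer H v →* Cfsg.setSystemAut (design G v) := (resHom v).comp f0
    have hf : Function.Injective f := by
      intro x y hxy
      have h1 : f0 x = f0 y := (S.resHom_bijective v).1 hxy
      apply Subtype.ext
      apply Subtype.ext
      exact congrArg (fun z : stabilizer (G ≃g G) v => z.1) h1
    have hcard : Nat.card (stabilizer H v) = 443520 := by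
      have h1 := index_stabilizer_of_transitive H v
      have h2 := Subgroup.index_mul_card (stabilizer H v)
      rw [h1, hV, hHc] at h2
      omega
    have hRc : Nat.card f.range = 443520 := by
      rw [← hcard]
      exact (Nat.card_congr (MonoidHom.ofInjective hf).toEquiv).symm
    have hR2 : f.range.index = 2 := by
      have h2 := Subgroup.index_mul_card f.range
      rw [hRc, hautc] at h2
      omega
    have hRM : f.range = M :=
      eq_of_index_two_simple M f.range hM2 hR2 (by rw [hMc]; norm_num)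
    have hRs : IsSimpleGroup f.range := by
      rw [hRM]
      exact hMs
    exact (MonoidHom.ofInjective hf).isSimpleGroup
  exact ⟨H, simple_of_primitive (G := H) (V := V) hV v, hHc⟩

end Cfsg.Agent.Lib.Helper93.HSG
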