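import Cfsg.Agent.Lib.Helper93.SextetY4

set_option autoImplicit false

open scoped Pointwise

namespace Cfsg.Agent.Lib.Helper93

/-- The number of `4`-sets meeting a given triple in exactly two points. -/
theorem card_four_sets_inter_two {Y : Finset Cfsg.GolayPt} (hY : Y.card = 3) :
    ((Finset.powersetCard 4 (Finset.univ : Finset Cfsg.GolayPt)).filter
      (fun t => (t ∩ Y).card = 2)).card = 630 := by
  classical
  set Q := Finset.powersetCard 4 (Finset.univ : Finset Cfsg.GolayPt) with hQ
  have hsup : ∀ W : Finset Cfsg.GolayPt, W.card ≤ 4 →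
      (Q.filter (fun T => W ⊆ T)).card = (24 - W.card).choose (4 - W.card) := by
    intro W hW
    rw [hQ, card_powersetCard_filter_superset _ W (Finset.subset_univ W) 4 hW, Finset.card_univ,
      card_golayPt]
  have e2 := sum_choose_inter Q Y 2
  have e3 := sum_choose_inter Q Y 3
  have r2 : ∑ W ∈ Finset.powersetCard 2 Y, (Q.filter (fun b => W ⊆ b)).card = 693 := by
    have : ∀ W ∈ Finset.powersetCard 2 Y, (Q.filter (fun b => W ⊆ b)).card = 231 := by
      intro W hW
      rw [Finset.mem_powersetCard] at hW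
      rw [hsup W (by omega), hW.2]
      rfl
    rw [Finset.sum_congr rfl this, Finset.sum_const, Finset.card_powersetCard, hY]
    rfl
  have r3 : ∑ W ∈ Finset.powersetCard 3 Y, (Q.filter (fun b => W ⊆ b)).card = 21 := by
    have : ∀ W ∈ Finset.powersetCard 3 Y, (Q.filter (fun b => W ⊆ b)).card = 21 := by
      intro W hW
      rw [Finset.mem_powersetCard] at hW
      rw [hsup W (by omega), hW.2]
      rfl
    rw [Finset.sum_congr rfl this, Finset.sum_const, Finset.card_powersetCard, hY]
    rfl
  rw [r2, sum_by_inter_card Q Y (fun i => i.choose 2), hY] at e2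
  rw [r3, sum_by_inter_card Q Y (fun i => i.choose 3), hY] at e3
  simp only [Finset.sum_range_succ, Finset.sum_range_zero] at e2 e3
  norm_num [Nat.choose] at e2 e3
  omega

theorem card_four_sets_superset {Y : Finset Cfsg.GolayPt} (hY : Y.card = 3) :
    ((Finset.powersetCard 4 (Finset.univ : Finset Cfsg.GolayPt)).filter
      (fun t => Y ⊆ t)).card = 21 := by
  classical
  rw [card_powersetCard_filter_superset _ Y (Finset.subset_univ Y) 4 (by omega), Finset.card_univ,
    card_golayPt, hY]
  rfl

/-- The finset of sextets. -/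
noncomputable def sextetFinset : Finset (Finset (Finset Cfsg.GolayPt)) :=
  @Finset.filter _ (· ∈ Cfsg.sextets) (Classical.decPred _) Finset.univ

theorem mem_sextetFinset (S : Finset (Finset Cfsg.GolayPt)) :
    S ∈ sextetFinset ↔ S ∈ Cfsg.sextets := by
  simp [sextetFinset]

theorem card_sextetFinset : sextetFinset.card = 1771 := by
  rw [← ncard_sextets, ← Set.ncard_coe_finset]
  congr 1
  ext S
  rw [Finset.mem_coe, mem_sextetFinset]

theorem sextet_triple_finset_counts {Y : Finset Cfsg.GolayPt} (hY : Y.card = 3) :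
    (sextetFinset.filter (fun S => (S.filter (fun t => (t ∩ Y).Nonempty)).card = 1)).card = 21 ∧
    (sextetFinset.filter (fun S => (S.filter (fun t => (t ∩ Y).Nonempty)).card = 2)).card = 630 ∧
    (sextetFinset.filter (fun S => (S.filter (fun t => (t ∩ Y).Nonempty)).card = 3)).card = 1120 := by
  classical
  have hYne : Y.Nonempty := by rw [← Finset.card_pos, hY]; norm_num
  have h1 : (sextetFinset.filter
      (fun S => (S.filter (fun t => (t ∩ Y).Nonempty)).card = 1)).card = 21 := by
    rw [← card_four_sets_superset hY]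
    symm
    apply Finset.card_bij (fun t _ => sextetOf t)
    · intro t ht
      rw [Finset.mem_filter, Finset.mem_powersetCard] at ht
      rw [Finset.mem_filter, mem_sextetFinset]
      refine ⟨sextetOf_mem ht.1.2, ?_⟩
      rw [filter_card_eq_one_iff (sextetOf_mem ht.1.2) hYne]
      exact ⟨t, self_mem_sextetOf t, ht.2⟩
    · intro t ht t' ht' heq
      rw [Finset.mem_filter, Finset.mem_powersetCard] at ht ht'
      obtain ⟨y, hy⟩ := hYne
      have hS := sextetOf_mem ht.1.2
      have ht'S : t' ∈ sextetOf t := heq ▸ self_mem_sextetOf t'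
      exact sextet_eq_of_mem_mem hS (self_mem_sextetOf t) ht'S (ht.2 hy) (ht'.2 hy)
    · intro S hS
      rw [Finset.mem_filter, mem_sextetFinset] at hS
      obtain ⟨t, ht, hYt⟩ := (filter_card_eq_one_iff hS.1 hYne).mp hS.2
      refine ⟨t, ?_, (sextet_eq_sextetOf hS.1 ht).symm⟩
      rw [Finset.mem_filter, Finset.mem_powersetCard]
      exact ⟨⟨Finset.subset_univ _, hS.1.2.1 t ht⟩, hYt⟩
  have h2 : (sextetFinset.filter
      (fun S => (S.filter (fun t => (t ∩ Y).Nonempty)).card = 2)).card = 630 := by
    rw [← card_four_sets_inter_two hY]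
    symm
    apply Finset.card_bij (fun t _ => sextetOf t)
    · intro t ht
      rw [Finset.mem_filter, Finset.mem_powersetCard] at ht
      rw [Finset.mem_filter, mem_sextetFinset]
      refine ⟨sextetOf_mem ht.1.2, ?_⟩
      rw [filter_card_eq_two_iff (sextetOf_mem ht.1.2) hY]
      exact ⟨t, self_mem_sextetOf t, ht.2⟩
    · intro t ht t' ht' heq
      rw [Finset.mem_filter, Finset.mem_powersetCard] at ht ht'
      have hS := sextetOf_mem ht.1.2
      have ht'S : t' ∈ sextetOf t := heq ▸ self_mem_sextetOf t'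
      -- the two-subsets t ∩ Y and t' ∩ Y of the triple Y meet
      have hne : ((t ∩ Y) ∩ (t' ∩ Y)).Nonempty := by
        rw [← Finset.card_pos]
        have hu := Finset.card_union_add_card_inter (t ∩ Y) (t' ∩ Y)
        have hsub : (t ∩ Y) ∪ (t' ∩ Y) ⊆ Y :=
          Finset.union_subset Finset.inter_subset_right Finset.inter_subset_right
        have := Finset.card_le_card hsub
        rw [ht.2, ht'.2] at hu
        omega
      obtain ⟨y, hy⟩ := hne
      rw [Finset.mem_inter, Finset.mem_inter, Finset.mem_inter] at hy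
      exact sextet_eq_of_mem_mem hS (self_mem_sextetOf t) ht'S hy.1.1 hy.2.1
    · intro S hS
      rw [Finset.mem_filter, mem_sextetFinset] at hS
      obtain ⟨t, ht, h2⟩ := (filter_card_eq_two_iff hS.1 hY).mp hS.2
      refine ⟨t, ?_, (sextet_eq_sextetOf hS.1 ht).symm⟩
      rw [Finset.mem_filter, Finset.mem_powersetCard]
      exact ⟨⟨Finset.subset_univ _, hS.1.2.1 t ht⟩, h2⟩
  refine ⟨h1, h2, ?_⟩
  -- the three classes exhaust the sextets
  have hpart : sextetFinset.card = ∑ i ∈ Finset.Icc 1 3, (sextetFinset.filter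
      (fun S => (S.filter (fun t => (t ∩ Y).Nonempty)).card = i)).card := by
    apply Finset.card_eq_sum_card_fiberwise
    intro S hS
    rw [Finset.mem_coe, mem_sextetFinset] at hS
    have hle := filter_card_le hS Y
    have hpos := filter_card_pos hS hYne
    rw [hY] at hle
    rw [Finset.mem_coe, Finset.mem_Icc]
    exact ⟨hpos, hle⟩
  have hIcc : Finset.Icc 1 3 = ({1, 2, 3} : Finset ℕ) := by decide
  rw [card_sextetFinset, hIcc, Finset.sum_insert (by decide), Finset.sum_insert (by decide),
    Finset.sum_singleton, h1, h2] at hpart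
  omega

theorem sextet_triple_counts {Y : Finset Cfsg.GolayPt} (hY : Y.card = 3) :
    {S : Finset (Finset Cfsg.GolayPt) | S ∈ Cfsg.sextets ∧
      (S.filter (fun t => (t ∩ Y).Nonempty)).card = 1}.ncard = 21 ∧
    {S : Finset (Finset Cfsg.GolayPt) | S ∈ Cfsg.sextets ∧
      (S.filter (fun t => (t ∩ Y).Nonempty)).card = 2}.ncard = 630 ∧
    {S : Finset (Finset Cfsg.GolayPt) | S ∈ Cfsg.sextets ∧
      (S.filter (fun t => (t ∩ Y).Nonempty)).card = 3}.ncard = 1120 := by
  classical
  obtain ⟨h1, h2, h3⟩ := sextet_triple_finset_counts hY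
  have hset : ∀ i : ℕ, {S : Finset (Finset Cfsg.GolayPt) | S ∈ Cfsg.sextets ∧
      (S.filter (fun t => (t ∩ Y).Nonempty)).card = i} =
      ((sextetFinset.filter (fun S => (S.filter (fun t => (t ∩ Y).Nonempty)).card = i) :
        Finset (Finset (Finset Cfsg.GolayPt))) : Set (Finset (Finset Cfsg.GolayPt))) := by
    intro i
    ext S
    rw [Finset.mem_coe, Finset.mem_filter, mem_sextetFinset]
    rfl
  refine ⟨?_, ?_, ?_⟩
  · rw [hset, Set.ncard_coe_finset]; exact h1
  · rw [hset, Set.ncard_coe_finset]; exact h2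
  · rw [hset, Set.ncard_coe_finset]; exact h3

end Cfsg.Agent.Lib.Helper93
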