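import Cfsg.Agent.Lib.Helper93.Tets2

set_option autoImplicit false

open scoped Pointwise

namespace Cfsg.Agent.Lib.Helper93

/-- An element of the group of the code fixing six points of an octad fixes the octad
pointwise. -/
theorem fix_octad_of_fix_six {o F : Finset Cfsg.GolayPt} (ho : o ∈ Cfsg.octads) (hFo : F ⊆ o)
    (hF : F.card = 6) {g : Equiv.Perm Cfsg.GolayPt} (hg : g ∈ Cfsg.M24)
    (hfix : ∀ x ∈ F, g x = x) : ∀ x ∈ o, g x = x := by
  classical
  have hgo : g • o = o := smul_octad_of_fix_five ho (by rw [hF]; norm_num) hFo hg hfix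
  have hmo := Cfsg.Agent.S1553.mem_iff_of_smul hgo
  have h2 : (o \ F).card = 2 := by
    rw [Finset.card_sdiff_of_subset hFo, ho.2, hF]
  obtain ⟨a, b, hab, hI⟩ := Finset.card_eq_two.mp h2
  have ha : a ∈ o \ F := hI ▸ Finset.mem_insert_self a {b}
  have hb : b ∈ o \ F := hI ▸ Finset.mem_insert_of_mem (Finset.mem_singleton_self b)
  have hao := (Finset.mem_sdiff.mp ha).1
  have hbo := (Finset.mem_sdiff.mp hb).1
  have hmemI : ∀ x, x ∈ o → x ∉ F → x = a ∨ x = b := by
    intro x hx hx'
    have : x ∈ o \ F := Finset.mem_sdiff.mpr ⟨hx, hx'⟩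
    rw [hI, Finset.mem_insert, Finset.mem_singleton] at this
    exact this
  have hnotF : ∀ x, x ∉ F → g x ∉ F := by
    intro x hx hgx
    have := hfix (g x) hgx
    exact hx (g.injective this ▸ hgx)
  have hga := hmemI _ ((hmo a).mpr hao) (hnotF a (Finset.mem_sdiff.mp ha).2)
  have hgb := hmemI _ ((hmo b).mpr hbo) (hnotF b (Finset.mem_sdiff.mp hb).2)
  have hγa : g a = a := by
    by_contra hne
    have h1 : g a = b := hga.resolve_left hne
    have h2' : g b = a := by
      rcases hgb with h | h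
      · exact h
      · exact absurd (g.injective (h.trans h1.symm)) (Ne.symm hab)
    let g₀ : ↥(Cfsg.M24 ⊓ MulAction.stabilizer (Equiv.Perm Cfsg.GolayPt) o) := ⟨g, hg, hgo⟩
    have hmem : Cfsg.Agent.S1553.resHom o g₀ ∈ alternatingGroup ↥o := by
      rw [← Cfsg.Agent.S1553.range_resHom o ho]
      exact ⟨g₀, rfl⟩
    have hswap : Cfsg.Agent.S1553.resHom o g₀ = Equiv.swap ⟨a, hao⟩ ⟨b, hbo⟩ := by
      apply Equiv.ext
      intro x
      apply Subtype.ext
      rw [Cfsg.Agent.S1553.resHom_apply]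
      show g x = _
      by_cases hxa : x = ⟨a, hao⟩
      · rw [hxa, Equiv.swap_apply_left]; exact h1
      · by_cases hxb : x = ⟨b, hbo⟩
        · rw [hxb, Equiv.swap_apply_right]; exact h2'
        · rw [Equiv.swap_apply_of_ne_of_ne hxa hxb]
          apply hfix x
          by_contra hx'
          rcases hmemI x x.2 hx' with h | h
          · exact hxa (Subtype.ext h)
          · exact hxb (Subtype.ext h)
    rw [Equiv.Perm.mem_alternatingGroup, hswap, Equiv.Perm.sign_swap] at hmem
    · exact absurd hmem (by decide)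
    · intro h; exact hab (congrArg Subtype.val h)
  have hγb : g b = b := by
    rcases hgb with h | h
    · exact absurd (g.injective (h.trans hγa.symm)) (Ne.symm hab)
    · exact h
  intro x hx
  by_cases hx' : x ∈ F
  · exact hfix x hx'
  · rcases hmemI x hx hx' with rfl | rfl
    · exact hγa
    · exact hγb

/-- The pointwise stabiliser of five points of an octad and a point outside has order `3`. -/
theorem card_fix_five_one {A : Finset Cfsg.GolayPt} (hA : A ∈ Cfsg.octads)
    (x : Fin 5 ↪ Cfsg.GolayPt) (hx : ∀ i, x i ∈ A) {q : Cfsg.GolayPt} (hq : q ∉ A) :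
    Nat.card ↥(fixG (Set.range x) ⊓ MulAction.stabilizer (Equiv.Perm Cfsg.GolayPt) q :
      Subgroup (Equiv.Perm Cfsg.GolayPt)) = 3 := by
  classical
  have h48 := card_fixG_five x
  have horb := Cfsg.Agent.Lib.Helper7.card_eq_orbit_mul (fixG (Set.range x)) q
  have hset : {y | ∃ g ∈ fixG (Set.range x), g q = y} =
      ((Aᶜ : Finset Cfsg.GolayPt) : Set Cfsg.GolayPt) := by
    ext y
    rw [Finset.mem_coe, Finset.mem_compl]
    constructor
    · rintro ⟨g, hg, rfl⟩
      obtain ⟨hg1, hg2⟩ := mem_fixG.mp hg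
      have hgA : g • A = A := by
        apply smul_octad_of_fix_five hA (F := Finset.univ.map x) _ _ hg1
        · intro z hz
          obtain ⟨i, -, rfl⟩ := Finset.mem_map.mp hz
          exact hg2 _ (Set.mem_range_self i)
        · rw [Finset.card_map, Finset.card_univ, Fintype.card_fin]
        · intro z hz
          obtain ⟨i, -, rfl⟩ := Finset.mem_map.mp hz
          exact hx i
      intro hgq
      exact hq ((Cfsg.Agent.S1553.mem_iff_of_smul hgA q).mp hgq)
    · intro hy
      obtain ⟨k, hk, hkq⟩ := Cfsg.Agent.S1554.pointwise_trans hA hq hy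
      refine ⟨k, mem_fixG.mpr ⟨hk.1, ?_⟩, hkq⟩
      rintro z ⟨i, rfl⟩
      exact (mem_fixG.mp hk).2 _ (Finset.mem_coe.mpr (hx i))
  rw [hset, Set.ncard_coe_finset, Finset.card_compl, octad_card hA, card_golayPt, h48] at horb
  omega

/-- The group of the code is transitive on sextuples consisting of five points and a point
outside their octad. -/
theorem almost_six_transitive {A A' : Finset Cfsg.GolayPt} (hA : A ∈ Cfsg.octads)
    (hA' : A' ∈ Cfsg.octads) (x x' : Fin 5 ↪ Cfsg.GolayPt) (hx : ∀ i, x i ∈ A)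
    (hx' : ∀ i, x' i ∈ A') {q q' : Cfsg.GolayPt} (hq : q ∉ A) (hq' : q' ∉ A') :
    ∃ g ∈ Cfsg.M24, (∀ i, g (x i) = x' i) ∧ g q = q' := by
  classical
  obtain ⟨g1, hg1, hgx⟩ := Cfsg.Agent.Lib.Helper7.M24_exists_smul_eq (le_refl 5) x x'
  have hgA : g1 • A = A' := by
    apply octad_eq_of_inter_ge (Cfsg.Agent.Lib.Helper7.smul_mem_octads hg1 hA) hA'
    have hsub : Finset.univ.map x' ⊆ g1 • A ∩ A' := by
      intro z hz
      obtain ⟨i, -, rfl⟩ := Finset.mem_map.mp hz
      rw [Finset.mem_inter]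
      refine ⟨?_, hx' i⟩
      rw [← hgx i]
      exact Finset.smul_mem_smul_finset (hx i)
    have := Finset.card_le_card hsub
    rw [Finset.card_map, Finset.card_univ, Fintype.card_fin] at this
    exact this
  have hgq : g1 q ∉ A' := by
    rw [← hgA]
    intro h
    have := (Finset.smul_mem_smul_finset_iff (a := g1) (s := A) (b := q)).mp h
    exact hq this
  obtain ⟨k, hk, hkq⟩ := Cfsg.Agent.S1554.pointwise_trans hA' hgq hq'
  obtain ⟨hkM, hkfix⟩ := mem_fixG.mp hk
  refine ⟨k * g1, Cfsg.M24.mul_mem hkM hg1, fun i => ?_, ?_⟩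
  · rw [Equiv.Perm.mul_apply, hgx i]
    exact hkfix _ (Finset.mem_coe.mpr (hx' i))
  · rw [Equiv.Perm.mul_apply]; exact hkq

end Cfsg.Agent.Lib.Helper93
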