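import Cfsg.Agent.Lib.Helper93.TrioKer
import Cfsg.Agent.Lib.Helper93.SextetY5
import Cfsg.Agent.Lib.Helper93.SixSets

set_option autoImplicit false

open scoped Pointwise

namespace Cfsg.Agent.Lib.Helper93

/-- Orbits of the stabiliser of `o` in elementary terms. -/
theorem mem_orbit_stab_iff {α β : Type*} [MulAction (Equiv.Perm Cfsg.GolayPt) α]
    [MulAction (Equiv.Perm Cfsg.GolayPt) β] (o : β) (X X' : α) :
    X' ∈ MulAction.orbit ↥(MulAction.stabilizer Cfsg.M24 o) X ↔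
      ∃ g ∈ Cfsg.M24, g • o = o ∧ g • X = X' := by
  constructor
  · rintro ⟨h, rfl⟩
    exact ⟨h.1.1, h.1.2, h.2, rfl⟩
  · rintro ⟨g, hg, hgo, rfl⟩
    exact ⟨⟨⟨g, hg⟩, hgo⟩, rfl⟩

/-- Orbit-stabiliser for the stabiliser of `o` acting on another set. -/
theorem card_orbit_stab_mul {α β : Type*} [MulAction (Equiv.Perm Cfsg.GolayPt) α]
    [MulAction (Equiv.Perm Cfsg.GolayPt) β] (o : β) (X : α) :
    (MulAction.orbit ↥(MulAction.stabilizer Cfsg.M24 o) X).ncard *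
      Nat.card ↥(Cfsg.M24 ⊓ MulAction.stabilizer (Equiv.Perm Cfsg.GolayPt) o ⊓
        MulAction.stabilizer (Equiv.Perm Cfsg.GolayPt) X : Subgroup (Equiv.Perm Cfsg.GolayPt))
      = Nat.card ↥(MulAction.stabilizer Cfsg.M24 o) := by
  have h1 := MulAction.index_stabilizer ↥(MulAction.stabilizer Cfsg.M24 o) X
  have h2 := Subgroup.index_mul_card
    (MulAction.stabilizer ↥(MulAction.stabilizer Cfsg.M24 o) X)
  rw [h1] at h2
  rw [← h2]
  congr 1
  apply Nat.card_congr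
  exact {
    toFun := fun y => ⟨⟨⟨y.1, y.2.1.1⟩, y.2.1.2⟩, y.2.2⟩
    invFun := fun x => ⟨x.1.1.1, ⟨x.1.1.2, x.1.2⟩, x.2⟩
    left_inv := fun _ => rfl
    right_inv := fun _ => rfl }

/-- A lower bound for an orbit from an upper bound for the stabiliser. -/
theorem orbit_ncard_ge {α : Type*} [MulAction (Equiv.Perm Cfsg.GolayPt) α]
    {o : Finset Cfsg.GolayPt} (ho : o ∈ Cfsg.octads) (X : α) {s n : ℕ}
    (hs : Nat.card ↥(Cfsg.M24 ⊓ MulAction.stabilizer (Equiv.Perm Cfsg.GolayPt) o ⊓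
        MulAction.stabilizer (Equiv.Perm Cfsg.GolayPt) X : Subgroup (Equiv.Perm Cfsg.GolayPt)) ≤ s)
    (hn : n * s = 322560) (hs0 : 0 < s) :
    n ≤ (MulAction.orbit ↥(MulAction.stabilizer Cfsg.M24 o) X).ncard := by
  have h := card_orbit_stab_mul o X
  rw [Cfsg.Agent.Lib.Helper26.card_stabilizer_octad o ho] at h
  by_contra hlt
  push Not at hlt
  have h1 : (MulAction.orbit ↥(MulAction.stabilizer Cfsg.M24 o) X).ncard *
      Nat.card ↥(Cfsg.M24 ⊓ MulAction.stabilizer (Equiv.Perm Cfsg.GolayPt) o ⊓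
        MulAction.stabilizer (Equiv.Perm Cfsg.GolayPt) X : Subgroup (Equiv.Perm Cfsg.GolayPt))
      ≤ (MulAction.orbit ↥(MulAction.stabilizer Cfsg.M24 o) X).ncard * s :=
    Nat.mul_le_mul_left _ hs
  have h2 : (MulAction.orbit ↥(MulAction.stabilizer Cfsg.M24 o) X).ncard * s < n * s :=
    Nat.mul_lt_mul_of_pos_right hlt hs0
  omega

/-- One step of a stabiliser chain on points. -/
theorem card_le_of_orbit_pt (H : Subgroup (Equiv.Perm Cfsg.GolayPt)) (x : Cfsg.GolayPt)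
    (F : Finset Cfsg.GolayPt) (hF : ∀ g ∈ H, g x ∈ F) {k m : ℕ} (hk : F.card ≤ k)
    (hm : Nat.card ↥(H ⊓ MulAction.stabilizer (Equiv.Perm Cfsg.GolayPt) x :
      Subgroup (Equiv.Perm Cfsg.GolayPt)) ≤ m) : Nat.card ↥H ≤ k * m := by
  classical
  rw [Cfsg.Agent.Lib.Helper7.card_eq_orbit_mul H x]
  have hsub : {y | ∃ g ∈ H, g x = y} ⊆ (F : Set Cfsg.GolayPt) := by
    rintro y ⟨g, hg, rfl⟩
    exact Finset.mem_coe.mpr (hF g hg)
  have h1 := Set.ncard_le_ncard hsub (Finset.finite_toSet F)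
  rw [Set.ncard_coe_finset] at h1
  exact Nat.mul_le_mul (h1.trans hk) hm

/-- One step of a stabiliser chain on a general set. -/
theorem card_le_of_orbit {α : Type*} [MulAction (Equiv.Perm Cfsg.GolayPt) α] [DecidableEq α]
    (H : Subgroup (Equiv.Perm Cfsg.GolayPt)) (x : α)
    (F : Finset α) (hF : ∀ g ∈ H, g • x ∈ F) {k m : ℕ} (hk : F.card ≤ k)
    (hm : Nat.card ↥(H ⊓ MulAction.stabilizer (Equiv.Perm Cfsg.GolayPt) x :
      Subgroup (Equiv.Perm Cfsg.GolayPt)) ≤ m) : Nat.card ↥H ≤ k * m := by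
  rw [Cfsg.Agent.Lib.Helper7.card_eq_orbit_mul' H x]
  have hsub : {y | ∃ g ∈ H, g • x = y} ⊆ (F : Set α) := by
    rintro y ⟨g, hg, rfl⟩
    exact Finset.mem_coe.mpr (hF g hg)
  have h1 := Set.ncard_le_ncard hsub (Finset.finite_toSet F)
  rw [Set.ncard_coe_finset] at h1
  exact Nat.mul_le_mul (h1.trans hk) hm

end Cfsg.Agent.Lib.Helper93
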