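import Cfsg.Agent.Lib.Helper93.Sextets
import Cfsg.Agent.Lib.Helper93.Steiner24
import Cfsg.Agent.S1556
import Cfsg.Agent.S1553
import Cfsg.Agent.S1554

set_option autoImplicit false

open scoped Pointwise

namespace Cfsg.Agent.Lib.Helper93

theorem card_smul_inter_smul (g : Equiv.Perm Cfsg.GolayPt) (a b : Finset Cfsg.GolayPt) :
    ((g • a) ∩ (g • b)).card = (a ∩ b).card := by
  rw [← Finset.smul_finset_inter, Finset.card_smul_finset]

/-- Numbers of octads meeting a given octad in 0, 4, 2 points. -/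
theorem ncard_octads_inter {o : Finset Cfsg.GolayPt} (ho : o ∈ Cfsg.octads) :
    {c : Finset Cfsg.GolayPt | c ∈ Cfsg.octads ∧ (o ∩ c).card = 0}.ncard = 30 ∧
    {c : Finset Cfsg.GolayPt | c ∈ Cfsg.octads ∧ (o ∩ c).card = 4}.ncard = 280 ∧
    {c : Finset Cfsg.GolayPt | c ∈ Cfsg.octads ∧ (o ∩ c).card = 2}.ncard = 448 := by
  classical
  have h := s5824_counts card_golayPt octads_steiner octadFinset mem_octadFinset ho
  have hset : ∀ k : ℕ, {c : Finset Cfsg.GolayPt | c ∈ Cfsg.octads ∧ (o ∩ c).card = k} =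
      ((octadFinset.filter (fun c => (c ∩ o).card = k) : Finset (Finset Cfsg.GolayPt)) :
        Set (Finset Cfsg.GolayPt)) := by
    intro k
    ext c
    rw [Finset.mem_coe, Finset.mem_filter, mem_octadFinset, Finset.inter_comm]
    rfl
  refine ⟨?_, ?_, ?_⟩
  · rw [hset, Set.ncard_coe_finset]; exact h.1
  · rw [hset, Set.ncard_coe_finset]; exact h.2.2.2.2.1
  · rw [hset, Set.ncard_coe_finset]; exact h.2.2.1

/-- Orbits of an octad stabiliser on octads are the classes of the intersection size. -/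
theorem orbit_stab_octad {o o' : Finset Cfsg.GolayPt} (ho : o ∈ Cfsg.octads)
    (ho' : o' ∈ Cfsg.octads) :
    MulAction.orbit ↥(MulAction.stabilizer Cfsg.M24 o) o' =
      {c : Finset Cfsg.GolayPt | c ∈ Cfsg.octads ∧ (o ∩ c).card = (o ∩ o').card} := by
  ext c
  constructor
  · rintro ⟨h, rfl⟩
    have hmem : (h.1 : Equiv.Perm Cfsg.GolayPt) ∈ Cfsg.M24 := h.1.2
    have hfix : (h.1 : Equiv.Perm Cfsg.GolayPt) • o = o := h.2
    refine ⟨Cfsg.Agent.Lib.Helper7.smul_mem_octads hmem ho', ?_⟩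
    show (o ∩ (h.1 : Equiv.Perm Cfsg.GolayPt) • o').card = (o ∩ o').card
    generalize (h.1 : Equiv.Perm Cfsg.GolayPt) = g at hfix
    have := card_smul_inter_smul g o o'
    rw [hfix] at this
    exact this
  · rintro ⟨hc, hcard⟩
    obtain ⟨g, hg, hgo, hgo'⟩ := Cfsg.Agent.S1556.result o o' c ho ho' hc hcard.symm
    exact ⟨⟨⟨g, hg⟩, hgo⟩, hgo'⟩

theorem card_joint_stab_mul {o o' : Finset Cfsg.GolayPt} (ho : o ∈ Cfsg.octads)
    (ho' : o' ∈ Cfsg.octads) :
    {c : Finset Cfsg.GolayPt | c ∈ Cfsg.octads ∧ (o ∩ c).card = (o ∩ o').card}.ncard *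
      Nat.card ↥(MulAction.stabilizer Cfsg.M24 o ⊓ MulAction.stabilizer Cfsg.M24 o')
      = 322560 := by
  have h1 := MulAction.index_stabilizer ↥(MulAction.stabilizer Cfsg.M24 o) o'
  have h2 := Subgroup.index_mul_card
    (MulAction.stabilizer ↥(MulAction.stabilizer Cfsg.M24 o) o')
  rw [h1, orbit_stab_octad ho ho', Cfsg.Agent.Lib.Helper26.card_stabilizer_octad o ho] at h2
  rw [← h2]
  congr 1
  apply Nat.card_congr
  exact {
    toFun := fun y => ⟨⟨y.1, y.2.1⟩, y.2.2⟩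
    invFun := fun x => ⟨x.1.1, x.1.2, x.2⟩
    left_inv := fun _ => rfl
    right_inv := fun _ => rfl }

theorem card_joint_stab {o o' : Finset Cfsg.GolayPt} (ho : o ∈ Cfsg.octads)
    (ho' : o' ∈ Cfsg.octads) :
    ((o ∩ o').card = 0 →
      Nat.card ↥(MulAction.stabilizer Cfsg.M24 o ⊓ MulAction.stabilizer Cfsg.M24 o') = 10752) ∧
    ((o ∩ o').card = 4 →
      Nat.card ↥(MulAction.stabilizer Cfsg.M24 o ⊓ MulAction.stabilizer Cfsg.M24 o') = 1152) ∧
    ((o ∩ o').card = 2 →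
      Nat.card ↥(MulAction.stabilizer Cfsg.M24 o ⊓ MulAction.stabilizer Cfsg.M24 o') = 720) := by
  have h := card_joint_stab_mul ho ho'
  obtain ⟨h0, h4, h2⟩ := ncard_octads_inter ho
  refine ⟨fun hk => ?_, fun hk => ?_, fun hk => ?_⟩
  · rw [hk, h0] at h; omega
  · rw [hk, h4] at h; omega
  · rw [hk, h2] at h; omega

end Cfsg.Agent.Lib.Helper93
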