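import Cfsg.Agent.Lib.Helper93.OctPair

set_option autoImplicit false

open scoped Pointwise

namespace Cfsg.Agent.Lib.Helper93

/-- The sign of an involution moving exactly six points is `-1`. -/
theorem sign_involution_six {α : Type*} [Fintype α] [DecidableEq α] (σ : Equiv.Perm α)
    (h2 : σ * σ = 1) (h6 : σ.support.card = 6) : Equiv.Perm.sign σ = -1 := by
  have hord : orderOf σ ∣ 2 := orderOf_dvd_of_pow_eq_one (by rw [pow_two]; exact h2)
  have hall : ∀ n ∈ σ.cycleType, n = 2 := by
    intro n hn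
    have h1 := Equiv.Perm.two_le_of_mem_cycleType hn
    have h3 := Nat.le_of_dvd (by norm_num) ((Equiv.Perm.dvd_of_mem_cycleType hn).trans hord)
    omega
  have hrep : σ.cycleType = Multiset.replicate (Multiset.card σ.cycleType) 2 :=
    Multiset.eq_replicate.mpr ⟨rfl, hall⟩
  have hsum := Equiv.Perm.sum_cycleType σ
  rw [h6, hrep, Multiset.sum_replicate, smul_eq_mul] at hsum
  have hc : Multiset.card σ.cycleType = 3 := by omega
  rw [Equiv.Perm.sign_of_cycleType, Equiv.Perm.sum_cycleType, h6, hc]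
  rfl

/-- An element of the group of the code which stabilises two octads meeting in two points and
fixes the points of the first octad outside the second is trivial. -/
theorem eq_one_of_fix_sdiff {o o' : Finset Cfsg.GolayPt} (ho : o ∈ Cfsg.octads)
    (ho' : o' ∈ Cfsg.octads) (h2 : (o ∩ o').card = 2) {γ : Equiv.Perm Cfsg.GolayPt}
    (hγ : γ ∈ Cfsg.M24) (hγo : γ • o = o) (hγo' : γ • o' = o')
    (hfix : ∀ x ∈ o, x ∉ o' → γ x = x) : γ = 1 := by
  classical
  obtain ⟨a, b, hab, hI⟩ := Finset.card_eq_two.mp h2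
  have hao : a ∈ o := (Finset.mem_inter.mp (hI ▸ Finset.mem_insert_self a {b})).1
  have hao' : a ∈ o' := (Finset.mem_inter.mp (hI ▸ Finset.mem_insert_self a {b})).2
  have hbo : b ∈ o :=
    (Finset.mem_inter.mp (hI ▸ Finset.mem_insert_of_mem (Finset.mem_singleton_self b))).1
  have hbo' : b ∈ o' :=
    (Finset.mem_inter.mp (hI ▸ Finset.mem_insert_of_mem (Finset.mem_singleton_self b))).2
  have hmemI : ∀ x, x ∈ o → x ∈ o' → x = a ∨ x = b := by
    intro x hx hx'
    have : x ∈ o ∩ o' := Finset.mem_inter.mpr ⟨hx, hx'⟩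
    rw [hI, Finset.mem_insert, Finset.mem_singleton] at this
    exact this
  have hmo := Cfsg.Agent.S1553.mem_iff_of_smul hγo
  have hmo' := Cfsg.Agent.S1553.mem_iff_of_smul hγo'
  -- Step 1: γ fixes a and b
  have hγa : γ a = a := by
    by_contra hne
    have h1 : γ a = b := (hmemI _ ((hmo a).mpr hao) ((hmo' a).mpr hao')).resolve_left hne
    have h2' : γ b = a := by
      rcases hmemI _ ((hmo b).mpr hbo) ((hmo' b).mpr hbo') with h | h
      · exact h
      · exact absurd (γ.injective (h.trans h1.symm)) (Ne.symm hab)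
    -- the restriction to o is a transposition
    let g₀ : ↥(Cfsg.M24 ⊓ MulAction.stabilizer (Equiv.Perm Cfsg.GolayPt) o) := ⟨γ, hγ, hγo⟩
    have hmem : Cfsg.Agent.S1553.resHom o g₀ ∈ alternatingGroup ↥o := by
      rw [← Cfsg.Agent.S1553.range_resHom o ho]
      exact ⟨g₀, rfl⟩
    have hswap : Cfsg.Agent.S1553.resHom o g₀ = Equiv.swap ⟨a, hao⟩ ⟨b, hbo⟩ := by
      apply Equiv.ext
      intro x
      apply Subtype.ext
      rw [Cfsg.Agent.S1553.resHom_apply]
      show γ x = _
      by_cases hxa : x = ⟨a, hao⟩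
      · rw [hxa, Equiv.swap_apply_left]; exact h1
      · by_cases hxb : x = ⟨b, hbo⟩
        · rw [hxb, Equiv.swap_apply_right]; exact h2'
        · rw [Equiv.swap_apply_of_ne_of_ne hxa hxb]
          apply hfix x x.2
          intro hx'
          rcases hmemI x x.2 hx' with h | h
          · exact hxa (Subtype.ext h)
          · exact hxb (Subtype.ext h)
    rw [Equiv.Perm.mem_alternatingGroup, hswap, Equiv.Perm.sign_swap] at hmem
    · exact absurd hmem (by decide)
    · intro h; exact hab (congrArg Subtype.val h)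
  have hγb : γ b = b := by
    rcases hmemI _ ((hmo b).mpr hbo) ((hmo' b).mpr hbo') with h | h
    · exact absurd (γ.injective (h.trans hγa.symm)) (Ne.symm hab)
    · exact h
  have hfixo : ∀ x ∈ o, γ x = x := by
    intro x hx
    by_cases hx' : x ∈ o'
    · rcases hmemI x hx hx' with rfl | rfl
      · exact hγa
      · exact hγb
    · exact hfix x hx hx'
  -- Step 2: γ lies in the pointwise stabiliser of o
  have hK : γ ∈ Cfsg.M24 ⊓ fixingSubgroup (Equiv.Perm Cfsg.GolayPt) (o : Set Cfsg.GolayPt) := by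
    refine ⟨hγ, ?_⟩
    show γ ∈ fixingSubgroup (Equiv.Perm Cfsg.GolayPt) (o : Set Cfsg.GolayPt)
    rw [mem_fixingSubgroup_iff]
    intro x hx
    exact hfixo x (Finset.mem_coe.mp hx)
  have hsq : γ * γ = 1 := (Cfsg.Agent.Lib.Helper7.octad_pointwise o ho).2 γ hK
  by_contra hne
  have hfree : ∀ p, p ∉ o → γ p ≠ p := fun p hp hγp =>
    hne (Cfsg.Agent.S1554.pointwise_free ho hK hp hγp)
  -- Step 3: the restriction to o' is an odd permutation
  let g₁ : ↥(Cfsg.M24 ⊓ MulAction.stabilizer (Equiv.Perm Cfsg.GolayPt) o') := ⟨γ, hγ, hγo'⟩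
  have hmem : Cfsg.Agent.S1553.resHom o' g₁ ∈ alternatingGroup ↥o' := by
    rw [← Cfsg.Agent.S1553.range_resHom o' ho']
    exact ⟨g₁, rfl⟩
  have hsq' : Cfsg.Agent.S1553.resHom o' g₁ * Cfsg.Agent.S1553.resHom o' g₁ = 1 := by
    rw [← map_mul]
    have : g₁ * g₁ = 1 := Subtype.ext hsq
    rw [this, map_one]
  have hsupp : (Cfsg.Agent.S1553.resHom o' g₁).support =
      Finset.univ \ {⟨a, hao'⟩, ⟨b, hbo'⟩} := by
    ext x
    rw [Equiv.Perm.mem_support, Finset.mem_sdiff, Finset.mem_insert, Finset.mem_singleton]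
    constructor
    · intro hx
      refine ⟨Finset.mem_univ _, ?_⟩
      rintro (h | h)
      · apply hx
        apply Subtype.ext
        rw [Cfsg.Agent.S1553.resHom_apply, h]
        exact hγa
      · apply hx
        apply Subtype.ext
        rw [Cfsg.Agent.S1553.resHom_apply, h]
        exact hγb
    · rintro ⟨-, hx⟩ heq
      have hxo : (x : Cfsg.GolayPt) ∉ o := by
        intro hxo
        rcases hmemI x hxo x.2 with h | h
        · exact hx (Or.inl (Subtype.ext h))
        · exact hx (Or.inr (Subtype.ext h))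
      apply hfree x hxo
      have := congrArg Subtype.val heq
      rw [Cfsg.Agent.S1553.resHom_apply] at this
      exact this
  have hcard : (Cfsg.Agent.S1553.resHom o' g₁).support.card = 6 := by
    rw [hsupp, Finset.card_sdiff_of_subset (Finset.subset_univ _), Finset.card_univ,
      Fintype.card_coe, ho'.2, Finset.card_insert_of_notMem, Finset.card_singleton]
    rw [Finset.mem_singleton]
    intro h; exact hab (congrArg Subtype.val h)
  have hsign := sign_involution_six _ hsq' hcard
  rw [Equiv.Perm.mem_alternatingGroup, hsign] at hmem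
  exact absurd hmem (by decide)

/-- The joint stabiliser of two octads meeting in two points is a symmetric group of degree 6. -/
theorem joint_stab_two_iso {o o' : Finset Cfsg.GolayPt} (ho : o ∈ Cfsg.octads)
    (ho' : o' ∈ Cfsg.octads) (h2 : (o ∩ o').card = 2) :
    Nonempty (↥(MulAction.stabilizer Cfsg.M24 o ⊓ MulAction.stabilizer Cfsg.M24 o') ≃*
      Equiv.Perm (Fin 6)) := by
  classical
  have hE : (o \ o').card = 6 := by
    have := Finset.card_sdiff_add_card_inter o o'
    rw [ho.2, h2] at this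
    omega
  have hinv : ∀ g : ↥(MulAction.stabilizer Cfsg.M24 o ⊓ MulAction.stabilizer Cfsg.M24 o'),
      ∀ x, (g.1.1 : Equiv.Perm Cfsg.GolayPt) x ∈ o \ o' ↔ x ∈ o \ o' := by
    intro g x
    have h1 : (g.1.1 : Equiv.Perm Cfsg.GolayPt) • o = o := g.2.1
    have h2 : (g.1.1 : Equiv.Perm Cfsg.GolayPt) • o' = o' := g.2.2
    rw [Finset.mem_sdiff, Finset.mem_sdiff, Cfsg.Agent.S1553.mem_iff_of_smul h1,
      Cfsg.Agent.S1553.mem_iff_of_smul h2]
  let φ : ↥(MulAction.stabilizer Cfsg.M24 o ⊓ MulAction.stabilizer Cfsg.M24 o') →*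
      Equiv.Perm ↥(o \ o') :=
    { toFun := fun g => (g.1.1 : Equiv.Perm Cfsg.GolayPt).subtypePerm (hinv g)
      map_one' := by
        apply Equiv.ext
        intro x
        rfl
      map_mul' := fun a b => by
        apply Equiv.ext
        intro x
        rfl }
  have hφ : ∀ g x, ((φ g x : ↥(o \ o')) : Cfsg.GolayPt) = (g.1.1 : Equiv.Perm Cfsg.GolayPt) x :=
    fun _ _ => rfl
  have hinj : Function.Injective φ := by
    rw [injective_iff_map_eq_one]
    intro g hg
    have h1 : (g.1.1 : Equiv.Perm Cfsg.GolayPt) • o = o := g.2.1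
    have h2' : (g.1.1 : Equiv.Perm Cfsg.GolayPt) • o' = o' := g.2.2
    have hfix : ∀ x ∈ o, x ∉ o' → (g.1.1 : Equiv.Perm Cfsg.GolayPt) x = x := by
      intro x hx hx'
      have hxE : x ∈ o \ o' := Finset.mem_sdiff.mpr ⟨hx, hx'⟩
      have := hφ g ⟨x, hxE⟩
      rw [hg] at this
      exact this.symm
    have := eq_one_of_fix_sdiff ho ho' h2 g.1.2 h1 h2' hfix
    exact Subtype.ext (Subtype.ext this)
  have hcardG := (card_joint_stab ho ho').2.2 h2
  have hcardP : Nat.card (Equiv.Perm ↥(o \ o')) = 720 := by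
    rw [Nat.card_eq_fintype_card, Fintype.card_perm, Fintype.card_coe, hE]
    rfl
  have hbij : Function.Bijective φ :=
    (Nat.bijective_iff_injective_and_card φ).mpr ⟨hinj, by rw [hcardG, hcardP]⟩
  have e1 : ↥(MulAction.stabilizer Cfsg.M24 o ⊓ MulAction.stabilizer Cfsg.M24 o') ≃*
      Equiv.Perm ↥(o \ o') := MulEquiv.ofBijective φ hbij
  have e2 : Equiv.Perm ↥(o \ o') ≃* Equiv.Perm (Fin 6) :=
    (Fintype.equivFinOfCardEq (by rw [Fintype.card_coe, hE])).permCongrHom
  exact ⟨e1.trans e2⟩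

end Cfsg.Agent.Lib.Helper93
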