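import Cfsg.Agent.Lib.Helper93.OctTrioOrb

set_option autoImplicit false

open scoped Pointwise

namespace Cfsg.Agent.Lib.Helper93

/-- The tetrads of a sextet cut any set into disjoint pieces. -/
theorem sum_inter_all {S : Finset (Finset Cfsg.GolayPt)} (hS : S ∈ Cfsg.sextets)
    (Y : Finset Cfsg.GolayPt) : ∑ t ∈ S, (t ∩ Y).card = Y.card := by
  classical
  rw [← sum_inter_filter hS Y]
  symm
  apply Finset.sum_filter_of_ne
  intro t _ h
  exact Finset.card_pos.mp (Nat.pos_of_ne_zero h)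

/-- Two tetrads of a sextet meet an octad in `0`, `2`, `4` or `8` points altogether. -/
theorem sextet_pair_inter {o : Finset Cfsg.GolayPt} (ho : o ∈ Cfsg.octads)
    {S : Finset (Finset Cfsg.GolayPt)} (hS : S ∈ Cfsg.sextets) {t u : Finset Cfsg.GolayPt}
    (ht : t ∈ S) (hu : u ∈ S) (hne : t ≠ u) :
    t ∪ u = o ∨ (t ∩ o).card + (u ∩ o).card = 0 ∨ (t ∩ o).card + (u ∩ o).card = 2 ∨
      (t ∩ o).card + (u ∩ o).card = 4 := by
  classical
  by_cases h : t ∪ u = o
  · exact Or.inl h
  · right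
    have hd := sextet_disjoint hS ht hu hne
    have hcard : ((t ∪ u) ∩ o).card = (t ∩ o).card + (u ∩ o).card := by
      rw [Finset.union_inter_distrib_right, Finset.card_union_of_disjoint]
      rw [Finset.disjoint_left] at hd ⊢
      intro x hx hx'
      exact hd (Finset.mem_inter.mp hx).1 (Finset.mem_inter.mp hx').1
    rw [← hcard]
    exact octad_inter (hS.2.2 t ht u hu hne) ho h

/-- The sextets with a tetrad inside `o`: shape. -/
theorem sextet_A_fiber {o : Finset Cfsg.GolayPt} (ho : o ∈ Cfsg.octads)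
    {S : Finset (Finset Cfsg.GolayPt)} (hS : S ∈ Cfsg.sextets) {t0 : Finset Cfsg.GolayPt}
    (ht0 : t0 ∈ S) (ht0o : t0 ⊆ o) :
    o \ t0 ∈ S ∧ t0 ≠ o \ t0 ∧ ∀ t ∈ S, t ⊆ o → t = t0 ∨ t = o \ t0 := by
  classical
  have h4 := hS.2.1 t0 ht0
  refine ⟨?_, ?_, ?_⟩
  · rw [sextet_eq_sextetOf hS ht0, mem_sextetOf]
    exact Or.inr ⟨o, ho, ht0o, rfl⟩
  · intro h
    obtain ⟨x, hx⟩ : t0.Nonempty := by rw [← Finset.card_pos, h4]; norm_num
    have hx' : x ∈ o \ t0 := h ▸ hx
    exact (Finset.mem_sdiff.mp hx').2 hx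
  · intro t ht hto
    by_cases hne : t = t0
    · exact Or.inl hne
    · right
      have hd := sextet_disjoint hS ht ht0 hne
      apply Finset.eq_of_subset_of_card_le
      · intro x hx
        exact Finset.mem_sdiff.mpr ⟨hto hx, fun h => Finset.disjoint_left.mp hd hx h⟩
      · rw [Finset.card_sdiff_of_subset ht0o, octad_card ho, h4, hS.2.1 t ht]

/-- There are `35` sextets with a tetrad inside a given octad. -/
theorem card_sextet_class_A {o : Finset Cfsg.GolayPt} (ho : o ∈ Cfsg.octads) :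
    (sextetFinset.filter (fun S => ∃ t ∈ S, t ⊆ o)).card = 35 := by
  classical
  have h70 : (Finset.powersetCard 4 o).card = 70 := by
    rw [Finset.card_powersetCard, octad_card ho]
    rfl
  have hfib := Finset.card_eq_sum_card_fiberwise (s := Finset.powersetCard 4 o)
    (t := sextetFinset.filter (fun S => ∃ t ∈ S, t ⊆ o)) (f := sextetOf) (by
      intro t ht
      rw [Finset.mem_coe, Finset.mem_powersetCard] at ht
      rw [Finset.mem_coe, Finset.mem_filter, mem_sextetFinset]
      exact ⟨sextetOf_mem ht.2, t, self_mem_sextetOf t, ht.1⟩)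
  have h2 : ∀ S ∈ sextetFinset.filter (fun S => ∃ t ∈ S, t ⊆ o),
      ((Finset.powersetCard 4 o).filter (fun t => sextetOf t = S)).card = 2 := by
    intro S hS
    rw [Finset.mem_filter, mem_sextetFinset] at hS
    obtain ⟨hS, t0, ht0, ht0o⟩ := hS
    obtain ⟨h1, h2, h3⟩ := sextet_A_fiber ho hS ht0 ht0o
    have : (Finset.powersetCard 4 o).filter (fun t => sextetOf t = S) = {t0, o \ t0} := by
      ext t
      rw [Finset.mem_filter, Finset.mem_powersetCard, Finset.mem_insert, Finset.mem_singleton]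
      constructor
      · rintro ⟨⟨hto, -⟩, rfl⟩
        exact h3 t (self_mem_sextetOf t) hto
      · rintro (rfl | rfl)
        · exact ⟨⟨ht0o, hS.2.1 _ ht0⟩, (sextet_eq_sextetOf hS ht0).symm⟩
        · exact ⟨⟨Finset.sdiff_subset, hS.2.1 _ h1⟩, (sextet_eq_sextetOf hS h1).symm⟩
    rw [this, Finset.card_pair h2]
  rw [Finset.sum_congr rfl h2, Finset.sum_const, smul_eq_mul, h70] at hfib
  omega

/-- The number of `4`-sets meeting an octad in exactly three points. -/
theorem card_four_sets_inter_three {o : Finset Cfsg.GolayPt} (ho : o ∈ Cfsg.octads) :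
    ((Finset.powersetCard 4 (Finset.univ : Finset Cfsg.GolayPt)).filter
      (fun t => (t ∩ o).card = 3)).card = 896 := by
  classical
  have hP : ((Finset.powersetCard 3 o) ×ˢ (Finset.univ \ o : Finset Cfsg.GolayPt)).card = 896 := by
    rw [Finset.card_product, Finset.card_powersetCard, octad_card ho, Finset.card_sdiff_of_subset
      (Finset.subset_univ o), Finset.card_univ, card_golayPt, octad_card ho]
    rfl
  rw [← hP]
  symm
  apply Finset.card_bij (fun p _ => insert p.2 p.1)
  · rintro ⟨W, x⟩ hp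
    rw [Finset.mem_product, Finset.mem_powersetCard, Finset.mem_sdiff] at hp
    obtain ⟨⟨hWo, hW3⟩, -, hxo⟩ := hp
    have hxW : x ∉ W := fun h => hxo (hWo h)
    have hint : insert x W ∩ o = W := by
      rw [Finset.insert_inter_of_notMem hxo]
      exact Finset.inter_eq_left.mpr hWo
    rw [Finset.mem_filter, Finset.mem_powersetCard]
    exact ⟨⟨Finset.subset_univ _, by rw [Finset.card_insert_of_notMem hxW, hW3]⟩, by
      rw [hint]; exact hW3⟩
  · rintro ⟨W, x⟩ hp ⟨W', x'⟩ hp' heq
    rw [Finset.mem_product, Finset.mem_powersetCard, Finset.mem_sdiff] at hp hp'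
    obtain ⟨⟨hWo, hW3⟩, -, hxo⟩ := hp
    obtain ⟨⟨hWo', hW3'⟩, -, hxo'⟩ := hp'
    have heq' : insert x W = insert x' W' := heq
    have hint : insert x W ∩ o = W := by
      rw [Finset.insert_inter_of_notMem hxo]
      exact Finset.inter_eq_left.mpr hWo
    have hint' : insert x' W' ∩ o = W' := by
      rw [Finset.insert_inter_of_notMem hxo']
      exact Finset.inter_eq_left.mpr hWo'
    have hWW : W = W' := by rw [← hint, ← hint', heq']
    have hxx : x = x' := by
      have hx : x ∈ insert x' W' := heq' ▸ Finset.mem_insert_self x W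
      rcases Finset.mem_insert.mp hx with h | h
      · exact h
      · exact absurd (hWo' h) hxo
    rw [hWW, hxx]
  · intro t ht
    rw [Finset.mem_filter, Finset.mem_powersetCard] at ht
    obtain ⟨⟨-, ht4⟩, ht3⟩ := ht
    have hsd : (t \ o).card = 1 := by
      have := Finset.card_sdiff_add_card_inter t o
      omega
    obtain ⟨x, hx⟩ := Finset.card_eq_one.mp hsd
    have hxm : x ∈ t \ o := hx ▸ Finset.mem_singleton_self x
    refine ⟨(t ∩ o, x), ?_, ?_⟩
    · rw [Finset.mem_product, Finset.mem_powersetCard, Finset.mem_sdiff]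
      exact ⟨⟨Finset.inter_subset_right, ht3⟩, Finset.mem_univ _, (Finset.mem_sdiff.mp hxm).2⟩
    · show insert x (t ∩ o) = t
      ext y
      rw [Finset.mem_insert, Finset.mem_inter]
      constructor
      · rintro (rfl | h)
        · exact (Finset.mem_sdiff.mp hxm).1
        · exact h.1
      · intro hy
        by_cases hyo : y ∈ o
        · exact Or.inr ⟨hy, hyo⟩
        · left
          have : y ∈ t \ o := Finset.mem_sdiff.mpr ⟨hy, hyo⟩
          rw [hx, Finset.mem_singleton] at this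
          exact this

/-- Two tetrads of a sextet cannot both meet an octad in three points. -/
theorem sextet_three_unique {o : Finset Cfsg.GolayPt} (ho : o ∈ Cfsg.octads)
    {S : Finset (Finset Cfsg.GolayPt)} (hS : S ∈ Cfsg.sextets) {t u : Finset Cfsg.GolayPt}
    (ht : t ∈ S) (hu : u ∈ S) (ht3 : (t ∩ o).card = 3) (hu3 : 3 ≤ (u ∩ o).card) : t = u := by
  classical
  by_contra hne
  rcases sextet_pair_inter ho hS ht hu hne with h | h | h | h
  · have hsub : t ⊆ o := h ▸ Finset.subset_union_left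
    have : t ∩ o = t := Finset.inter_eq_left.mpr hsub
    rw [this, hS.2.1 t ht] at ht3
    omega
  · omega
  · omega
  · omega

/-- There are `896` sextets with a tetrad meeting a given octad in three points. -/
theorem card_sextet_class_C {o : Finset Cfsg.GolayPt} (ho : o ∈ Cfsg.octads) :
    (sextetFinset.filter (fun S => ∃ t ∈ S, (t ∩ o).card = 3)).card = 896 := by
  classical
  rw [← card_four_sets_inter_three ho]
  symm
  apply Finset.card_bij (fun t _ => sextetOf t)
  · intro t ht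
    rw [Finset.mem_filter, Finset.mem_powersetCard] at ht
    rw [Finset.mem_filter, mem_sextetFinset]
    exact ⟨sextetOf_mem ht.1.2, t, self_mem_sextetOf t, ht.2⟩
  · intro t ht t' ht' heq
    rw [Finset.mem_filter, Finset.mem_powersetCard] at ht ht'
    have hS := sextetOf_mem ht.1.2
    have ht'S : t' ∈ sextetOf t := heq ▸ self_mem_sextetOf t'
    exact sextet_three_unique ho hS (self_mem_sextetOf t) ht'S ht.2 (le_of_eq ht'.2.symm)
  · intro S hS
    rw [Finset.mem_filter, mem_sextetFinset] at hS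
    obtain ⟨hS, t, ht, h3⟩ := hS
    refine ⟨t, ?_, (sextet_eq_sextetOf hS ht).symm⟩
    rw [Finset.mem_filter, Finset.mem_powersetCard]
    exact ⟨⟨Finset.subset_univ _, hS.2.1 t ht⟩, h3⟩

/-- The two classes are disjoint. -/
theorem sextet_class_A_not_C {o : Finset Cfsg.GolayPt} (ho : o ∈ Cfsg.octads)
    {S : Finset (Finset Cfsg.GolayPt)} (hS : S ∈ Cfsg.sextets)
    (hA : ∃ t ∈ S, t ⊆ o) : ¬ ∃ t ∈ S, (t ∩ o).card = 3 := by
  classical
  rintro ⟨u, hu, hu3⟩
  obtain ⟨t, ht, hto⟩ := hA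
  have h4 : (t ∩ o).card = 4 := by
    rw [Finset.inter_eq_left.mpr hto]; exact hS.2.1 t ht
  have := sextet_three_unique ho hS hu ht hu3 (by omega)
  rw [this] at hu3
  omega

/-- There are `840` sextets of the remaining kind. -/
theorem card_sextet_class_B {o : Finset Cfsg.GolayPt} (ho : o ∈ Cfsg.octads) :
    (sextetFinset.filter (fun S => (¬ ∃ t ∈ S, t ⊆ o) ∧
      ¬ ∃ t ∈ S, (t ∩ o).card = 3)).card = 840 := by
  classical
  have h1 := card_sextet_class_A ho
  have h2 := card_sextet_class_C ho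
  have hs1 := Finset.card_filter_add_card_filter_not (s := sextetFinset)
    (fun S => ∃ t ∈ S, t ⊆ o)
  have hs2 := Finset.card_filter_add_card_filter_not
    (s := sextetFinset.filter (fun S => ¬ ∃ t ∈ S, t ⊆ o)) (fun S => ∃ t ∈ S, (t ∩ o).card = 3)
  rw [Finset.filter_filter, Finset.filter_filter] at hs2
  rw [card_sextetFinset, h1] at hs1
  have e2 : sextetFinset.filter (fun S => (¬ ∃ t ∈ S, t ⊆ o) ∧ ∃ t ∈ S, (t ∩ o).card = 3) =
      sextetFinset.filter (fun S => ∃ t ∈ S, (t ∩ o).card = 3) := by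
    ext S
    rw [Finset.mem_filter, Finset.mem_filter, mem_sextetFinset]
    constructor
    · rintro ⟨hS, -, h⟩
      exact ⟨hS, h⟩
    · rintro ⟨hS, h⟩
      exact ⟨hS, fun hA => sextet_class_A_not_C ho hS hA h, h⟩
  rw [e2, h2] at hs2
  omega

/-- The stabiliser of `o` is transitive on the sextets with a tetrad inside `o`. -/
theorem sextet_trans_A {o : Finset Cfsg.GolayPt} (ho : o ∈ Cfsg.octads)
    {S S' : Finset (Finset Cfsg.GolayPt)} (hS : S ∈ Cfsg.sextets) (hS' : S' ∈ Cfsg.sextets)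
    (h : ∃ t ∈ S, t ⊆ o) (h' : ∃ t ∈ S', t ⊆ o) : ∃ g ∈ Cfsg.M24, g • o = o ∧ g • S = S' := by
  classical
  obtain ⟨t, ht, hto⟩ := h
  obtain ⟨t', ht', hto'⟩ := h'
  have h4 := hS.2.1 t ht
  have h4' := hS'.2.1 t' ht'
  obtain ⟨g, hg, hgo, hgt⟩ := Cfsg.Agent.Lib.Helper26.M24_transport ho ho hto hto'
    (by rw [h4, h4']) (by rw [h4]; norm_num)
  refine ⟨g, hg, hgo, ?_⟩
  rw [sextet_eq_sextetOf hS ht, sextet_eq_sextetOf hS' ht', smul_sextetOf hg h4, hgt]

/-- The stabiliser of `o` is transitive on the sextets with a tetrad meeting `o` in three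
points. -/
theorem sextet_trans_C {o : Finset Cfsg.GolayPt} (ho : o ∈ Cfsg.octads)
    {S S' : Finset (Finset Cfsg.GolayPt)} (hS : S ∈ Cfsg.sextets) (hS' : S' ∈ Cfsg.sextets)
    (h : ∃ t ∈ S, (t ∩ o).card = 3) (h' : ∃ t ∈ S', (t ∩ o).card = 3) :
    ∃ g ∈ Cfsg.M24, g • o = o ∧ g • S = S' := by
  classical
  obtain ⟨t, ht, h3⟩ := h
  obtain ⟨t', ht', h3'⟩ := h'
  have h4 := hS.2.1 t ht
  have h4' := hS'.2.1 t' ht'
  obtain ⟨g, hg, hgo, hgt⟩ := Cfsg.Agent.Lib.Helper26.M24_transport ho ho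
    (Finset.inter_subset_right (s₁ := t) (s₂ := o)) (Finset.inter_subset_right (s₁ := t') (s₂ := o))
    (by rw [h3, h3']) (by rw [h3]; norm_num)
  have hsd : (t \ o).card = 1 := by
    have := Finset.card_sdiff_add_card_inter t o
    omega
  have hsd' : (t' \ o).card = 1 := by
    have := Finset.card_sdiff_add_card_inter t' o
    omega
  obtain ⟨x, hx⟩ := Finset.card_eq_one.mp hsd
  obtain ⟨x', hx'⟩ := Finset.card_eq_one.mp hsd'
  have hxm : x ∈ t \ o := hx ▸ Finset.mem_singleton_self x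
  have hxm' : x' ∈ t' \ o := hx' ▸ Finset.mem_singleton_self x'
  have hmo := Cfsg.Agent.S1553.mem_iff_of_smul hgo
  have hgx : g x ∉ o := fun h => (Finset.mem_sdiff.mp hxm).2 ((hmo x).mp h)
  obtain ⟨k, hk, hkx⟩ := Cfsg.Agent.S1554.pointwise_trans ho hgx (Finset.mem_sdiff.mp hxm').2
  have hk' := (mem_fixG.mp hk)
  have hko : k • o = o := smul_eq_of_fix (fun y hy => hk'.2 y (Finset.mem_coe.mpr hy))
  have hkgt : (k * g) • t = t' := by
    apply Finset.eq_of_subset_of_card_le
    · intro z hz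
      obtain ⟨y, hy, rfl⟩ := Finset.mem_smul_finset.mp hz
      rw [Equiv.Perm.smul_def, Equiv.Perm.mul_apply]
      by_cases hyo : y ∈ o
      · have h1 : g • y ∈ g • (t ∩ o) :=
          Finset.smul_mem_smul_finset (Finset.mem_inter.mpr ⟨hy, hyo⟩)
        rw [hgt, Equiv.Perm.smul_def] at h1
        rw [hk'.2 (g y) (Finset.mem_coe.mpr (Finset.mem_inter.mp h1).2)]
        exact (Finset.mem_inter.mp h1).1
      · have : y ∈ t \ o := Finset.mem_sdiff.mpr ⟨hy, hyo⟩
        rw [hx, Finset.mem_singleton] at this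
        rw [this, hkx]
        exact (Finset.mem_sdiff.mp hxm').1
    · rw [Finset.card_smul_finset, h4, h4']
  refine ⟨k * g, Cfsg.M24.mul_mem hk'.1 hg, by rw [mul_smul, hgo, hko], ?_⟩
  rw [sextet_eq_sextetOf hS ht, sextet_eq_sextetOf hS' ht',
    smul_sextetOf (Cfsg.M24.mul_mem hk'.1 hg) h4, hkgt]

end Cfsg.Agent.Lib.Helper93
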