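import Cfsg.Agent.Lib.Helper93.OctSext

set_option autoImplicit false

open scoped Pointwise

namespace Cfsg.Agent.Lib.Helper93

/-- For a sextet of the third kind, every tetrad meeting `o` meets it in two points. -/
theorem sextet_B_inter {o : Finset Cfsg.GolayPt} (ho : o ∈ Cfsg.octads)
    {S : Finset (Finset Cfsg.GolayPt)} (hS : S ∈ Cfsg.sextets)
    (hA : ¬ ∃ t ∈ S, t ⊆ o) (hC : ¬ ∃ t ∈ S, (t ∩ o).card = 3) {t : Finset Cfsg.GolayPt}
    (ht : t ∈ S) (hne : (t ∩ o).Nonempty) : (t ∩ o).card = 2 := by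
  classical
  have hle : (t ∩ o).card ≤ 4 := by
    have := Finset.card_le_card (Finset.inter_subset_left (s₁ := t) (s₂ := o))
    rw [hS.2.1 t ht] at this
    exact this
  have hpos := Finset.card_pos.mpr hne
  have hn4 : (t ∩ o).card ≠ 4 := by
    intro h4
    apply hA
    refine ⟨t, ht, ?_⟩
    have : t ∩ o = t :=
      Finset.eq_of_subset_of_card_le Finset.inter_subset_left (by rw [h4, hS.2.1 t ht])
    rw [← this]
    exact Finset.inter_subset_right
  have hn3 : (t ∩ o).card ≠ 3 := fun h3 => hC ⟨t, ht, h3⟩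
  have hn1 : (t ∩ o).card ≠ 1 := by
    intro h1
    have hall : ∀ u ∈ S, (u ∩ o).card = 1 := by
      intro u hu
      by_cases hut : u = t
      · rw [hut]; exact h1
      · have hn3u : (u ∩ o).card ≠ 3 := fun h3 => hC ⟨u, hu, h3⟩
        rcases sextet_pair_inter ho hS ht hu (Ne.symm hut) with h | h | h | h
        · exfalso
          apply hA
          exact ⟨t, ht, h ▸ Finset.subset_union_left⟩
        · omega
        · omega
        · omega
    have hsum := sum_inter_all hS o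
    rw [Finset.sum_congr rfl hall, Finset.sum_const, hS.1, octad_card ho] at hsum
    simp at hsum
  omega

/-- An element stabilising a sextet and fixing a point fixes the tetrad through the point. -/
theorem sextet_smul_tet_of_fix {S : Finset (Finset Cfsg.GolayPt)} (hS : S ∈ Cfsg.sextets)
    {g : Equiv.Perm Cfsg.GolayPt} (hgS : g • S = S) {t : Finset Cfsg.GolayPt} (ht : t ∈ S)
    {p : Cfsg.GolayPt} (hp : p ∈ t) (hgp : g p = p) : g • t = t := by
  classical
  have h1 : g • t ∈ S := by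
    have := Finset.smul_mem_smul_finset (a := g) ht
    rw [hgS] at this
    exact this
  have h2 : p ∈ g • t := by
    have := Finset.smul_mem_smul_finset (a := g) hp
    rw [Equiv.Perm.smul_def, hgp] at this
    exact this
  exact sextet_eq_of_mem_mem hS h1 ht h2 hp

theorem fix_pair {g : Equiv.Perm Cfsg.GolayPt} {F : Finset Cfsg.GolayPt}
    (hF : ∀ x ∈ F, g x ∈ F) (h2 : F.card = 2) {p : Cfsg.GolayPt} (hp : p ∈ F)
    (hgp : g p = p) : ∀ y ∈ F, g y = y := by
  classical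
  have h1 : (F.erase p).card = 1 := by rw [Finset.card_erase_of_mem hp, h2]
  obtain ⟨q, hq⟩ := Finset.card_eq_one.mp h1
  intro y hy
  by_cases hyp : y = p
  · rw [hyp]; exact hgp
  · have hyq : y = q := by
      have : y ∈ F.erase p := Finset.mem_erase.mpr ⟨hyp, hy⟩
      rw [hq, Finset.mem_singleton] at this
      exact this
    apply fix_last hF hy
    intro z hz hzy
    by_cases hzp : z = p
    · rw [hzp]; exact hgp
    · exfalso
      have : z ∈ F.erase p := Finset.mem_erase.mpr ⟨hzp, hz⟩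
      rw [hq, Finset.mem_singleton] at this
      exact hzy (this.trans hyq.symm)

/-- The stabiliser in the group of the code of an octad `o` and a sextet of the third kind
has order at most `384`. -/
theorem card_stab_sextet_B_le {o : Finset Cfsg.GolayPt} (ho : o ∈ Cfsg.octads)
    {S : Finset (Finset Cfsg.GolayPt)} (hS : S ∈ Cfsg.sextets)
    (hA : ¬ ∃ t ∈ S, t ⊆ o) (hC : ¬ ∃ t ∈ S, (t ∩ o).card = 3) :
    Nat.card ↥(Cfsg.M24 ⊓ MulAction.stabilizer (Equiv.Perm Cfsg.GolayPt) o ⊓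
        MulAction.stabilizer (Equiv.Perm Cfsg.GolayPt) S : Subgroup (Equiv.Perm Cfsg.GolayPt))
      ≤ 384 := by
  classical
  set G : Subgroup (Equiv.Perm Cfsg.GolayPt) :=
    Cfsg.M24 ⊓ MulAction.stabilizer (Equiv.Perm Cfsg.GolayPt) o ⊓
        MulAction.stabilizer (Equiv.Perm Cfsg.GolayPt) S with hG
  have hGmem : ∀ g ∈ G, g ∈ Cfsg.M24 ∧ g • o = o ∧ g • S = S := by
    intro g hg
    exact ⟨hg.1.1, hg.1.2, hg.2⟩
  have hdi : ∀ {U V : Finset Cfsg.GolayPt}, Disjoint U V → Disjoint (U ∩ o) (V ∩ o) :=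
    fun h => Finset.disjoint_of_subset_left Finset.inter_subset_left
      (Finset.disjoint_of_subset_right Finset.inter_subset_left h)
  -- the points and tetrads
  obtain ⟨p1, hp1⟩ : o.Nonempty := by rw [← Finset.card_pos, octad_card ho]; norm_num
  obtain ⟨U1, hU1, hp1U⟩ := sextet_cover hS p1
  have h21 : (U1 ∩ o).card = 2 :=
    sextet_B_inter ho hS hA hC hU1 ⟨p1, Finset.mem_inter.mpr ⟨hp1U, hp1⟩⟩
  have hF2 : (o \ U1).card = 6 := by
    have := Finset.card_sdiff_add_card_inter o U1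
    rw [Finset.inter_comm, h21, octad_card ho] at this
    omega
  obtain ⟨p2, hp2⟩ : (o \ U1).Nonempty := by rw [← Finset.card_pos, hF2]; norm_num
  obtain ⟨hp2o, hp2U1⟩ := Finset.mem_sdiff.mp hp2
  obtain ⟨U2, hU2, hp2U⟩ := sextet_cover hS p2
  have h22 : (U2 ∩ o).card = 2 :=
    sextet_B_inter ho hS hA hC hU2 ⟨p2, Finset.mem_inter.mpr ⟨hp2U, hp2o⟩⟩
  have hU12 : U1 ≠ U2 := by rintro rfl; exact hp2U1 hp2U
  have hd12 := sextet_disjoint hS hU1 hU2 hU12
  have hF3 : (o \ (U1 ∪ U2)).card = 4 := by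
    have := Finset.card_sdiff_add_card_inter o (U1 ∪ U2)
    rw [Finset.inter_comm, Finset.union_inter_distrib_right,
      Finset.card_union_of_disjoint (hdi hd12), h21, h22, octad_card ho] at this
    omega
  obtain ⟨p3, hp3⟩ : (o \ (U1 ∪ U2)).Nonempty := by rw [← Finset.card_pos, hF3]; norm_num
  obtain ⟨hp3o, hp3U⟩ := Finset.mem_sdiff.mp hp3
  rw [Finset.mem_union, not_or] at hp3U
  obtain ⟨U3, hU3, hp3U3⟩ := sextet_cover hS p3
  have h23 : (U3 ∩ o).card = 2 :=
    sextet_B_inter ho hS hA hC hU3 ⟨p3, Finset.mem_inter.mpr ⟨hp3U3, hp3o⟩⟩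
  have hU13 : U1 ≠ U3 := by rintro rfl; exact hp3U.1 hp3U3
  have hU23 : U2 ≠ U3 := by rintro rfl; exact hp3U.2 hp3U3
  have hd13 := sextet_disjoint hS hU1 hU3 hU13
  have hd23 := sextet_disjoint hS hU2 hU3 hU23
  have hF4 : (U1 \ o).card = 2 := by
    have := Finset.card_sdiff_add_card_inter U1 o
    rw [h21, hS.2.1 U1 hU1] at this
    omega
  obtain ⟨x, hx⟩ : (U1 \ o).Nonempty := by rw [← Finset.card_pos, hF4]; norm_num
  obtain ⟨hxU1, hxo⟩ := Finset.mem_sdiff.mp hx
  -- the bottom of the chain is trivial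
  have hbot : Nat.card ↥(G ⊓ MulAction.stabilizer (Equiv.Perm Cfsg.GolayPt) p1 ⊓
      MulAction.stabilizer (Equiv.Perm Cfsg.GolayPt) p2 ⊓
      MulAction.stabilizer (Equiv.Perm Cfsg.GolayPt) p3 ⊓
      MulAction.stabilizer (Equiv.Perm Cfsg.GolayPt) x :
      Subgroup (Equiv.Perm Cfsg.GolayPt)) ≤ 1 := by
    have : (G ⊓ MulAction.stabilizer (Equiv.Perm Cfsg.GolayPt) p1 ⊓
      MulAction.stabilizer (Equiv.Perm Cfsg.GolayPt) p2 ⊓
      MulAction.stabilizer (Equiv.Perm Cfsg.GolayPt) p3 ⊓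
      MulAction.stabilizer (Equiv.Perm Cfsg.GolayPt) x :
      Subgroup (Equiv.Perm Cfsg.GolayPt)) = ⊥ := by
      rw [eq_bot_iff]
      rintro g ⟨⟨⟨⟨hgG, hg1⟩, hg2⟩, hg3⟩, hgx⟩
      rw [Subgroup.mem_bot]
      obtain ⟨hgM, hgo, hgS⟩ := hGmem g hgG
      have hg1' : g p1 = p1 := hg1
      have hg2' : g p2 = p2 := hg2
      have hg3' : g p3 = p3 := hg3
      have hgx' : g x = x := hgx
      have hmo := Cfsg.Agent.S1553.mem_iff_of_smul hgo
      have hm1 := Cfsg.Agent.S1553.mem_iff_of_smul (sextet_smul_tet_of_fix hS hgS hU1 hp1U hg1')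
      have hm2 := Cfsg.Agent.S1553.mem_iff_of_smul (sextet_smul_tet_of_fix hS hgS hU2 hp2U hg2')
      have hm3 := Cfsg.Agent.S1553.mem_iff_of_smul (sextet_smul_tet_of_fix hS hgS hU3 hp3U3 hg3')
      have hfix1 : ∀ y ∈ U1 ∩ o, g y = y := fix_pair (by
        intro y hy
        rw [Finset.mem_inter] at hy ⊢
        exact ⟨(hm1 y).mpr hy.1, (hmo y).mpr hy.2⟩) h21 (Finset.mem_inter.mpr ⟨hp1U, hp1⟩) hg1'
      have hfix2 : ∀ y ∈ U2 ∩ o, g y = y := fix_pair (by
        intro y hy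
        rw [Finset.mem_inter] at hy ⊢
        exact ⟨(hm2 y).mpr hy.1, (hmo y).mpr hy.2⟩) h22 (Finset.mem_inter.mpr ⟨hp2U, hp2o⟩) hg2'
      have hfix3 : ∀ y ∈ U3 ∩ o, g y = y := fix_pair (by
        intro y hy
        rw [Finset.mem_inter] at hy ⊢
        exact ⟨(hm3 y).mpr hy.1, (hmo y).mpr hy.2⟩) h23 (Finset.mem_inter.mpr ⟨hp3U3, hp3o⟩) hg3'
      have h6 : ((U1 ∩ o) ∪ (U2 ∩ o) ∪ (U3 ∩ o)).card = 6 := by
        rw [Finset.card_union_of_disjoint (Finset.disjoint_union_left.mpr ⟨hdi hd13, hdi hd23⟩),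
          Finset.card_union_of_disjoint (hdi hd12), h21, h22, h23]
      have hall := fix_octad_of_fix_six ho (F := (U1 ∩ o) ∪ (U2 ∩ o) ∪ (U3 ∩ o))
        (Finset.union_subset (Finset.union_subset Finset.inter_subset_right
          Finset.inter_subset_right) Finset.inter_subset_right) h6 hgM (by
          intro y hy
          rw [Finset.mem_union, Finset.mem_union] at hy
          rcases hy with (h | h) | h
          · exact hfix1 y h
          · exact hfix2 y h
          · exact hfix3 y h)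
      have hgK : g ∈ Cfsg.M24 ⊓ fixingSubgroup (Equiv.Perm Cfsg.GolayPt)
          (o : Set Cfsg.GolayPt) :=
        mem_fixG.mpr ⟨hgM, fun y hy => hall y (Finset.mem_coe.mp hy)⟩
      exact Cfsg.Agent.S1554.pointwise_free ho hgK hxo hgx'
    rw [this, Subgroup.card_bot]
  -- the chain
  have s4 := card_le_of_orbit_pt (G ⊓ MulAction.stabilizer (Equiv.Perm Cfsg.GolayPt) p1 ⊓
      MulAction.stabilizer (Equiv.Perm Cfsg.GolayPt) p2 ⊓
      MulAction.stabilizer (Equiv.Perm Cfsg.GolayPt) p3) x (U1 \ o) (by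
        rintro g ⟨⟨⟨hgG, hg1⟩, hg2⟩, hg3⟩
        obtain ⟨hgM, hgo, hgS⟩ := hGmem g hgG
        have hg1' : g p1 = p1 := hg1
        have hmo := Cfsg.Agent.S1553.mem_iff_of_smul hgo
        have hm1 := Cfsg.Agent.S1553.mem_iff_of_smul
          (sextet_smul_tet_of_fix hS hgS hU1 hp1U hg1')
        exact Finset.mem_sdiff.mpr ⟨(hm1 x).mpr hxU1, fun h => hxo ((hmo x).mp h)⟩)
      (le_of_eq hF4) hbot
  have s3 := card_le_of_orbit_pt (G ⊓ MulAction.stabilizer (Equiv.Perm Cfsg.GolayPt) p1 ⊓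
      MulAction.stabilizer (Equiv.Perm Cfsg.GolayPt) p2) p3 (o \ (U1 ∪ U2)) (by
        rintro g ⟨⟨hgG, hg1⟩, hg2⟩
        obtain ⟨hgM, hgo, hgS⟩ := hGmem g hgG
        have hg1' : g p1 = p1 := hg1
        have hg2' : g p2 = p2 := hg2
        have hmo := Cfsg.Agent.S1553.mem_iff_of_smul hgo
        have hm1 := Cfsg.Agent.S1553.mem_iff_of_smul
          (sextet_smul_tet_of_fix hS hgS hU1 hp1U hg1')
        have hm2 := Cfsg.Agent.S1553.mem_iff_of_smul
          (sextet_smul_tet_of_fix hS hgS hU2 hp2U hg2')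
        refine Finset.mem_sdiff.mpr ⟨(hmo p3).mpr hp3o, ?_⟩
        rw [Finset.mem_union, not_or]
        exact ⟨fun h => hp3U.1 ((hm1 p3).mp h), fun h => hp3U.2 ((hm2 p3).mp h)⟩)
      (le_of_eq hF3) s4
  have s2 := card_le_of_orbit_pt (G ⊓ MulAction.stabilizer (Equiv.Perm Cfsg.GolayPt) p1) p2
      (o \ U1) (by
        rintro g ⟨hgG, hg1⟩
        obtain ⟨hgM, hgo, hgS⟩ := hGmem g hgG
        have hg1' : g p1 = p1 := hg1
        have hmo := Cfsg.Agent.S1553.mem_iff_of_smul hgo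
        have hm1 := Cfsg.Agent.S1553.mem_iff_of_smul
          (sextet_smul_tet_of_fix hS hgS hU1 hp1U hg1')
        exact Finset.mem_sdiff.mpr ⟨(hmo p2).mpr hp2o, fun h => hp2U1 ((hm1 p2).mp h)⟩)
      (le_of_eq hF2) s3
  have s1 := card_le_of_orbit_pt G p1 o (by
        intro g hg
        obtain ⟨hgM, hgo, hgS⟩ := hGmem g hg
        exact (Cfsg.Agent.S1553.mem_iff_of_smul hgo p1).mpr hp1)
      (le_of_eq (octad_card ho)) s2
  exact s1.trans (by norm_num)

end Cfsg.Agent.Lib.Helper93
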