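import Cfsg.Agent.Lib.Helper93.OctSextB

set_option autoImplicit false

open scoped Pointwise

namespace Cfsg.Agent.Lib.Helper93

theorem exists_tet_subset_smul_iff {g : Equiv.Perm Cfsg.GolayPt} {o : Finset Cfsg.GolayPt}
    {S : Finset (Finset Cfsg.GolayPt)} (h : g • o = o) :
    (∃ t ∈ g • S, t ⊆ o) ↔ ∃ t ∈ S, t ⊆ o := by
  classical
  constructor
  · rintro ⟨t, ht, hto⟩
    obtain ⟨t', ht', rfl⟩ := Finset.mem_smul_finset.mp ht
    refine ⟨t', ht', ?_⟩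
    have : g • t' ⊆ g • o := by rw [h]; exact hto
    exact Finset.smul_finset_subset_smul_finset_iff.mp this
  · rintro ⟨t, ht, hto⟩
    refine ⟨g • t, Finset.smul_mem_smul_finset ht, ?_⟩
    have : g • t ⊆ g • o := Finset.smul_finset_subset_smul_finset_iff.mpr hto
    rw [h] at this
    exact this

theorem exists_tet_inter_smul_iff {g : Equiv.Perm Cfsg.GolayPt} {o : Finset Cfsg.GolayPt}
    {S : Finset (Finset Cfsg.GolayPt)} (h : g • o = o) (k : ℕ) :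
    (∃ t ∈ g • S, (t ∩ o).card = k) ↔ ∃ t ∈ S, (t ∩ o).card = k := by
  classical
  constructor
  · rintro ⟨t, ht, hto⟩
    obtain ⟨t', ht', rfl⟩ := Finset.mem_smul_finset.mp ht
    refine ⟨t', ht', ?_⟩
    have := card_smul_inter_smul g t' o
    rw [h] at this
    rw [← this]
    exact hto
  · rintro ⟨t, ht, hto⟩
    refine ⟨g • t, Finset.smul_mem_smul_finset ht, ?_⟩
    have := card_smul_inter_smul g t o
    rw [h] at this
    rw [this]
    exact hto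

/-- The three orbits of an octad stabiliser on sextets. -/
theorem octad_stab_orbits_sextets {o : Finset Cfsg.GolayPt} (ho : o ∈ Cfsg.octads) :
    ∃ Y₁ ∈ Cfsg.sextets, ∃ Y₂ ∈ Cfsg.sextets, ∃ Y₃ ∈ Cfsg.sextets,
      (MulAction.orbit ↥(MulAction.stabilizer Cfsg.M24 o) Y₁).ncard = 35 ∧
      (MulAction.orbit ↥(MulAction.stabilizer Cfsg.M24 o) Y₂).ncard = 840 ∧
      (MulAction.orbit ↥(MulAction.stabilizer Cfsg.M24 o) Y₃).ncard = 896 ∧
      Cfsg.sextets = MulAction.orbit ↥(MulAction.stabilizer Cfsg.M24 o) Y₁ ∪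
        MulAction.orbit ↥(MulAction.stabilizer Cfsg.M24 o) Y₂ ∪
        MulAction.orbit ↥(MulAction.stabilizer Cfsg.M24 o) Y₃ := by
  classical
  -- the classes
  have hC1 : {S : Finset (Finset Cfsg.GolayPt) | S ∈ Cfsg.sextets ∧
      ∃ t ∈ S, t ⊆ o}.ncard = 35 := by
    rw [← card_sextet_class_A ho, ← Set.ncard_coe_finset]
    congr 1
    ext S
    rw [Finset.mem_coe, Finset.mem_filter, mem_sextetFinset]
    rfl
  have hC2 : {S : Finset (Finset Cfsg.GolayPt) | S ∈ Cfsg.sextets ∧ (¬ ∃ t ∈ S, t ⊆ o) ∧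
      ¬ ∃ t ∈ S, (t ∩ o).card = 3}.ncard = 840 := by
    rw [← card_sextet_class_B ho, ← Set.ncard_coe_finset]
    congr 1
    ext S
    rw [Finset.mem_coe, Finset.mem_filter, mem_sextetFinset]
    rfl
  have hC3 : {S : Finset (Finset Cfsg.GolayPt) | S ∈ Cfsg.sextets ∧
      ∃ t ∈ S, (t ∩ o).card = 3}.ncard = 896 := by
    rw [← card_sextet_class_C ho, ← Set.ncard_coe_finset]
    congr 1
    ext S
    rw [Finset.mem_coe, Finset.mem_filter, mem_sextetFinset]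
    rfl
  obtain ⟨Y₁, hY₁⟩ : {S : Finset (Finset Cfsg.GolayPt) | S ∈ Cfsg.sextets ∧
      ∃ t ∈ S, t ⊆ o}.Nonempty :=
    Set.nonempty_of_ncard_ne_zero (by rw [hC1]; norm_num)
  obtain ⟨Y₂, hY₂⟩ : {S : Finset (Finset Cfsg.GolayPt) | S ∈ Cfsg.sextets ∧
      (¬ ∃ t ∈ S, t ⊆ o) ∧ ¬ ∃ t ∈ S, (t ∩ o).card = 3}.Nonempty :=
    Set.nonempty_of_ncard_ne_zero (by rw [hC2]; norm_num)
  obtain ⟨Y₃, hY₃⟩ : {S : Finset (Finset Cfsg.GolayPt) | S ∈ Cfsg.sextets ∧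
      ∃ t ∈ S, (t ∩ o).card = 3}.Nonempty :=
    Set.nonempty_of_ncard_ne_zero (by rw [hC3]; norm_num)
  have e1 : MulAction.orbit ↥(MulAction.stabilizer Cfsg.M24 o) Y₁ =
      {S : Finset (Finset Cfsg.GolayPt) | S ∈ Cfsg.sextets ∧ ∃ t ∈ S, t ⊆ o} := by
    ext S
    rw [mem_orbit_stab_iff]
    constructor
    · rintro ⟨g, hg, hgo, rfl⟩
      exact ⟨smul_mem_sextets hg hY₁.1, (exists_tet_subset_smul_iff hgo).mpr hY₁.2⟩
    · rintro ⟨hS, hex⟩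
      exact sextet_trans_A ho hY₁.1 hS hY₁.2 hex
  have e3 : MulAction.orbit ↥(MulAction.stabilizer Cfsg.M24 o) Y₃ =
      {S : Finset (Finset Cfsg.GolayPt) | S ∈ Cfsg.sextets ∧ ∃ t ∈ S, (t ∩ o).card = 3} := by
    ext S
    rw [mem_orbit_stab_iff]
    constructor
    · rintro ⟨g, hg, hgo, rfl⟩
      exact ⟨smul_mem_sextets hg hY₃.1, (exists_tet_inter_smul_iff hgo 3).mpr hY₃.2⟩
    · rintro ⟨hS, hex⟩
      exact sextet_trans_C ho hY₃.1 hS hY₃.2 hex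
  have hsub2 : MulAction.orbit ↥(MulAction.stabilizer Cfsg.M24 o) Y₂ ⊆
      {S : Finset (Finset Cfsg.GolayPt) | S ∈ Cfsg.sextets ∧ (¬ ∃ t ∈ S, t ⊆ o) ∧
        ¬ ∃ t ∈ S, (t ∩ o).card = 3} := by
    intro S hS
    rw [mem_orbit_stab_iff] at hS
    obtain ⟨g, hg, hgo, rfl⟩ := hS
    exact ⟨smul_mem_sextets hg hY₂.1,
      fun h => hY₂.2.1 ((exists_tet_subset_smul_iff hgo).mp h),
      fun h => hY₂.2.2 ((exists_tet_inter_smul_iff hgo 3).mp h)⟩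
  have hge2 := orbit_ncard_ge ho Y₂ (card_stab_sextet_B_le ho hY₂.1 hY₂.2.1 hY₂.2.2)
    (n := 840) (by norm_num) (by norm_num)
  have e2 : MulAction.orbit ↥(MulAction.stabilizer Cfsg.M24 o) Y₂ =
      {S : Finset (Finset Cfsg.GolayPt) | S ∈ Cfsg.sextets ∧ (¬ ∃ t ∈ S, t ⊆ o) ∧
        ¬ ∃ t ∈ S, (t ∩ o).card = 3} :=
    Set.eq_of_subset_of_ncard_le hsub2 (by rw [hC2]; exact hge2) (Set.toFinite _)
  refine ⟨Y₁, hY₁.1, Y₂, hY₂.1, Y₃, hY₃.1, ?_, ?_, ?_, ?_⟩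
  · rw [e1]; exact hC1
  · rw [e2]; exact hC2
  · rw [e3]; exact hC3
  · rw [e1, e2, e3]
    ext S
    simp only [Set.mem_union, Set.mem_ofPred_eq]
    constructor
    · intro hS
      by_cases h1 : ∃ t ∈ S, t ⊆ o
      · exact Or.inl (Or.inl ⟨hS, h1⟩)
      · by_cases h2 : ∃ t ∈ S, (t ∩ o).card = 3
        · exact Or.inr ⟨hS, h2⟩
        · exact Or.inl (Or.inr ⟨hS, h1, h2⟩)
    · rintro ((h | h) | h)
      · exact h.1
      · exact h.1
      · exact h.1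

end Cfsg.Agent.Lib.Helper93
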