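import Cfsg.Agent.Lib.Helper93.OctOrbGen

set_option autoImplicit false

open scoped Pointwise

namespace Cfsg.Agent.Lib.Helper93

/-- The finset of trios. -/
noncomputable def trioFinset : Finset (Finset (Finset Cfsg.GolayPt)) :=
  @Finset.filter _ (· ∈ Cfsg.trios) (Classical.decPred _) Finset.univ

theorem mem_trioFinset (T : Finset (Finset Cfsg.GolayPt)) :
    T ∈ trioFinset ↔ T ∈ Cfsg.trios := by
  simp [trioFinset]

theorem card_trioFinset : trioFinset.card = 3795 := by
  rw [← ncard_trios, ← Set.ncard_coe_finset]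
  congr 1
  ext S
  rw [Finset.mem_coe, mem_trioFinset]

theorem card_trioFinset_through {o : Finset Cfsg.GolayPt} (ho : o ∈ Cfsg.octads) :
    (trioFinset.filter (fun T => o ∈ T)).card = 15 := by
  classical
  rw [← ncard_trios_through ho, ← Set.ncard_coe_finset]
  congr 1
  ext T
  rw [Finset.mem_coe, Finset.mem_filter, mem_trioFinset]
  rfl

/-- The stabiliser of `o` is transitive on the trios through `o`. -/
theorem trio_trans_one {o : Finset Cfsg.GolayPt} (ho : o ∈ Cfsg.octads)
    {T T' : Finset (Finset Cfsg.GolayPt)} (hT : T ∈ Cfsg.trios) (hT' : T' ∈ Cfsg.trios)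
    (hoT : o ∈ T) (hoT' : o ∈ T') : ∃ g ∈ Cfsg.M24, g • o = o ∧ g • T = T' := by
  classical
  obtain ⟨c, hc, hd, -, rfl⟩ := trio_through hT hoT
  obtain ⟨c', hc', hd', -, rfl⟩ := trio_through hT' hoT'
  obtain ⟨g, hg, hgo, hgc⟩ := Cfsg.Agent.S1556.result o c c' ho hc hc' (by
    rw [Finset.disjoint_iff_inter_eq_empty.mp hd, Finset.disjoint_iff_inter_eq_empty.mp hd'])
  exact ⟨g, hg, hgo, by rw [smul_trio, hgo, hgc]⟩

/-- A trio not containing `o` with a member disjoint from `o`: the other members meet `o` in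
four points. -/
theorem trio_type_two {o c3 : Finset Cfsg.GolayPt} (ho : o ∈ Cfsg.octads)
    {T : Finset (Finset Cfsg.GolayPt)} (hT : T ∈ Cfsg.trios) (hoT : o ∉ T) (hc3 : c3 ∈ T)
    (hd : Disjoint o c3) :
    ∃ c1 ∈ Cfsg.octads, Disjoint c3 c1 ∧ (o ∩ c1).card = 4 ∧ T = {c3, c1, (c3 ∪ c1)ᶜ} := by
  classical
  obtain ⟨c1, hc1, hd1, hc1T, hTeq⟩ := trio_through hT hc3
  have hc3o := hT.2.1 c3 hc3
  have he := octad_compl_union hc3o hc1 hd1
  have heT : (c3 ∪ c1)ᶜ ∈ T := by
    rw [hTeq]; simp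
  have hne1 : o ≠ c1 := by rintro rfl; exact hoT hc1T
  have hne2 : o ≠ (c3 ∪ c1)ᶜ := by rintro rfl; exact hoT heT
  have hsum := card_inter_trio hd1 o
  rw [octad_card ho, Finset.disjoint_iff_inter_eq_empty.mp hd, Finset.card_empty] at hsum
  refine ⟨c1, hc1, hd1, ?_, hTeq⟩
  rcases octad_inter ho hc1 hne1 with h | h | h <;>
    rcases octad_inter ho he hne2 with h' | h' | h' <;> omega

theorem trio_trans_two {o : Finset Cfsg.GolayPt} (ho : o ∈ Cfsg.octads)
    {T T' : Finset (Finset Cfsg.GolayPt)} (hT : T ∈ Cfsg.trios) (hT' : T' ∈ Cfsg.trios)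
    (hoT : o ∉ T) (hoT' : o ∉ T') (h : ∃ c ∈ T, Disjoint o c) (h' : ∃ c ∈ T', Disjoint o c) :
    ∃ g ∈ Cfsg.M24, g • o = o ∧ g • T = T' := by
  classical
  obtain ⟨c3, hc3, hd⟩ := h
  obtain ⟨c3', hc3', hd'⟩ := h'
  obtain ⟨c1, hc1, hd1, h4, rfl⟩ := trio_type_two ho hT hoT hc3 hd
  obtain ⟨c1', hc1', hd1', h4', rfl⟩ := trio_type_two ho hT' hoT' hc3' hd'
  obtain ⟨g, hg, hgo, hg1, hg3⟩ := octad_triple_transitive ho hc1 (hT.2.1 c3 hc3) ho hc1'
    (hT'.2.1 c3' hc3') h4 h4' hd.symm hd1 hd'.symm hd1'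
  exact ⟨g, hg, hgo, by rw [smul_trio, hg3, hg1]⟩

/-- There are `420` trios not containing `o` but with a member disjoint from `o`. -/
theorem card_trio_class_two {o : Finset Cfsg.GolayPt} (ho : o ∈ Cfsg.octads) :
    (trioFinset.filter (fun T => o ∉ T ∧ ∃ c ∈ T, Disjoint o c)).card = 420 := by
  classical
  set Df : Finset (Finset Cfsg.GolayPt) := octadFinset.filter (fun c => Disjoint o c) with hDf
  have hDfmem : ∀ c, c ∈ Df ↔ c ∈ Cfsg.octads ∧ Disjoint o c := by
    intro c; rw [hDf, Finset.mem_filter, mem_octadFinset]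
  have hDfcard : Df.card = 30 := by
    rw [← ncard_octads_disjoint ho, ← Set.ncard_coe_finset]
    congr 1
    ext c
    rw [Finset.mem_coe, hDfmem]
    rfl
  set P : Finset (Finset Cfsg.GolayPt × Finset (Finset Cfsg.GolayPt)) :=
    (Df ×ˢ trioFinset).filter (fun p => p.1 ∈ p.2 ∧ o ∉ p.2) with hP
  have hPcard : P.card = 420 := by
    rw [Finset.card_eq_sum_card_fiberwise (f := Prod.fst) (t := Df)]
    · have : ∀ c ∈ Df, (P.filter (fun p => p.1 = c)).card = 14 := by
        intro c hc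
        obtain ⟨hco, hcd⟩ := (hDfmem c).mp hc
        have himg : P.filter (fun p => p.1 = c) =
            (trioFinset.filter (fun T => c ∈ T ∧ o ∉ T)).image (fun T => (c, T)) := by
          ext ⟨a, T⟩
          simp only [hP, Finset.mem_filter, Finset.mem_product, Finset.mem_image, Prod.mk.injEq]
          constructor
          · rintro ⟨⟨⟨_, hT⟩, haT, hoT⟩, rfl⟩
            exact ⟨T, ⟨hT, haT, hoT⟩, rfl, rfl⟩
          · rintro ⟨T', ⟨hT, haT, hoT⟩, rfl, rfl⟩
            exact ⟨⟨⟨hc, hT⟩, haT, hoT⟩, rfl⟩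
        rw [himg, Finset.card_image_of_injective _ (fun a b h => (Prod.mk.injEq _ _ _ _ ▸ h).2)]
        have h15 := card_trioFinset_through hco
        have hsplit := Finset.card_filter_add_card_filter_not
          (s := trioFinset.filter (fun T => c ∈ T)) (fun T => o ∈ T)
        rw [Finset.filter_filter, Finset.filter_filter, h15] at hsplit
        have h1 : (trioFinset.filter (fun T => c ∈ T ∧ o ∈ T)).card = 1 := by
          rw [Finset.card_eq_one]
          refine ⟨{c, o, (c ∪ o)ᶜ}, ?_⟩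
          ext T
          rw [Finset.mem_filter, mem_trioFinset, Finset.mem_singleton]
          constructor
          · rintro ⟨hT, hcT, hoT⟩
            exact trio_eq hT hcT hoT (octad_ne_of_disjoint ho hcd).symm
          · rintro rfl
            exact ⟨trio_of_disjoint hco ho hcd.symm, by simp, by simp⟩
        rw [h1] at hsplit
        omega
      rw [Finset.sum_congr rfl this, Finset.sum_const, hDfcard, smul_eq_mul]
    · intro p hp
      simp only [hP, Finset.coe_filter, Finset.mem_product, Set.mem_ofPred_eq] at hp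
      exact hp.1.1
  rw [← hPcard]
  symm
  apply Finset.card_bij (fun p _ => p.2)
  · rintro ⟨c, T⟩ hp
    simp only [hP, Finset.mem_filter, Finset.mem_product] at hp
    rw [Finset.mem_filter]
    exact ⟨hp.1.2, hp.2.2, c, hp.2.1, ((hDfmem c).mp hp.1.1).2⟩
  · rintro ⟨c, T⟩ hp ⟨c', T'⟩ hp' heq
    simp only [hP, Finset.mem_filter, Finset.mem_product] at hp hp'
    have hTT : T = T' := heq
    subst hTT
    have hT := (mem_trioFinset T).mp hp.1.2
    have hcc : c = c' := by
      by_contra hne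
      have hTeq := trio_eq hT hp.2.1 hp'.2.1 hne
      have hcd := ((hDfmem c).mp hp.1.1).2
      have hcd' := ((hDfmem c').mp hp'.1.1).2
      have hoe : o = (c ∪ c')ᶜ := by
        apply Finset.eq_of_subset_of_card_le
        · intro x hx
          rw [Finset.mem_compl, Finset.mem_union]
          rintro (h | h)
          · exact Finset.disjoint_left.mp hcd hx h
          · exact Finset.disjoint_left.mp hcd' hx h
        · rw [octad_card ho, octad_card (octad_compl_union (hT.2.1 c hp.2.1)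
            (hT.2.1 c' hp'.2.1) (hT.2.2 c hp.2.1 c' hp'.2.1 hne))]
      apply hp.2.2
      rw [hTeq, hoe]
      simp
    rw [hcc]
  · intro T hT
    rw [Finset.mem_filter] at hT
    obtain ⟨hTf, hoT, c, hcT, hcd⟩ := hT
    refine ⟨(c, T), ?_, rfl⟩
    simp only [hP, Finset.mem_filter, Finset.mem_product]
    exact ⟨⟨(hDfmem c).mpr ⟨((mem_trioFinset T).mp hTf).2.1 c hcT, hcd⟩, hTf⟩, hcT, hoT⟩

/-- There are `3360` trios none of whose members equals or is disjoint from `o`. -/
theorem card_trio_class_three {o : Finset Cfsg.GolayPt} (ho : o ∈ Cfsg.octads) :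
    (trioFinset.filter (fun T => o ∉ T ∧ ∀ c ∈ T, ¬ Disjoint o c)).card = 3360 := by
  classical
  have h1 := card_trioFinset_through ho
  have h2 := card_trio_class_two ho
  have hs1 := Finset.card_filter_add_card_filter_not (s := trioFinset) (fun T => o ∈ T)
  have hs2 := Finset.card_filter_add_card_filter_not
    (s := trioFinset.filter (fun T => ¬ o ∈ T)) (fun T => ∃ c ∈ T, Disjoint o c)
  rw [Finset.filter_filter, Finset.filter_filter] at hs2
  rw [card_trioFinset, h1] at hs1
  have e2 : (trioFinset.filter (fun T => ¬ o ∈ T ∧ ∃ c ∈ T, Disjoint o c)).card = 420 := h2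
  have e3 : trioFinset.filter (fun T => ¬ o ∈ T ∧ ¬ ∃ c ∈ T, Disjoint o c) =
      trioFinset.filter (fun T => o ∉ T ∧ ∀ c ∈ T, ¬ Disjoint o c) := by
    apply Finset.filter_congr
    intro T _
    constructor
    · rintro ⟨h, h'⟩
      exact ⟨h, fun c hc hd => h' ⟨c, hc, hd⟩⟩
    · rintro ⟨h, h'⟩
      exact ⟨h, fun ⟨c, hc, hd⟩ => h' c hc hd⟩
  rw [e2, e3] at hs2
  omega

end Cfsg.Agent.Lib.Helper93
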