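import Cfsg.Agent.Lib.Helper93.OctTrio

set_option autoImplicit false

open scoped Pointwise

namespace Cfsg.Agent.Lib.Helper93

theorem fix_last {g : Equiv.Perm Cfsg.GolayPt} {F : Finset Cfsg.GolayPt}
    (hF : ∀ x ∈ F, g x ∈ F) {x0 : Cfsg.GolayPt} (hx0 : x0 ∈ F)
    (hfix : ∀ y ∈ F, y ≠ x0 → g y = y) : g x0 = x0 := by
  by_contra hne
  have h1 := hfix (g x0) (hF x0 hx0) hne
  exact hne (g.injective h1)

/-- The shape of a trio none of whose members equals or is disjoint from `o`. -/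
theorem trio_type_three {o : Finset Cfsg.GolayPt} (ho : o ∈ Cfsg.octads)
    {T : Finset (Finset Cfsg.GolayPt)} (hT : T ∈ Cfsg.trios) (hoT : o ∉ T)
    (hnd : ∀ c ∈ T, ¬ Disjoint o c) :
    ∃ c1 c2 c3, T = {c1, c2, c3} ∧ c1 ≠ c2 ∧ c1 ≠ c3 ∧ c2 ≠ c3 ∧
      (o ∩ c1).card = 4 ∧ (o ∩ c2).card = 2 ∧ (o ∩ c3).card = 2 := by
  classical
  obtain ⟨x, y, z, hxy, hxz, hyz, rfl⟩ := Finset.card_eq_three.mp hT.1
  have hx : x ∈ ({x, y, z} : Finset (Finset Cfsg.GolayPt)) := by simp
  have hy : y ∈ ({x, y, z} : Finset (Finset Cfsg.GolayPt)) := by simp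
  have hz : z ∈ ({x, y, z} : Finset (Finset Cfsg.GolayPt)) := by simp
  have hzeq : z = (x ∪ y)ᶜ := by
    have h := trio_eq hT hx hy hxy
    have hz' : z ∈ ({x, y, (x ∪ y)ᶜ} : Finset (Finset Cfsg.GolayPt)) := h ▸ hz
    simp only [Finset.mem_insert, Finset.mem_singleton] at hz'
    rcases hz' with h1 | h1 | h1
    · exact absurd h1.symm hxz
    · exact absurd h1.symm hyz
    · exact h1
  have hsum := card_inter_trio (hT.2.2 x hx y hy hxy) o
  rw [octad_card ho, ← hzeq] at hsum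
  have hcases : ∀ c ∈ ({x, y, z} : Finset (Finset Cfsg.GolayPt)),
      (o ∩ c).card = 2 ∨ (o ∩ c).card = 4 := by
    intro c hc
    have hne : o ≠ c := by rintro rfl; exact hoT hc
    rcases octad_inter ho (hT.2.1 c hc) hne with h | h | h
    · exfalso
      apply hnd c hc
      rw [Finset.disjoint_iff_inter_eq_empty, ← Finset.card_eq_zero]
      exact h
    · exact Or.inl h
    · exact Or.inr h
  rcases hcases x hx with h1 | h1 <;> rcases hcases y hy with h2 | h2 <;>
    rcases hcases z hz with h3 | h3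
  · omega
  · refine ⟨z, x, y, ?_, Ne.symm hxz, Ne.symm hyz, hxy, h3, h1, h2⟩
    ext w; simp only [Finset.mem_insert, Finset.mem_singleton]; tauto
  · refine ⟨y, x, z, ?_, Ne.symm hxy, hyz, hxz, h2, h1, h3⟩
    ext w; simp only [Finset.mem_insert, Finset.mem_singleton]; tauto
  · omega
  · exact ⟨x, y, z, rfl, hxy, hxz, hyz, h1, h2, h3⟩
  · omega
  · omega
  · omega

/-- The stabiliser in the group of the code of an octad `o` and a trio none of whose members
equals or is disjoint from `o` has order at most `96`. -/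
theorem card_stab_trio_three_le {o : Finset Cfsg.GolayPt} (ho : o ∈ Cfsg.octads)
    {T : Finset (Finset Cfsg.GolayPt)} (hT : T ∈ Cfsg.trios) (hoT : o ∉ T)
    (hnd : ∀ c ∈ T, ¬ Disjoint o c) :
    Nat.card ↥(Cfsg.M24 ⊓ MulAction.stabilizer (Equiv.Perm Cfsg.GolayPt) o ⊓
        MulAction.stabilizer (Equiv.Perm Cfsg.GolayPt) T : Subgroup (Equiv.Perm Cfsg.GolayPt))
      ≤ 96 := by
  classical
  obtain ⟨c1, c2, c3, hTeq, h12, h13, h23, h4, h2, h2'⟩ := trio_type_three ho hT hoT hnd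
  have hc1T : c1 ∈ T := by rw [hTeq]; simp
  have hc2T : c2 ∈ T := by rw [hTeq]; simp
  have hc3T : c3 ∈ T := by rw [hTeq]; simp
  have hc3o := hT.2.1 c3 hc3T
  have hc3eq : c3 = (c1 ∪ c2)ᶜ := by
    have h := trio_eq hT hc1T hc2T h12
    have hz' : c3 ∈ ({c1, c2, (c1 ∪ c2)ᶜ} : Finset (Finset Cfsg.GolayPt)) := h ▸ hc3T
    simp only [Finset.mem_insert, Finset.mem_singleton] at hz'
    rcases hz' with h1 | h1 | h1
    · exact absurd h1.symm h13
    · exact absurd h1.symm h23
    · exact h1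
  set G : Subgroup (Equiv.Perm Cfsg.GolayPt) :=
    Cfsg.M24 ⊓ MulAction.stabilizer (Equiv.Perm Cfsg.GolayPt) o ⊓
        MulAction.stabilizer (Equiv.Perm Cfsg.GolayPt) T with hG
  have hGmem : ∀ g ∈ G, g ∈ Cfsg.M24 ∧ g • o = o ∧ g • T = T := by
    intro g hg
    exact ⟨hg.1.1, hg.1.2, hg.2⟩
  -- members of T are permuted, preserving the intersection size with o
  have hperm : ∀ g ∈ G, ∀ c ∈ T, g • c ∈ T ∧ (o ∩ g • c).card = (o ∩ c).card := by
    intro g hg c hc
    obtain ⟨-, hgo, hgT⟩ := hGmem g hg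
    refine ⟨?_, ?_⟩
    · have := Finset.smul_mem_smul_finset (a := g) hc
      rw [hgT] at this
      exact this
    · have := card_smul_inter_smul g o c
      rw [hgo] at this
      exact this
  have hg1 : ∀ g ∈ G, g • c1 = c1 := by
    intro g hg
    obtain ⟨hm, hcard⟩ := hperm g hg c1 hc1T
    rw [hTeq] at hm
    simp only [Finset.mem_insert, Finset.mem_singleton] at hm
    rcases hm with h | h | h
    · exact h
    · rw [h] at hcard; omega
    · rw [h] at hcard; omega
  have hg2 : ∀ g ∈ G, g • c2 = c2 ∨ g • c2 = c3 := by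
    intro g hg
    obtain ⟨hm, hcard⟩ := hperm g hg c2 hc2T
    rw [hTeq] at hm
    simp only [Finset.mem_insert, Finset.mem_singleton] at hm
    rcases hm with h | h | h
    · rw [h] at hcard; omega
    · exact Or.inl h
    · exact Or.inr h
  -- the points
  obtain ⟨a, b, hab, hP⟩ := Finset.card_eq_two.mp h2
  have haP : a ∈ o ∩ c2 := hP ▸ Finset.mem_insert_self a {b}
  have hbP : b ∈ o ∩ c2 := hP ▸ Finset.mem_insert_of_mem (Finset.mem_singleton_self b)
  obtain ⟨t1, ht1⟩ : (o ∩ c1).Nonempty := by rw [← Finset.card_pos, h4]; norm_num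
  have hE1 : ((o ∩ c1).erase t1).card = 3 := by rw [Finset.card_erase_of_mem ht1, h4]
  obtain ⟨t2, ht2⟩ : ((o ∩ c1).erase t1).Nonempty := by rw [← Finset.card_pos, hE1]; norm_num
  have hE2 : (((o ∩ c1).erase t1).erase t2).card = 2 := by
    rw [Finset.card_erase_of_mem ht2, hE1]
  obtain ⟨t3, ht3⟩ : (((o ∩ c1).erase t1).erase t2).Nonempty := by
    rw [← Finset.card_pos, hE2]; norm_num
  have hE3 : ((((o ∩ c1).erase t1).erase t2).erase t3).card = 1 := by
    rw [Finset.card_erase_of_mem ht3, hE2]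
  -- the bottom of the chain is trivial
  have hbot : Nat.card ↥(G ⊓ MulAction.stabilizer (Equiv.Perm Cfsg.GolayPt) c2 ⊓
      MulAction.stabilizer (Equiv.Perm Cfsg.GolayPt) a ⊓
      MulAction.stabilizer (Equiv.Perm Cfsg.GolayPt) t1 ⊓
      MulAction.stabilizer (Equiv.Perm Cfsg.GolayPt) t2 ⊓
      MulAction.stabilizer (Equiv.Perm Cfsg.GolayPt) t3 :
      Subgroup (Equiv.Perm Cfsg.GolayPt)) ≤ 1 := by
    have : (G ⊓ MulAction.stabilizer (Equiv.Perm Cfsg.GolayPt) c2 ⊓
      MulAction.stabilizer (Equiv.Perm Cfsg.GolayPt) a ⊓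
      MulAction.stabilizer (Equiv.Perm Cfsg.GolayPt) t1 ⊓
      MulAction.stabilizer (Equiv.Perm Cfsg.GolayPt) t2 ⊓
      MulAction.stabilizer (Equiv.Perm Cfsg.GolayPt) t3 :
      Subgroup (Equiv.Perm Cfsg.GolayPt)) = ⊥ := by
      rw [eq_bot_iff]
      rintro g ⟨⟨⟨⟨⟨hgG, hgc2⟩, hga⟩, hgt1⟩, hgt2⟩, hgt3⟩
      rw [Subgroup.mem_bot]
      obtain ⟨hgM, hgo, hgT⟩ := hGmem g hgG
      have hgc2' : g • c2 = c2 := hgc2
      have hga' : g a = a := hga
      have hgt1' : g t1 = t1 := hgt1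
      have hgt2' : g t2 = t2 := hgt2
      have hgt3' : g t3 = t3 := hgt3
      have hgc1 := hg1 g hgG
      have hmo := Cfsg.Agent.S1553.mem_iff_of_smul hgo
      have hm1 := Cfsg.Agent.S1553.mem_iff_of_smul hgc1
      have hm2 := Cfsg.Agent.S1553.mem_iff_of_smul hgc2'
      have hgc3 : g • c3 = c3 := by
        obtain ⟨hm, -⟩ := hperm g hgG c3 hc3T
        rw [hTeq] at hm
        simp only [Finset.mem_insert, Finset.mem_singleton] at hm
        rcases hm with h | h | h
        · rw [← hgc1] at h; exact absurd (smul_left_cancel g h) (Ne.symm h13)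
        · rw [← hgc2'] at h; exact absurd (smul_left_cancel g h) (Ne.symm h23)
        · exact h
      -- g fixes o ∩ c1 pointwise
      have hT0map : ∀ x ∈ o ∩ c1, g x ∈ o ∩ c1 := by
        intro x hx
        rw [Finset.mem_inter] at hx ⊢
        exact ⟨(hmo x).mpr hx.1, (hm1 x).mpr hx.2⟩
      have hT0fix : ∀ x ∈ o ∩ c1, g x = x := by
        intro x hx
        by_cases hx1 : x = t1
        · rw [hx1]; exact hgt1'
        by_cases hx2 : x = t2
        · rw [hx2]; exact hgt2'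
        by_cases hx3 : x = t3
        · rw [hx3]; exact hgt3'
        have hxE : x ∈ (((o ∩ c1).erase t1).erase t2).erase t3 :=
          Finset.mem_erase.mpr ⟨hx3, Finset.mem_erase.mpr ⟨hx2, Finset.mem_erase.mpr ⟨hx1, hx⟩⟩⟩
        obtain ⟨w, hw⟩ := Finset.card_eq_one.mp hE3
        apply fix_last hT0map hx
        intro y hy hyx
        by_cases hy1 : y = t1
        · rw [hy1]; exact hgt1'
        by_cases hy2 : y = t2
        · rw [hy2]; exact hgt2'
        by_cases hy3 : y = t3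
        · rw [hy3]; exact hgt3'
        exfalso
        have hyE : y ∈ (((o ∩ c1).erase t1).erase t2).erase t3 :=
          Finset.mem_erase.mpr ⟨hy3, Finset.mem_erase.mpr ⟨hy2, Finset.mem_erase.mpr ⟨hy1, hy⟩⟩⟩
        rw [hw, Finset.mem_singleton] at hxE hyE
        exact hyx (hyE.trans hxE.symm)
      have hPmap : ∀ x ∈ o ∩ c2, g x ∈ o ∩ c2 := by
        intro x hx
        rw [Finset.mem_inter] at hx ⊢
        exact ⟨(hmo x).mpr hx.1, (hm2 x).mpr hx.2⟩
      have hgb : g b = b := by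
        apply fix_last hPmap hbP
        intro y hy hyb
        rw [hP, Finset.mem_insert, Finset.mem_singleton] at hy
        rcases hy with rfl | rfl
        · exact hga'
        · exact absurd rfl hyb
      apply eq_one_of_fix_sdiff ho hc3o h2' hgM hgo hgc3
      intro x hxo hxc3
      rw [hc3eq, Finset.mem_compl, Finset.mem_union, not_not] at hxc3
      rcases hxc3 with h | h
      · exact hT0fix x (Finset.mem_inter.mpr ⟨hxo, h⟩)
      · have : x ∈ o ∩ c2 := Finset.mem_inter.mpr ⟨hxo, h⟩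
        rw [hP, Finset.mem_insert, Finset.mem_singleton] at this
        rcases this with rfl | rfl
        · exact hga'
        · exact hgb
    rw [this, Subgroup.card_bot]
  -- the chain
  have s5 := card_le_of_orbit_pt (G ⊓ MulAction.stabilizer (Equiv.Perm Cfsg.GolayPt) c2 ⊓
      MulAction.stabilizer (Equiv.Perm Cfsg.GolayPt) a ⊓
      MulAction.stabilizer (Equiv.Perm Cfsg.GolayPt) t1 ⊓
      MulAction.stabilizer (Equiv.Perm Cfsg.GolayPt) t2) t3
      (((o ∩ c1).erase t1).erase t2) (by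
        rintro g ⟨⟨⟨⟨hgG, hgc2⟩, hga⟩, hgt1⟩, hgt2⟩
        obtain ⟨hgM, hgo, hgT⟩ := hGmem g hgG
        have hgt1' : g t1 = t1 := hgt1
        have hgt2' : g t2 = t2 := hgt2
        have hmo := Cfsg.Agent.S1553.mem_iff_of_smul hgo
        have hm1 := Cfsg.Agent.S1553.mem_iff_of_smul (hg1 g hgG)
        have h3 := Finset.mem_erase.mp ht3
        have h3' := Finset.mem_erase.mp h3.2
        have h3'' := Finset.mem_inter.mp h3'.2
        refine Finset.mem_erase.mpr ⟨?_, Finset.mem_erase.mpr ⟨?_, Finset.mem_inter.mpr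
          ⟨(hmo t3).mpr h3''.1, (hm1 t3).mpr h3''.2⟩⟩⟩
        · intro h; rw [← hgt2'] at h; exact h3.1 (g.injective h)
        · intro h; rw [← hgt1'] at h; exact h3'.1 (g.injective h))
      (le_of_eq hE2) hbot
  have s4 := card_le_of_orbit_pt (G ⊓ MulAction.stabilizer (Equiv.Perm Cfsg.GolayPt) c2 ⊓
      MulAction.stabilizer (Equiv.Perm Cfsg.GolayPt) a ⊓
      MulAction.stabilizer (Equiv.Perm Cfsg.GolayPt) t1) t2
      ((o ∩ c1).erase t1) (by
        rintro g ⟨⟨⟨hgG, hgc2⟩, hga⟩, hgt1⟩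
        obtain ⟨hgM, hgo, hgT⟩ := hGmem g hgG
        have hgt1' : g t1 = t1 := hgt1
        have hmo := Cfsg.Agent.S1553.mem_iff_of_smul hgo
        have hm1 := Cfsg.Agent.S1553.mem_iff_of_smul (hg1 g hgG)
        have h3 := Finset.mem_erase.mp ht2
        have h3'' := Finset.mem_inter.mp h3.2
        refine Finset.mem_erase.mpr ⟨?_, Finset.mem_inter.mpr
          ⟨(hmo t2).mpr h3''.1, (hm1 t2).mpr h3''.2⟩⟩
        intro h; rw [← hgt1'] at h; exact h3.1 (g.injective h))
      (le_of_eq hE1) s5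
  have s3 := card_le_of_orbit_pt (G ⊓ MulAction.stabilizer (Equiv.Perm Cfsg.GolayPt) c2 ⊓
      MulAction.stabilizer (Equiv.Perm Cfsg.GolayPt) a) t1
      (o ∩ c1) (by
        rintro g ⟨⟨hgG, hgc2⟩, hga⟩
        obtain ⟨hgM, hgo, hgT⟩ := hGmem g hgG
        have hmo := Cfsg.Agent.S1553.mem_iff_of_smul hgo
        have hm1 := Cfsg.Agent.S1553.mem_iff_of_smul (hg1 g hgG)
        have h3'' := Finset.mem_inter.mp ht1
        exact Finset.mem_inter.mpr ⟨(hmo t1).mpr h3''.1, (hm1 t1).mpr h3''.2⟩)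
      (le_of_eq h4) s4
  have s2 := card_le_of_orbit_pt (G ⊓ MulAction.stabilizer (Equiv.Perm Cfsg.GolayPt) c2) a
      (o ∩ c2) (by
        rintro g ⟨hgG, hgc2⟩
        obtain ⟨hgM, hgo, hgT⟩ := hGmem g hgG
        have hgc2' : g • c2 = c2 := hgc2
        have hmo := Cfsg.Agent.S1553.mem_iff_of_smul hgo
        have hm2 := Cfsg.Agent.S1553.mem_iff_of_smul hgc2'
        have h3'' := Finset.mem_inter.mp haP
        exact Finset.mem_inter.mpr ⟨(hmo a).mpr h3''.1, (hm2 a).mpr h3''.2⟩)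
      (le_of_eq h2) s3
  have s1 := card_le_of_orbit G c2 {c2, c3} (by
        intro g hg
        rw [Finset.mem_insert, Finset.mem_singleton]
        exact hg2 g hg)
      (Finset.card_le_two) s2
  exact s1.trans (by norm_num)

end Cfsg.Agent.Lib.Helper93
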