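import Cfsg.Agent.Lib.Helper93.OctTrio3

set_option autoImplicit false

open scoped Pointwise

namespace Cfsg.Agent.Lib.Helper93

theorem mem_smul_iff_of_fix {α : Type*} [DecidableEq α] [MulAction (Equiv.Perm Cfsg.GolayPt) α]
    {g : Equiv.Perm Cfsg.GolayPt} {o : α} {T : Finset α} (h : g • o = o) :
    o ∈ g • T ↔ o ∈ T := by
  have h1 : g • o ∈ g • T ↔ o ∈ T := Finset.smul_mem_smul_finset_iff g
  rw [h] at h1
  exact h1

theorem exists_disjoint_smul_iff {g : Equiv.Perm Cfsg.GolayPt} {o : Finset Cfsg.GolayPt}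
    {T : Finset (Finset Cfsg.GolayPt)} (h : g • o = o) :
    (∃ c ∈ g • T, Disjoint o c) ↔ ∃ c ∈ T, Disjoint o c := by
  classical
  constructor
  · rintro ⟨c, hc, hd⟩
    obtain ⟨c', hc', rfl⟩ := Finset.mem_smul_finset.mp hc
    refine ⟨c', hc', ?_⟩
    have : Disjoint (g • o) (g • c') := by rw [h]; exact hd
    exact disjoint_smul_finset_iff'.mp this
  · rintro ⟨c, hc, hd⟩
    refine ⟨g • c, Finset.smul_mem_smul_finset hc, ?_⟩
    have : Disjoint (g • o) (g • c) := disjoint_smul_finset_iff'.mpr hd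
    rw [h] at this
    exact this

/-- The three orbits of an octad stabiliser on trios. -/
theorem octad_stab_orbits_trios {o : Finset Cfsg.GolayPt} (ho : o ∈ Cfsg.octads) :
    ∃ X₁ ∈ Cfsg.trios, ∃ X₂ ∈ Cfsg.trios, ∃ X₃ ∈ Cfsg.trios,
      (MulAction.orbit ↥(MulAction.stabilizer Cfsg.M24 o) X₁).ncard = 15 ∧
      (MulAction.orbit ↥(MulAction.stabilizer Cfsg.M24 o) X₂).ncard = 420 ∧
      (MulAction.orbit ↥(MulAction.stabilizer Cfsg.M24 o) X₃).ncard = 3360 ∧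
      Cfsg.trios = MulAction.orbit ↥(MulAction.stabilizer Cfsg.M24 o) X₁ ∪
        MulAction.orbit ↥(MulAction.stabilizer Cfsg.M24 o) X₂ ∪
        MulAction.orbit ↥(MulAction.stabilizer Cfsg.M24 o) X₃ := by
  classical
  -- the classes
  have hC1 : {T : Finset (Finset Cfsg.GolayPt) | T ∈ Cfsg.trios ∧ o ∈ T}.ncard = 15 :=
    ncard_trios_through ho
  have hC2 : {T : Finset (Finset Cfsg.GolayPt) | T ∈ Cfsg.trios ∧ o ∉ T ∧
      ∃ c ∈ T, Disjoint o c}.ncard = 420 := by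
    rw [← card_trio_class_two ho, ← Set.ncard_coe_finset]
    congr 1
    ext T
    rw [Finset.mem_coe, Finset.mem_filter, mem_trioFinset]
    rfl
  have hC3 : {T : Finset (Finset Cfsg.GolayPt) | T ∈ Cfsg.trios ∧ o ∉ T ∧
      ∀ c ∈ T, ¬ Disjoint o c}.ncard = 3360 := by
    rw [← card_trio_class_three ho, ← Set.ncard_coe_finset]
    congr 1
    ext T
    rw [Finset.mem_coe, Finset.mem_filter, mem_trioFinset]
    rfl
  obtain ⟨X₁, hX₁⟩ : {T : Finset (Finset Cfsg.GolayPt) | T ∈ Cfsg.trios ∧ o ∈ T}.Nonempty :=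
    Set.nonempty_of_ncard_ne_zero (by rw [hC1]; norm_num)
  obtain ⟨X₂, hX₂⟩ : {T : Finset (Finset Cfsg.GolayPt) | T ∈ Cfsg.trios ∧ o ∉ T ∧
      ∃ c ∈ T, Disjoint o c}.Nonempty :=
    Set.nonempty_of_ncard_ne_zero (by rw [hC2]; norm_num)
  obtain ⟨X₃, hX₃⟩ : {T : Finset (Finset Cfsg.GolayPt) | T ∈ Cfsg.trios ∧ o ∉ T ∧
      ∀ c ∈ T, ¬ Disjoint o c}.Nonempty :=
    Set.nonempty_of_ncard_ne_zero (by rw [hC3]; norm_num)
  have e1 : MulAction.orbit ↥(MulAction.stabilizer Cfsg.M24 o) X₁ =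
      {T : Finset (Finset Cfsg.GolayPt) | T ∈ Cfsg.trios ∧ o ∈ T} := by
    ext T
    rw [mem_orbit_stab_iff]
    constructor
    · rintro ⟨g, hg, hgo, rfl⟩
      exact ⟨smul_mem_trios hg hX₁.1, (mem_smul_iff_of_fix hgo).mpr hX₁.2⟩
    · rintro ⟨hT, hoT⟩
      exact trio_trans_one ho hX₁.1 hT hX₁.2 hoT
  have e2 : MulAction.orbit ↥(MulAction.stabilizer Cfsg.M24 o) X₂ =
      {T : Finset (Finset Cfsg.GolayPt) | T ∈ Cfsg.trios ∧ o ∉ T ∧ ∃ c ∈ T, Disjoint o c} := by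
    ext T
    rw [mem_orbit_stab_iff]
    constructor
    · rintro ⟨g, hg, hgo, rfl⟩
      exact ⟨smul_mem_trios hg hX₂.1, fun h => hX₂.2.1 ((mem_smul_iff_of_fix hgo).mp h),
        (exists_disjoint_smul_iff hgo).mpr hX₂.2.2⟩
    · rintro ⟨hT, hoT, hex⟩
      exact trio_trans_two ho hX₂.1 hT hX₂.2.1 hoT hX₂.2.2 hex
  have hsub3 : MulAction.orbit ↥(MulAction.stabilizer Cfsg.M24 o) X₃ ⊆
      {T : Finset (Finset Cfsg.GolayPt) | T ∈ Cfsg.trios ∧ o ∉ T ∧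
        ∀ c ∈ T, ¬ Disjoint o c} := by
    intro T hT
    rw [mem_orbit_stab_iff] at hT
    obtain ⟨g, hg, hgo, rfl⟩ := hT
    refine ⟨smul_mem_trios hg hX₃.1, fun h => hX₃.2.1 ((mem_smul_iff_of_fix hgo).mp h), ?_⟩
    intro c hc hd
    obtain ⟨c', hc', hd'⟩ := (exists_disjoint_smul_iff hgo).mp ⟨c, hc, hd⟩
    exact hX₃.2.2 c' hc' hd'
  have hge3 := orbit_ncard_ge ho X₃ (card_stab_trio_three_le ho hX₃.1 hX₃.2.1 hX₃.2.2)
    (n := 3360) (by norm_num) (by norm_num)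
  have e3 : MulAction.orbit ↥(MulAction.stabilizer Cfsg.M24 o) X₃ =
      {T : Finset (Finset Cfsg.GolayPt) | T ∈ Cfsg.trios ∧ o ∉ T ∧
        ∀ c ∈ T, ¬ Disjoint o c} :=
    Set.eq_of_subset_of_ncard_le hsub3 (by rw [hC3]; exact hge3) (Set.toFinite _)
  refine ⟨X₁, hX₁.1, X₂, hX₂.1, X₃, hX₃.1, ?_, ?_, ?_, ?_⟩
  · rw [e1]; exact hC1
  · rw [e2]; exact hC2
  · rw [e3]; exact hC3
  · rw [e1, e2, e3]
    ext T
    simp only [Set.mem_union, Set.mem_ofPred_eq]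
    constructor
    · intro hT
      by_cases h1 : o ∈ T
      · exact Or.inl (Or.inl ⟨hT, h1⟩)
      · by_cases h2 : ∃ c ∈ T, Disjoint o c
        · exact Or.inl (Or.inr ⟨hT, h1, h2⟩)
        · exact Or.inr ⟨hT, h1, fun c hc hd => h2 ⟨c, hc, hd⟩⟩
    · rintro ((h | h) | h)
      · exact h.1
      · exact h.1
      · exact h.1

end Cfsg.Agent.Lib.Helper93
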