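import Cfsg.Agent.Lib.Helper93.Der

set_option autoImplicit false

namespace Cfsg.Agent.Lib.Helper93.PG

open scoped LinearAlgebra.Projectivization
open Module

variable {F : Type*} [Field F] {V : Type*} [AddCommGroup V] [Module F V]
  [Fintype (ℙ F V)] [DecidableEq (ℙ F V)]

open scoped Classical in
/-- The points of the projective space lying in the subspace `W`. -/
noncomputable def lineOf (W : Submodule F V) : Finset (ℙ F V) :=
  Finset.univ.filter (fun x => x.rep ∈ W)

omit [DecidableEq (ℙ F V)] in
theorem mem_lineOf {W : Submodule F V} {x : ℙ F V} : x ∈ lineOf W ↔ x.rep ∈ W := by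
  simp [lineOf]

omit [DecidableEq (ℙ F V)] in
theorem mk_mem_lineOf {W : Submodule F V} {v : V} (hv : v ≠ 0) :
    Projectivization.mk F v hv ∈ lineOf W ↔ v ∈ W := by
  rw [mem_lineOf]
  obtain ⟨a, ha⟩ := Projectivization.exists_smul_eq_mk_rep F v hv
  rw [← ha, Units.smul_def]
  exact Submodule.smul_mem_iff W a.ne_zero

theorem card_lineOf [Finite V] (hF : Nat.card F = 4) (W : Submodule F V)
    (hW : finrank F W = 2) : (lineOf W).card = 5 := by
  classical
  have hfinF : Finite F := Nat.finite_of_card_ne_zero (by rw [hF]; norm_num)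
  have hf : Function.Injective (Projectivization.map W.subtype W.injective_subtype) :=
    Projectivization.map_injective _ _
  have hfin : Fintype (ℙ F W) := Fintype.ofFinite _
  have himg : lineOf W = Finset.univ.image (Projectivization.map W.subtype W.injective_subtype) := by
    ext x
    rw [Finset.mem_image]
    constructor
    · intro hx
      rw [mem_lineOf] at hx
      have hne : (⟨x.rep, hx⟩ : W) ≠ 0 := by
        intro h
        exact x.rep_nonzero (congrArg Subtype.val h)
      refine ⟨Projectivization.mk F (⟨x.rep, hx⟩ : W) hne, Finset.mem_univ _, ?_⟩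
      rw [Projectivization.map_mk]
      exact x.mk_rep
    · rintro ⟨w, -, rfl⟩
      induction w using Projectivization.ind with
      | h w0 hw0 =>
        rw [Projectivization.map_mk, mk_mem_lineOf]
        exact w0.2
  rw [himg, Finset.card_image_of_injective _ hf, Finset.card_univ, ← Nat.card_eq_fintype_card,
    Projectivization.card_of_finrank_two F W hW, hF]

/-- The lines of the projective plane over `F`. -/
def lines (F : Type*) [Field F] (V : Type*) [AddCommGroup V] [Module F V] [Fintype (ℙ F V)] :
    Set (Finset (ℙ F V)) :=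
  {l | ∃ W : Submodule F V, finrank F W = 2 ∧ l = lineOf W}

theorem lines_steiner [Finite V] (hF : Nat.card F = 4) :
    Cfsg.IsSteinerSystem 2 5 (lines F V) := by
  classical
  have hfinF : Finite F := Nat.finite_of_card_ne_zero (by rw [hF]; norm_num)
  have hfd : Module.Finite F V := Module.Finite.of_finite
  refine ⟨?_, ?_⟩
  · rintro b ⟨W, hW, rfl⟩
    exact card_lineOf hF W hW
  · intro s hs
    obtain ⟨x, y, hxy, rfl⟩ := Finset.card_eq_two.mp hs
    have hli : LinearIndependent F ![x.rep, y.rep] :=
      Projectivization.linearIndependent_pair_iff_ne.mpr hxy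
    have hW : finrank F (Submodule.span F (Set.range ![x.rep, y.rep])) = 2 := by
      rw [finrank_span_eq_card hli]
      simp
    have hx : x.rep ∈ Submodule.span F (Set.range ![x.rep, y.rep]) :=
      Submodule.subset_span ⟨0, rfl⟩
    have hy : y.rep ∈ Submodule.span F (Set.range ![x.rep, y.rep]) :=
      Submodule.subset_span ⟨1, rfl⟩
    refine ⟨lineOf (Submodule.span F (Set.range ![x.rep, y.rep])), ⟨⟨_, hW, rfl⟩, ?_⟩, ?_⟩
    · intro z hz
      rcases Finset.mem_insert.mp hz with rfl | hz
      · exact mem_lineOf.mpr hx
      · rw [Finset.mem_singleton] at hz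
        rw [hz]
        exact mem_lineOf.mpr hy
    · rintro b ⟨⟨W', hW', rfl⟩, hsub⟩
      have hx' : x.rep ∈ W' := mem_lineOf.mp (hsub (Finset.mem_insert_self _ _))
      have hy' : y.rep ∈ W' :=
        mem_lineOf.mp (hsub (Finset.mem_insert_of_mem (Finset.mem_singleton_self _)))
      have hle : Submodule.span F (Set.range ![x.rep, y.rep]) ≤ W' := by
        rw [Submodule.span_le]
        rintro _ ⟨i, rfl⟩
        fin_cases i
        · exact hx'
        · exact hy'
      rw [Submodule.eq_of_le_of_finrank_eq hle (hW.trans hW'.symm)]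

variable {G : Type*} [Group G] [DistribMulAction G V] [SMulCommClass G F V]

omit [DecidableEq (ℙ F V)] in
theorem smul_lineOf (g : G) (W : Submodule F V) (x : ℙ F V) (hx : x ∈ lineOf W) :
    g • x ∈ lineOf (W.map (DistribMulAction.toLinearEquiv F V g).toLinearMap) := by
  induction x using Projectivization.ind with
  | h v hv =>
    rw [Projectivization.smul_mk, mk_mem_lineOf]
    rw [mk_mem_lineOf] at hx
    exact ⟨v, hx, rfl⟩

/-- A group acting linearly on `V` acts on the projective plane by automorphisms. -/
theorem toPerm_mem_aut [Finite V] (hF : Nat.card F = 4) (g : G) :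
    MulAction.toPerm g ∈ Cfsg.setSystemAut (lines F V) := by
  apply Cfsg.Agent.Lib.Helper93.Der.aut_of_maps
  rintro _ ⟨W, hW, rfl⟩
  have hW' : finrank F (W.map (DistribMulAction.toLinearEquiv F V g).toLinearMap) = 2 := by
    rw [← hW]
    exact LinearEquiv.finrank_map_eq (DistribMulAction.toLinearEquiv F V g) W
  refine ⟨_, hW', ?_⟩
  apply Finset.eq_of_subset_of_card_le
  · intro y hy
    obtain ⟨x, hx, rfl⟩ := Finset.mem_image.mp hy
    exact smul_lineOf g W x hx
  · rw [card_lineOf hF _ hW', Finset.card_image_of_injective _ (MulAction.toPerm g).injective,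
      card_lineOf hF W hW]

end Cfsg.Agent.Lib.Helper93.PG
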