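import Cfsg.Agent.Lib.Helper93.PG
import Cfsg.Agent.S0249
import Cfsg.Agent.Lib.Helper40.PSLOrders

set_option autoImplicit false

namespace Cfsg.Agent.Lib.Helper93.PG

open scoped LinearAlgebra.Projectivization
open Module

/-- Two subgroups of the same order `> 720` in a group of order at most six times as large
coincide when one of them is simple. -/
theorem eq_of_simple_card {A : Type*} [Group A] [Finite A] (K P : Subgroup A)
    (hA : Nat.card A ≤ 6 * Nat.card K) (hKP : Nat.card P = Nat.card K) (hP : 720 < Nat.card P)
    [IsSimpleGroup P] : P = K := by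
  have hKi : K.index ≤ 6 := by
    have h1 := Subgroup.index_mul_card K
    have hKpos : 0 < Nat.card K := Nat.card_pos
    by_contra hcon
    have h7 : 7 ≤ K.index := by omega
    have := Nat.mul_le_mul_right (Nat.card K) h7
    omega
  have hQi : (K.subgroupOf P).index ≤ 6 := by
    have h1 : K.relIndex P ≤ K.relIndex ⊤ :=
      Subgroup.relIndex_le_of_le_right le_top (by
        rw [Subgroup.relIndex_top_right]
        exact Subgroup.index_ne_zero_of_finite)
    rw [Subgroup.relIndex_top_right] at h1
    exact h1.trans hKi
  have hle : P ≤ K := by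
    rcases Subgroup.Normal.eq_bot_or_eq_top
      (inferInstance : (K.subgroupOf P).normalCore.Normal) with h | h
    · exfalso
      rw [Subgroup.normalCore_eq_ker] at h
      have hinj : Function.Injective (MulAction.toPermHom P (P ⧸ K.subgroupOf P)) :=
        (MonoidHom.ker_eq_bot_iff _).mp h
      have h1 := Nat.card_le_card_of_injective _ hinj
      rw [Nat.card_perm] at h1
      have h2 : Nat.card (P ⧸ K.subgroupOf P) ≤ 6 := hQi
      have h3 : (Nat.card (P ⧸ K.subgroupOf P)).factorial ≤ (6 : ℕ).factorial :=
        Nat.factorial_le h2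
      have h4 : (6 : ℕ).factorial = 720 := by decide
      omega
    · have h1 : K.subgroupOf P = ⊤ := top_le_iff.mp (h ▸ Subgroup.normalCore_le _)
      exact Subgroup.subgroupOf_eq_top.mp h1
  exact Subgroup.eq_of_le_of_card_ge hle (le_of_eq hKP.symm)

variable {F : Type*} [Field F] [Fintype (ℙ F (Fin 3 → F))] [DecidableEq (ℙ F (Fin 3 → F))]

omit [DecidableEq (ℙ F (Fin 3 → F))] in
theorem card_points (hF : Nat.card F = 4) : Fintype.card (ℙ F (Fin 3 → F)) = 21 := by
  have hfinF : Finite F := Nat.finite_of_card_ne_zero (by rw [hF]; norm_num)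
  rw [← Nat.card_eq_fintype_card,
    Projectivization.card_of_finrank F (Fin 3 → F) (n := 3) (by simp), hF]
  simp [Finset.sum_range_succ]

theorem psl_mem_aut (hF : Nat.card F = 4) (q : Matrix.ProjectiveSpecialLinearGroup (Fin 3) F) :
    Projectivization.PSLAction.toPermHom q ∈ Cfsg.setSystemAut (lines F (Fin 3 → F)) := by
  have hfinF : Finite F := Nat.finite_of_card_ne_zero (by rw [hF]; norm_num)
  induction q using QuotientGroup.induction_on with
  | H g => exact toPerm_mem_aut hF g

/-- `PSL(3, F)` as a group of automorphisms of the projective plane over `F`. -/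
noncomputable def pslHom (hF : Nat.card F = 4) :
    Matrix.ProjectiveSpecialLinearGroup (Fin 3) F →*
      Cfsg.setSystemAut (lines F (Fin 3 → F)) :=
  Projectivization.PSLAction.toPermHom.codRestrict _ (psl_mem_aut hF)

theorem pslHom_injective (hF : Nat.card F = 4) : Function.Injective (pslHom (F := F) hF) := by
  intro a b h
  exact Matrix.ProjectiveSpecialLinearGroup.toPermHom_injective (congrArg Subtype.val h)

end Cfsg.Agent.Lib.Helper93.PG
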