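import Cfsg.Agent.S5627
import Cfsg.Agent.S5628
import Cfsg.Agent.Lib.Helper93.Der

set_option autoImplicit false

namespace Cfsg.Agent.Lib.Helper93.PG

open scoped Pointwise
open Cfsg.Agent.Lib.Helper93.P4

variable {α : Type*} [Fintype α] [DecidableEq α]

omit [Fintype α] in
theorem hyp_image {L : Set (Finset α)} {g : Equiv.Perm α} (hg : g ∈ Cfsg.setSystemAut L)
    {H : Finset α} (hH : H.card = 6 ∧ ∀ l ∈ L, (l ∩ H).card ≤ 2) :
    (H.image g).card = 6 ∧ ∀ l ∈ L, (l ∩ H.image g).card ≤ 2 := by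
  refine ⟨?_, ?_⟩
  · rw [Finset.card_image_of_injective _ g.injective]
    exact hH.1
  · intro l hl
    have hl' : l.image (g⁻¹ : Equiv.Perm α) ∈ L :=
      aut_image ((Cfsg.setSystemAut L).inv_mem hg) hl
    have hl2 : l = (l.image (g⁻¹ : Equiv.Perm α)).image g := by
      rw [Finset.image_image]
      ext x
      simp
    rw [hl2, ← Finset.image_inter _ _ g.injective,
      Finset.card_image_of_injective _ g.injective]
    exact hH.2 _ hl'

/-- The automorphism group of a projective plane of order `4` has order at most `120960`. -/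
theorem aut_card_le (hα : Fintype.card α = 21) (L : Set (Finset α))
    (hL : Cfsg.IsSteinerSystem 2 5 L) : Nat.card (Cfsg.setSystemAut L) ≤ 120960 := by
  obtain ⟨-, h168, -⟩ := Cfsg.Agent.S5627.result hα L hL
  obtain ⟨H0, hH0⟩ : {H : Finset α | H.card = 6 ∧ ∀ l ∈ L, (l ∩ H).card ≤ 2}.Nonempty :=
    Set.nonempty_of_ncard_ne_zero (by rw [h168]; norm_num)
  have hsm : ∀ g : Cfsg.setSystemAut L, g • H0 = H0.image g.1 := fun g => rfl
  have hidx := MulAction.index_stabilizer (Cfsg.setSystemAut L) H0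
  have horb : (MulAction.orbit (Cfsg.setSystemAut L) H0).ncard ≤ 168 := by
    rw [← h168]
    apply Set.ncard_le_ncard _ (Set.toFinite _)
    rintro _ ⟨g, rfl⟩
    show (g • H0).card = 6 ∧ ∀ l ∈ L, (l ∩ g • H0).card ≤ 2
    rw [hsm]
    exact hyp_image g.2 hH0
  have hmem0 : ∀ k : Equiv.Perm α, H0.image k = H0 → ∀ x, k x ∈ H0 ↔ x ∈ H0 := by
    intro k hk x
    constructor
    · intro hx
      have hx' : k x ∈ H0.image k := hk.symm ▸ hx
      rw [Finset.mem_image] at hx'
      obtain ⟨y, hy, hyx⟩ := hx'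
      rw [← k.injective hyx]
      exact hy
    · intro hx
      have := Finset.mem_image_of_mem k hx
      rwa [hk] at this
  have hmem : ∀ g : MulAction.stabilizer (Cfsg.setSystemAut L) H0,
      ∀ x, g.1.1 x ∈ H0 ↔ x ∈ H0 := fun g => hmem0 g.1.1 ((hsm g.1).symm.trans g.2)
  have hstab : Nat.card (MulAction.stabilizer (Cfsg.setSystemAut L) H0) ≤ 720 := by
    have hinj : Function.Injective
        (fun g : MulAction.stabilizer (Cfsg.setSystemAut L) H0 =>
          (g.1.1.subtypePerm (hmem g) : Equiv.Perm {x // x ∈ H0})) := by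
      intro g g' h
      obtain ⟨k, -, hk⟩ := Cfsg.Agent.S5628.result hα L hL H0 hH0 (g.1.1.subtypePerm (hmem g))
      have h1 := hk g.1.1 ⟨g.1.2, fun p => rfl⟩
      have h2 := hk g'.1.1 ⟨g'.1.2, fun p => by
        have h' : g.1.1.subtypePerm (hmem g) = g'.1.1.subtypePerm (hmem g') := h
        rw [h']
        rfl⟩
      exact Subtype.ext (Subtype.ext (h1.trans h2.symm))
    have h1 := Nat.card_le_card_of_injective _ hinj
    have h2 : Nat.card (Equiv.Perm {x // x ∈ H0}) = 720 := by
      rw [Nat.card_perm, Nat.card_eq_fintype_card, Fintype.card_coe, hH0.1]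
      decide
    rw [h2] at h1
    exact h1
  have hmul := Subgroup.index_mul_card (MulAction.stabilizer (Cfsg.setSystemAut L) H0)
  rw [hidx] at hmul
  calc Nat.card (Cfsg.setSystemAut L)
      = (MulAction.orbit (Cfsg.setSystemAut L) H0).ncard *
        Nat.card (MulAction.stabilizer (Cfsg.setSystemAut L) H0) := hmul.symm
    _ ≤ 168 * 720 := Nat.mul_le_mul horb hstab
    _ = 120960 := by norm_num

end Cfsg.Agent.Lib.Helper93.PG
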