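import Cfsg.Agent.Lib.Helper93.DerM
import Cfsg.Agent.Lib.Helper93.PG2
import Cfsg.Agent.Lib.Helper93.PG3
import Cfsg.Agent.S5626

set_option autoImplicit false

namespace Cfsg.Agent.Lib.Helper93.PG

open scoped LinearAlgebra.Projectivization
open Cfsg.Agent.Lib.Helper93.Der Cfsg.Agent.Lib.Helper93.P4 Cfsg.Agent.Lib.Helper93.W24

/-- The order of a three-point stabiliser in the group of the length-24 code. -/
theorem card_stab3 {p q r : Cfsg.GolayPt} (hpq : p ≠ q) (hpr : p ≠ r) (hqr : q ≠ r) :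
    Nat.card ↥(MulAction.stabilizer Cfsg.M24 p ⊓ MulAction.stabilizer Cfsg.M24 q ⊓
      MulAction.stabilizer Cfsg.M24 r) = 20160 := by
  have hN := Cfsg.Agent.S0378.result p q hpq
  have hidx := MulAction.index_stabilizer
    ↥(MulAction.stabilizer Cfsg.M24 p ⊓ MulAction.stabilizer Cfsg.M24 q) r
  have hmul := Subgroup.index_mul_card (MulAction.stabilizer
    ↥(MulAction.stabilizer Cfsg.M24 p ⊓ MulAction.stabilizer Cfsg.M24 q) r)
  have horb : MulAction.orbit ↥(MulAction.stabilizer Cfsg.M24 p ⊓ MulAction.stabilizer Cfsg.M24 q) r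
      = ↑(({p, q} : Finset Cfsg.GolayPt)ᶜ) := by
    ext x
    rw [Finset.coe_compl, Set.mem_compl_iff, Finset.mem_coe, Finset.mem_insert,
      Finset.mem_singleton]
    constructor
    · rintro ⟨g, rfl⟩
      have hgp : (g.1 : Equiv.Perm Cfsg.GolayPt) p = p := g.2.1
      have hgq : (g.1 : Equiv.Perm Cfsg.GolayPt) q = q := g.2.2
      show ¬ ((g.1 : Equiv.Perm Cfsg.GolayPt) r = p ∨ (g.1 : Equiv.Perm Cfsg.GolayPt) r = q)
      rintro (h | h)
      · exact hpr ((g.1 : Equiv.Perm Cfsg.GolayPt).injective (hgp.trans h.symm))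
      · exact hqr ((g.1 : Equiv.Perm Cfsg.GolayPt).injective (hgq.trans h.symm))
    · intro hx
      rw [not_or] at hx
      obtain ⟨g, hg, h1, h2, h3⟩ := Cfsg.Agent.Lib.Helper7.M24_trans3 hpq hpr hqr hpq
        (Ne.symm hx.1) (Ne.symm hx.2)
      exact ⟨⟨⟨g, hg⟩, ⟨h1, h2⟩⟩, h3⟩
  have hcard : (MulAction.orbit
      ↥(MulAction.stabilizer Cfsg.M24 p ⊓ MulAction.stabilizer Cfsg.M24 q) r).ncard = 22 := by
    rw [horb, Set.ncard_coe_finset, Finset.card_compl, card_golayPt, Finset.card_pair hpq]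
  have hcong : Nat.card ↥(MulAction.stabilizer
      ↥(MulAction.stabilizer Cfsg.M24 p ⊓ MulAction.stabilizer Cfsg.M24 q) r) =
      Nat.card ↥(MulAction.stabilizer Cfsg.M24 p ⊓ MulAction.stabilizer Cfsg.M24 q ⊓
        MulAction.stabilizer Cfsg.M24 r) :=
    Nat.card_congr
      { toFun := fun g => ⟨g.1.1, ⟨g.1.2, g.2⟩⟩
        invFun := fun k => ⟨⟨k.1, k.2.1⟩, k.2.2⟩
        left_inv := fun _ => rfl
        right_inv := fun _ => rfl }
  rw [hidx, hcard, hcong, hN] at hmul
  omega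

/-- A three-point stabiliser in the group of the length-24 code is isomorphic to `PSL(3, 4)`. -/
theorem m21_iso (p q r : Cfsg.GolayPt) (hpq : p ≠ q) (hpr : p ≠ r) (hqr : q ≠ r)
    (F : Type) [Field F] [Fintype F] (hF : Fintype.card F = 4) :
    Nonempty (↥(MulAction.stabilizer Cfsg.M24 p ⊓ MulAction.stabilizer Cfsg.M24 q ⊓
      MulAction.stabilizer Cfsg.M24 r) ≃* Matrix.ProjectiveSpecialLinearGroup (Fin 3) F) := by
  classical
  have hFn : Nat.card F = 4 := by rw [Nat.card_eq_fintype_card, hF]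
  have hfinX : Fintype (ℙ F (Fin 3 → F)) := Fintype.ofFinite _
  have hL := lines_steiner (F := F) (V := Fin 3 → F) hFn
  have hX := card_points (F := F) hFn
  have hP3 : ({p, q, r} : Finset Cfsg.GolayPt).card = 3 := by
    rw [Finset.card_insert_of_notMem, Finset.card_pair hqr]
    rw [Finset.mem_insert, Finset.mem_singleton]
    rintro (h | h)
    · exact hpq h
    · exact hpr h
  have hL' : Cfsg.IsSteinerSystem 2 5 (derP Cfsg.octads ({p, q, r} : Finset Cfsg.GolayPt)) :=
    derP_steiner (t := 2) (k := 5) (m := 3) octads_steiner hP3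
  have hY : Fintype.card {a // a ∉ ({p, q, r} : Finset Cfsg.GolayPt)} = 21 := by
    rw [card_compl_subtype, card_golayPt, hP3]
  obtain ⟨e, he⟩ := Cfsg.Agent.S5626.result hX hY hL hL'
  -- the image of `PSL(3, F)`
  have hf1 : Function.Injective
      ((Cfsg.Agent.Lib.Helper93.AutTr.autEquiv e he).toMonoidHom.comp (pslHom (F := F) hFn)) :=
    (Cfsg.Agent.Lib.Helper93.AutTr.autEquiv e he).injective.comp (pslHom_injective hFn)
  -- the image of the three-point stabiliser
  have hK : ∀ g ∈ MulAction.stabilizer Cfsg.M24 p ⊓ MulAction.stabilizer Cfsg.M24 q ⊓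
      MulAction.stabilizer Cfsg.M24 r,
      ∀ a ∈ ({p, q, r} : Finset Cfsg.GolayPt), (g : Equiv.Perm Cfsg.GolayPt) a = a := by
    intro g hg a ha
    rw [Finset.mem_insert, Finset.mem_insert, Finset.mem_singleton] at ha
    rcases ha with rfl | rfl | rfl
    · exact hg.1.1
    · exact hg.1.2
    · exact hg.2
  have hmem : ∀ g, rho Cfsg.M24 (MulAction.stabilizer Cfsg.M24 p ⊓
      MulAction.stabilizer Cfsg.M24 q ⊓ MulAction.stabilizer Cfsg.M24 r) {p, q, r} hK g ∈
      Cfsg.setSystemAut (derP Cfsg.octads ({p, q, r} : Finset Cfsg.GolayPt)) := by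
    intro g
    have hgM : (g.1 : Equiv.Perm Cfsg.GolayPt) ∈ Cfsg.setSystemAut Cfsg.octads := by
      rw [← M24_eq]
      exact g.1.2
    exact res_mem (fix_iff (hK g.1 g.2)) hgM
  have hf2 : Function.Injective ((rho Cfsg.M24 (MulAction.stabilizer Cfsg.M24 p ⊓
      MulAction.stabilizer Cfsg.M24 q ⊓ MulAction.stabilizer Cfsg.M24 r) {p, q, r} hK).codRestrict
      (Cfsg.setSystemAut (derP Cfsg.octads ({p, q, r} : Finset Cfsg.GolayPt))) hmem) := by
    intro a b h
    exact rho_injective _ _ _ hK (congrArg Subtype.val h)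
  have hPc : Nat.card ((Cfsg.Agent.Lib.Helper93.AutTr.autEquiv e he).toMonoidHom.comp
      (pslHom (F := F) hFn)).range = 20160 := by
    rw [← Cfsg.Agent.Lib.Helper40.card_PSL_three_four hF]
    exact (Nat.card_congr (MonoidHom.ofInjective hf1).toEquiv).symm
  have hKc : Nat.card ((rho Cfsg.M24 (MulAction.stabilizer Cfsg.M24 p ⊓
      MulAction.stabilizer Cfsg.M24 q ⊓ MulAction.stabilizer Cfsg.M24 r) {p, q, r} hK).codRestrict
      (Cfsg.setSystemAut (derP Cfsg.octads ({p, q, r} : Finset Cfsg.GolayPt))) hmem).range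
      = 20160 := by
    rw [← card_stab3 hpq hpr hqr]
    exact (Nat.card_congr (MonoidHom.ofInjective hf2).toEquiv).symm
  have hA := aut_card_le hY _ hL'
  have hs0 : IsSimpleGroup (Matrix.ProjectiveSpecialLinearGroup (Fin 3) F) :=
    Cfsg.Agent.S0249.result 3 le_rfl
  have hs1 : IsSimpleGroup ((Cfsg.Agent.Lib.Helper93.AutTr.autEquiv e he).toMonoidHom.comp
      (pslHom (F := F) hFn)).range := (MonoidHom.ofInjective hf1).symm.isSimpleGroup
  have heq := eq_of_simple_card
    (P := ((Cfsg.Agent.Lib.Helper93.AutTr.autEquiv e he).toMonoidHom.comp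
      (pslHom (F := F) hFn)).range) (K := ((rho Cfsg.M24 (MulAction.stabilizer Cfsg.M24 p ⊓
      MulAction.stabilizer Cfsg.M24 q ⊓ MulAction.stabilizer Cfsg.M24 r) {p, q, r}
      hK).codRestrict
      (Cfsg.setSystemAut (derP Cfsg.octads ({p, q, r} : Finset Cfsg.GolayPt))) hmem).range)
    (by rw [hKc]; omega) (hPc.trans hKc.symm) (by rw [hPc]; norm_num)
  exact ⟨((MonoidHom.ofInjective hf2).trans (MulEquiv.subgroupCongr heq.symm)).trans
    (MonoidHom.ofInjective hf1).symm⟩

end Cfsg.Agent.Lib.Helper93.PG
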