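import Mathlib
import Cfsg.Agent.Lib.Helper93.SOd
import Cfsg.Agent.Lib.Helper91.SSFive

set_option autoImplicit false

namespace Cfsg.Agent.Lib.Helper93.SO

open Cfsg.Agent.Lib.Helper17

universe u

theorem arith_1080 (x y : ℕ) (hx : x ∣ 1080) (hy : y ∣ 1080) (hx1 : x ≠ 1) :
    ¬ (x % 5 = 1 ∧ y = x + 1) ∧ (x % 5 = 4 ∧ x = y + 1 → x = 4 ∨ x = 9) := by
  have hx' : x ∈ Nat.divisors 1080 := Nat.mem_divisors.mpr ⟨hx, by norm_num⟩
  have hy' : y ∈ Nat.divisors 1080 := Nat.mem_divisors.mpr ⟨hy, by norm_num⟩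
  have key : ∀ x ∈ Nat.divisors 1080, ∀ y ∈ Nat.divisors 1080, x ≠ 1 →
      ¬ (x % 5 = 1 ∧ y = x + 1) ∧ (x % 5 = 4 ∧ x = y + 1 → x = 4 ∨ x = 9) := by decide +kernel
  exact key x hx' y hy' hx1

/-- No non-abelian simple group has order `1080 = 2^3 * 3^3 * 5`. -/
theorem noSimple_1080 : NoSimple.{u} 1080 := by
  intro G _ _ _ hG hcard
  have : Fact (Nat.Prime 5) := ⟨by norm_num⟩
  have : Fact (Nat.Prime 3) := ⟨by norm_num⟩
  obtain ⟨hGn, P, d, r, hP, hd, hdc, hd1, hfac, hdN, hr, hr1, hrp, hrC, hPC⟩ :=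
    sylow_prime_data (G := G) 5 216 2 (by norm_num) (by norm_num) (by rw [hcard]) (by norm_num)
      (by rw [hcard]; norm_num)
  rw [hcard] at hfac hdN
  have hcl : sylowCands 5 216 = [1, 6, 36, 216] := by decide +kernel
  rw [hcl] at hdc
  simp only [List.mem_cons, List.not_mem_nil, or_false] at hdc
  have hr4 : r ∣ 4 := by simpa using hrp
  have hrle : r ≤ 4 := Nat.le_of_dvd (by norm_num) hr4
  have hpC : 5 ∣ Nat.card (Subgroup.centralizer ((P : Subgroup G) : Set G)) := by
    have := Subgroup.card_dvd_of_le hPC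
    rwa [hP] at this
  obtain ⟨C, hC⟩ : ∃ C, C = Nat.card (Subgroup.centralizer ((P : Subgroup G) : Set G)) := ⟨_, rfl⟩
  obtain ⟨N, hN⟩ : ∃ N, N = Nat.card (Subgroup.normalizer ((P : Subgroup G) : Set G)) := ⟨_, rfl⟩
  rw [← hC] at hrC hpC
  rw [← hN] at hrC hdN
  rcases hdc with rfl | rfl | rfl | rfl
  · exact hd1 rfl
  · revert hfac
    decide
  · have hN30 : N = 30 := by omega
    rw [hN30] at hrC
    have hr2 : r = 2 := by
      obtain ⟨c, hc⟩ := hpC
      rw [hc] at hrC
      interval_cases r <;> omega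
    have hC15 : C = 15 := by rw [hr2] at hrC; omega
    obtain ⟨c', hc'⟩ := exists_prime_orderOf_dvd_card'
      (G := Subgroup.centralizer ((P : Subgroup G) : Set G)) 3 (by rw [← hC, hC15]; norm_num)
    exact Cfsg.Agent.Lib.Helper91.SS.case_m2_five hGn
      (fun x y hx hy hx1 => arith_1080 x y (hcard ▸ hx) (hcard ▸ hy) hx1) P hP (by rw [hr, hr2])
      (c' : G) c'.2 (Or.inr (by rw [Subgroup.orderOf_coe]; exact hc'))
  · have hN5 : N = 5 := by omega
    rw [hN5] at hrC
    obtain ⟨c, hc⟩ := hpC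
    rw [hc] at hrC
    interval_cases r <;> omega

theorem arith_756 (x : ℕ) (hx : x ∣ 756) (hx1 : x ≠ 1) :
    (x % 7 = 1 → x = 36) ∧ (x % 7 = 6 → x = 6 ∨ x = 27) := by
  have hx' : x ∈ Nat.divisors 756 := Nat.mem_divisors.mpr ⟨hx, by norm_num⟩
  have key : ∀ x ∈ Nat.divisors 756, x ≠ 1 →
      (x % 7 = 1 → x = 36) ∧ (x % 7 = 6 → x = 6 ∨ x = 27) := by decide +kernel
  exact key x hx' hx1

theorem m3_norm (d δ : ℤ) (S : ℤ) (hδ : δ = 1 ∨ δ = -1) (hS : 0 ≤ S)
    (h : (d - δ) ^ 2 + (2 - 1) * d ^ 2 + 1 + S = 3 + 1) :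
    S = 2 ∧ (2 * d - δ = 1 ∨ 2 * d - δ = -1) := by
  have hd1 : -1 ≤ d ∧ d ≤ 1 := by
    constructor <;> rcases hδ with rfl | rfl <;>
      nlinarith [sq_nonneg (d - 1), sq_nonneg (d + 1), sq_nonneg d]
  obtain ⟨hd1, hd2⟩ := hd1
  rcases hδ with rfl | rfl
  · interval_cases d
    · exfalso; nlinarith
    · refine ⟨by nlinarith, ?_⟩
      right; ring
    · refine ⟨by nlinarith, ?_⟩
      left; ring
  · interval_cases d
    · refine ⟨by nlinarith, ?_⟩
      right; ring
    · refine ⟨by nlinarith, ?_⟩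
      left; ring
    · exfalso; nlinarith

/-- No non-abelian simple group has order `756 = 2^2 * 3^3 * 7`. -/
theorem noSimple_756 : NoSimple.{u} 756 := by
  intro G _ _ _ hG hcard
  have : Fact (Nat.Prime 7) := ⟨by norm_num⟩
  obtain ⟨hGn, P, d, r, hP, hd, hdc, hd1, hfac, hdN, hr, hr1, hrp, hrC, hPC⟩ :=
    sylow_prime_data (G := G) 7 108 2 (by norm_num) (by norm_num) (by rw [hcard]) (by norm_num)
      (by rw [hcard]; norm_num)
  rw [hcard] at hfac hdN
  have hcl : sylowCands 7 108 = [1, 36] := by decide +kernel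
  rw [hcl] at hdc
  simp only [List.mem_cons, List.not_mem_nil, or_false] at hdc
  have hr6 : r ∣ 6 := by simpa using hrp
  have hrle : r ≤ 6 := Nat.le_of_dvd (by norm_num) hr6
  have hpC : 7 ∣ Nat.card (Subgroup.centralizer ((P : Subgroup G) : Set G)) := by
    have := Subgroup.card_dvd_of_le hPC
    rwa [hP] at this
  obtain ⟨C, hC⟩ : ∃ C, C = Nat.card (Subgroup.centralizer ((P : Subgroup G) : Set G)) := ⟨_, rfl⟩
  obtain ⟨N, hN⟩ : ∃ N, N = Nat.card (Subgroup.normalizer ((P : Subgroup G) : Set G)) := ⟨_, rfl⟩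
  rw [← hC] at hrC hpC
  rw [← hN] at hrC hdN
  rcases hdc with rfl | rfl
  · exact hd1 rfl
  have hN21 : N = 21 := by omega
  rw [hN21] at hrC
  have hr3 : r = 3 := by
    obtain ⟨c, hc⟩ := hpC
    rw [hc] at hrC
    interval_cases r <;> omega
  obtain ⟨k, a, x, d, δ, y, hk, hδ, hax, hy0, hyd, hnorm, hfin⟩ :=
    Cfsg.Agent.Lib.Helper90.BrauerDeg.brauer_simple hGn 7 P hP 3 (by norm_num) (by rw [hr, hr3])
  rw [hcard] at hyd
  have h2 : ((7 - 1) / 3 : ℕ) = 2 := by norm_num
  rw [h2] at hnorm hfin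
  push_cast at hnorm hfin
  have hS : 0 ≤ ∑ i, a i ^ 2 := Finset.sum_nonneg (fun i _ => sq_nonneg _)
  obtain ⟨hsum, hε⟩ := m3_norm d δ _ hδ hS hnorm
  have hpm : ∀ b : ℤ, b ^ 2 = 1 → b = 1 ∨ b = -1 := by
    intro b hb
    have h1 : (b - 1) * (b + 1) = 0 := by nlinarith
    rcases mul_eq_zero.mp h1 with h | h
    · left; omega
    · right; omega
  have hk' : k = 0 ∨ k = 1 ∨ k = 2 := by omega
  rcases hk' with rfl | rfl | rfl
  · simp at hsum
  · simp only [Fin.sum_univ_succ, Fin.sum_univ_zero, add_zero] at hsum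
    have h1 : a 0 ≤ 1 := by nlinarith
    have h2 : -1 ≤ a 0 := by nlinarith
    have h3 : a 0 = -1 ∨ a 0 = 0 ∨ a 0 = 1 := by omega
    rcases h3 with h | h | h <;> rw [h] at hsum <;> norm_num at hsum
  · rw [Fin.sum_univ_two] at hsum hfin
    obtain ⟨ha0, hxd0, hx10, hxa0⟩ := hax 0
    obtain ⟨ha1, hxd1, hx11, hxa1⟩ := hax 1
    rw [hcard] at hxd0 hxd1
    have hsq0 : 1 ≤ a 0 ^ 2 := by
      rcases lt_trichotomy (a 0) 0 with h | h | h
      · nlinarith
      · exact absurd h ha0
      · nlinarith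
    have hsq1 : 1 ≤ (a 1) ^ 2 := by
      rcases lt_trichotomy (a 1) 0 with h | h | h
      · nlinarith
      · exact absurd h ha1
      · nlinarith
    have hA0 := hpm (a 0) (by omega)
    have hA1 := hpm (a 1) (by omega)
    have hX0 := arith_756 (x 0) hxd0 hx10
    have hX1 := arith_756 (x 1) hxd1 hx11
    have hm0 : ∀ b : ℤ, (b = 1 → x 0 % 7 = 1) ∧ (b = -1 → x 0 % 7 = 6) ∨ a 0 ≠ b := by
      intro b
      by_cases hb : a 0 = b
      · left
        constructor
        · intro h1
          rw [hb, h1] at hxa0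
          exact mod_of_modEq_one 7 (x 0) (by norm_num) hxa0
        · intro h1
          rw [hb, h1] at hxa0
          exact mod_of_modEq_neg_one 7 (x 0) (by norm_num) hxa0
      · right; exact hb
    have hm1 : ∀ b : ℤ, (b = 1 → x 1 % 7 = 1) ∧ (b = -1 → x 1 % 7 = 6) ∨ a 1 ≠ b := by
      intro b
      by_cases hb : a 1 = b
      · left
        constructor
        · intro h1
          rw [hb, h1] at hxa1
          exact mod_of_modEq_one 7 (x 1) (by norm_num) hxa1
        · intro h1
          rw [hb, h1] at hxa1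
          exact mod_of_modEq_neg_one 7 (x 1) (by norm_num) hxa1
      · right; exact hb
    have hy1 : (1 : ℤ) ≤ (y : ℤ) := by exact_mod_cast hy0
    have hyle : y ≤ 756 := Nat.le_of_dvd (by norm_num) hyd
    have hcases : ∀ y' : ℕ, y' ∈ [73, 31, 10, 11, 32, 53] → ¬ (y' ∣ 756) := by decide
    rcases hA0 with h0 | h0 <;> rcases hA1 with h1 | h1
    · have e0 : x 0 = 36 := by
        rcases hm0 1 with h | h
        · exact hX0.1 (h.1 rfl)
        · exact absurd h0 h
      have e1 : x 1 = 36 := by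
        rcases hm1 1 with h | h
        · exact hX1.1 (h.1 rfl)
        · exact absurd h1 h
      rw [h0, h1, e0, e1] at hfin
      rcases hε with h | h <;> rw [h] at hfin
      · omega
      · have : y = 73 := by omega
        exact hcases 73 (by simp) (this ▸ hyd)
    · have e0 : x 0 = 36 := by
        rcases hm0 1 with h | h
        · exact hX0.1 (h.1 rfl)
        · exact absurd h0 h
      have e1 : x 1 = 6 ∨ x 1 = 27 := by
        rcases hm1 (-1) with h | h
        · exact hX1.2 (h.2 rfl)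
        · exact absurd h1 h
      rw [h0, h1, e0] at hfin
      rcases e1 with e1 | e1 <;> rw [e1] at hfin <;> rcases hε with h | h <;> rw [h] at hfin
      · omega
      · have : y = 31 := by omega
        exact hcases 31 (by simp) (this ▸ hyd)
      · omega
      · have : y = 10 := by omega
        exact hcases 10 (by simp) (this ▸ hyd)
    · have e0 : x 0 = 6 ∨ x 0 = 27 := by
        rcases hm0 (-1) with h | h
        · exact hX0.2 (h.2 rfl)
        · exact absurd h0 h
      have e1 : x 1 = 36 := by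
        rcases hm1 1 with h | h
        · exact hX1.1 (h.1 rfl)
        · exact absurd h1 h
      rw [h0, h1, e1] at hfin
      rcases e0 with e0 | e0 <;> rw [e0] at hfin <;> rcases hε with h | h <;> rw [h] at hfin
      · omega
      · have : y = 31 := by omega
        exact hcases 31 (by simp) (this ▸ hyd)
      · omega
      · have : y = 10 := by omega
        exact hcases 10 (by simp) (this ▸ hyd)
    · have e0 : x 0 = 6 ∨ x 0 = 27 := by
        rcases hm0 (-1) with h | h
        · exact hX0.2 (h.2 rfl)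
        · exact absurd h0 h
      have e1 : x 1 = 6 ∨ x 1 = 27 := by
        rcases hm1 (-1) with h | h
        · exact hX1.2 (h.2 rfl)
        · exact absurd h1 h
      rw [h0, h1] at hfin
      rcases e0 with e0 | e0 <;> rcases e1 with e1 | e1 <;> rw [e0, e1] at hfin <;>
        rcases hε with h | h <;> rw [h] at hfin
      · have : y = 11 := by omega
        exact hcases 11 (by simp) (this ▸ hyd)
      · omega
      · have : y = 32 := by omega
        exact hcases 32 (by simp) (this ▸ hyd)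
      · omega
      · have : y = 32 := by omega
        exact hcases 32 (by simp) (this ▸ hyd)
      · omega
      · have : y = 53 := by omega
        exact hcases 53 (by simp) (this ▸ hyd)
      · omega

end Cfsg.Agent.Lib.Helper93.SO
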