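import Mathlib
import Cfsg.Agent.Lib.Helper93.SOc
import Cfsg.Agent.Lib.Helper90.SylowAux

set_option autoImplicit false

namespace Cfsg.Agent.Lib.Helper93.SO

open Cfsg.Agent.Lib.Helper17

/-- If `t` inverts `z` (of order dividing `5`), the points fixed by `t` and moved by `z` have
five disjoint translates under `⟨z⟩`. -/
theorem five_mul_ncard_fixed_le {G : Type*} [Group G] {X : Type*} [MulAction G X] [Finite X]
    (z t : G) (hz5 : z ^ 5 = 1) (hinv : t * z * t⁻¹ = z⁻¹) :
    5 * Set.ncard {x : X | t • x = x ∧ z • x ≠ x} ≤ Set.ncard {x : X | z • x ≠ x} := by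
  classical
  have hpow : ∀ m : ℤ, t * z ^ m * t⁻¹ = z ^ (-m) := by
    intro m
    have h1 : t * z ^ m * t⁻¹ = (t * z * t⁻¹) ^ m := by
      have := map_zpow (MulAut.conj t) z m
      simpa [MulAut.conj_apply] using this
    rw [h1, hinv, inv_zpow, zpow_neg]
  have key : ∀ (a : X) (m : ℤ), t • a = a → z • a ≠ a → t • (z ^ m • a) = z ^ m • a →
      (5 : ℤ) ∣ m := by
    intro a m hta hza h
    have h1 : z ^ (-m) • a = z ^ m • a := by
      have h0 : t • (z ^ m • a) = z ^ (-m) • a := by
        rw [← mul_smul]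
        have e : t * z ^ m = z ^ (-m) * t := by
          rw [← hpow m]; group
        rw [e, mul_smul, hta]
      rw [← h0, h]
    have h2 : z ^ (2 * m) ∈ MulAction.stabilizer G a := by
      rw [MulAction.mem_stabilizer_iff]
      have e : z ^ (2 * m) = z ^ m * z ^ m := by rw [← zpow_add]; congr 1; ring
      rw [e, mul_smul, ← h1, ← mul_smul, ← zpow_add]
      simp
    have h5 : z ^ (5 : ℤ) ∈ MulAction.stabilizer G a := by
      have : z ^ (5 : ℤ) = 1 := by
        have := zpow_natCast z 5
        rw [hz5] at this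
        exact_mod_cast this
      rw [this]
      exact one_mem _
    by_contra hnd
    apply hza
    have hex : ∃ s e : ℤ, 2 * m * s + 5 * e = 1 := by
      have hm : m % 5 = 1 ∨ m % 5 = 2 ∨ m % 5 = 3 ∨ m % 5 = 4 := by omega
      rcases hm with h | h | h | h
      · exact ⟨3, (1 - 6 * m) / 5, by omega⟩
      · exact ⟨4, (1 - 8 * m) / 5, by omega⟩
      · exact ⟨1, (1 - 2 * m) / 5, by omega⟩
      · exact ⟨2, (1 - 4 * m) / 5, by omega⟩
    obtain ⟨s, e, hse⟩ := hex
    have hz : z = (z ^ (2 * m)) ^ s * (z ^ (5 : ℤ)) ^ e := by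
      rw [← zpow_mul, ← zpow_mul, ← zpow_add, hse, zpow_one]
    have hmem : z ∈ MulAction.stabilizer G a := by
      rw [hz]
      exact mul_mem (zpow_mem h2 s) (zpow_mem h5 e)
    exact MulAction.mem_stabilizer_iff.mp hmem
  set A : Set X := {x : X | t • x = x ∧ z • x ≠ x} with hA
  set B : Set X := {x : X | z • x ≠ x} with hB
  let f : Fin 5 × A → B := fun ja => ⟨z ^ (ja.1 : ℕ) • (ja.2 : X), by
    show z • (z ^ (ja.1 : ℕ) • (ja.2 : X)) ≠ z ^ (ja.1 : ℕ) • (ja.2 : X)
    intro h
    apply ja.2.2.2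
    have : z * z ^ (ja.1 : ℕ) = z ^ (ja.1 : ℕ) * z := by
      rw [← pow_succ', ← pow_succ]
    rw [← mul_smul, this, mul_smul] at h
    exact smul_left_cancel _ h⟩
  have hf : Function.Injective f := by
    rintro ⟨i, a⟩ ⟨j, b⟩ h
    have h' : z ^ (i : ℕ) • (a : X) = z ^ (j : ℕ) • (b : X) := congrArg Subtype.val h
    have hb : (b : X) = z ^ (-(j : ℤ) + (i : ℤ)) • (a : X) := by
      rw [zpow_add, mul_smul, zpow_natCast, h', zpow_neg, zpow_natCast, inv_smul_smul]
    have h5 := key (a : X) (-(j : ℤ) + (i : ℤ)) a.2.1 a.2.2 (by rw [← hb]; exact b.2.1)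
    have hij : i = j := by
      have hi := i.2
      have hj := j.2
      apply Fin.ext
      omega
    subst hij
    have hab : (a : X) = (b : X) := smul_left_cancel _ h'
    rw [Prod.mk.injEq]
    exact ⟨rfl, Subtype.ext hab⟩
  have hcard := Nat.card_le_card_of_injective f hf
  rw [Nat.card_prod, Nat.card_fin, Nat.card_coe_set_eq, Nat.card_coe_set_eq] at hcard
  exact hcard

/-- If the `p`-element `u` fixes exactly one point of `X` and commutes with `x`, then the
number of fixed points of `x` is `1` modulo `p`. -/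
theorem ncard_fixed_commute_mod {G : Type*} [Group G] {X : Type*} [MulAction G X] [Finite X]
    (p : ℕ) [Fact p.Prime] (u x : G) (k : ℕ) (hu : u ^ p ^ k = 1) (hcomm : x * u = u * x)
    (x0 : X) (huniq : ∀ q : X, u • q = q ↔ q = x0) :
    Set.ncard {q : X | x • q = q} % p = 1 := by
  classical
  have hpp : p.Prime := Fact.out
  set U := Subgroup.zpowers u with hU
  have hUp : IsPGroup p U := Cfsg.Agent.Lib.Helper90.isPGroup_zpowers u k hu
  have hcommU : ∀ v : G, v ∈ U → x * v = v * x := by
    intro v hv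
    obtain ⟨n, rfl⟩ := Subgroup.mem_zpowers_iff.mp hv
    have hc : Commute x u := hcomm
    exact (hc.zpow_right n).eq
  set F : Set X := {q : X | x • q = q} with hF
  let inst : MulAction U F :=
    { smul := fun v q => ⟨(v : G) • (q : X), by
        show x • ((v : G) • (q : X)) = (v : G) • (q : X)
        have hq : x • (q : X) = q := q.2
        rw [← mul_smul, hcommU v v.2, mul_smul, hq]⟩
      one_smul := fun q => Subtype.ext (one_smul G (q : X))
      mul_smul := fun v w q => Subtype.ext (mul_smul (v : G) (w : G) (q : X)) }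
  have hsmul : ∀ (v : U) (q : F), ((v • q : F) : X) = (v : G) • (q : X) := fun _ _ => rfl
  have hmod := hUp.card_modEq_card_fixedPoints F
  have hx0F : x0 ∈ F := by
    show x • x0 = x0
    apply (huniq _).mp
    rw [← mul_smul, ← hcomm, mul_smul, (huniq x0).mpr rfl]
  have hfix : MulAction.fixedPoints U F = {⟨x0, hx0F⟩} := by
    ext ⟨q, hq⟩
    simp only [MulAction.mem_fixedPoints, Set.mem_singleton_iff, Subtype.mk.injEq]
    constructor
    · intro h
      have h1 := congrArg Subtype.val (h ⟨u, Subgroup.mem_zpowers u⟩)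
      rw [hsmul] at h1
      exact (huniq q).mp h1
    · rintro rfl v
      apply Subtype.ext
      rw [hsmul]
      obtain ⟨n, hn⟩ := Subgroup.mem_zpowers_iff.mp v.2
      rw [← hn]
      have hst : u ∈ MulAction.stabilizer G q := (huniq q).mpr rfl
      exact MulAction.mem_stabilizer_iff.mp (zpow_mem hst n)
  rw [hfix, Nat.card_coe_set_eq, Nat.card_coe_set_eq, Set.ncard_singleton] at hmod
  have h1 : 1 % p = 1 := Nat.mod_eq_of_lt hpp.one_lt
  unfold Nat.ModEq at hmod
  rw [h1] at hmod
  exact hmod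

/-- In a simple group, an element normalizing all Sylow `p`-subgroups is trivial. -/
theorem eq_one_of_forall_smul_sylow {G : Type*} [Group G] [Finite G] [IsSimpleGroup G] (p : ℕ)
    [Fact p.Prime] (hn1 : Nat.card (Sylow p G) ≠ 1) (x : G) (h : ∀ Q : Sylow p G, x • Q = Q) :
    x = 1 := by
  obtain ⟨P⟩ := (Sylow.nonempty : Nonempty (Sylow p G))
  have hcore : x ∈ (Subgroup.normalizer ((P : Subgroup G) : Set G)).normalCore := by
    intro g
    apply Sylow.smul_eq_iff_mem_normalizer.mp
    rw [mul_smul, mul_smul, h (g⁻¹ • P), smul_inv_smul]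
  rcases (Subgroup.normalCore_normal
    (Subgroup.normalizer ((P : Subgroup G) : Set G))).eq_bot_or_eq_top with h | h
  · rw [h] at hcore
    exact Subgroup.mem_bot.mp hcore
  · exact absurd (top_le_iff.mp (h ▸ Subgroup.normalCore_le _)) (normalizer_sylow_ne_top p P hn1)

end Cfsg.Agent.Lib.Helper93.SO
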