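import Mathlib
import Cfsg.Agent.Lib.Helper93.SOd
import Cfsg.Agent.Lib.Helper93.SOf
import Cfsg.Agent.Lib.Helper91.SSSum
import Cfsg.Agent.S1018
import Cfsg.Agent.S0985

set_option autoImplicit false

namespace Cfsg.Agent.Lib.Helper93.SO

open Cfsg.Agent.Lib.Helper17

/-- A coset `gH` is fixed by `z` iff `g⁻¹ z g ∈ H`. -/
theorem smul_coset_eq_iff {G : Type*} [Group G] (H : Subgroup G) (z g : G) :
    z • (g : G ⧸ H) = (g : G ⧸ H) ↔ g⁻¹ * z * g ∈ H := by
  rw [MulAction.Quotient.smul_mk, QuotientGroup.eq, smul_eq_mul]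
  have e : (z * g)⁻¹ * g = (g⁻¹ * z * g)⁻¹ := by group
  rw [e, inv_mem_iff]

/-- If `C(P) = P` has order `5`, every element commuting with an element of order `5` has
order dividing `5`. -/
theorem pow_five_of_commute {G : Type*} [Group G] [Finite G] (P : Sylow 5 G)
    (hP : Nat.card (P : Subgroup G) = 5)
    (hC : Nat.card (Subgroup.centralizer ((P : Subgroup G) : Set G)) = 5)
    (w u : G) (hw : orderOf w = 5) (hcomm : u * w = w * u) : u ^ 5 = 1 := by
  have : Fact (Nat.Prime 5) := ⟨by norm_num⟩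
  have hpg : IsPGroup 5 (Subgroup.zpowers w) :=
    Cfsg.Agent.Lib.Helper90.isPGroup_zpowers w 1 (by rw [pow_one, ← hw]; exact pow_orderOf_eq_one w)
  obtain ⟨c, hc⟩ := Cfsg.Agent.Lib.Helper90.exists_conj_mem_sylow P (Subgroup.zpowers w) hpg
  have hw' : c * w * c⁻¹ ∈ (P : Subgroup G) := hc w (Subgroup.mem_zpowers w)
  have hw1 : c * w * c⁻¹ ≠ 1 := by
    intro h
    have h1 : w = 1 := by
      have : w = c⁻¹ * (c * w * c⁻¹) * c := by group
      rw [this, h]; group
    rw [h1, orderOf_one] at hw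
    omega
  have hcm : Commute (c * u * c⁻¹) (c * w * c⁻¹) := by
    show (c * u * c⁻¹) * (c * w * c⁻¹) = (c * w * c⁻¹) * (c * u * c⁻¹)
    calc (c * u * c⁻¹) * (c * w * c⁻¹) = c * (u * w) * c⁻¹ := by group
      _ = c * (w * u) * c⁻¹ := by rw [hcomm]
      _ = (c * w * c⁻¹) * (c * u * c⁻¹) := by group
  have hmem := Cfsg.Agent.Lib.Helper91.SS.mem_centralizer_of_commute (by norm_num : Nat.Prime 5)
    (P : Subgroup G) hP _ hw' hw1 _ hcm
  have h5 : (c * u * c⁻¹) ^ 5 = 1 := by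
    have h := pow_card_eq_one' (G := Subgroup.centralizer ((P : Subgroup G) : Set G))
      (x := ⟨c * u * c⁻¹, hmem⟩)
    rw [hC] at h
    exact congrArg Subtype.val h
  rw [conj_pow] at h5
  have : u ^ 5 = c⁻¹ * (c * u ^ 5 * c⁻¹) * c := by group
  rw [this, h5]; group

/-- Involutions of `N(P)` invert `P` when `C(P) = P` has order `5`. -/
theorem involution_inverts {G : Type*} [Group G] [Finite G] (P : Sylow 5 G)
    (hP : Nat.card (P : Subgroup G) = 5)
    (hC : Nat.card (Subgroup.centralizer ((P : Subgroup G) : Set G)) = 5)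
    (hPC : (P : Subgroup G) ≤ Subgroup.centralizer ((P : Subgroup G) : Set G))
    (v : G) (hvN : v ∈ Subgroup.normalizer ((P : Subgroup G) : Set G)) (hv2 : v * v = 1)
    (hv1 : v ≠ 1) (y : G) (hy : y ∈ (P : Subgroup G)) : v * y * v⁻¹ = y⁻¹ := by
  have hvC : v ∉ Subgroup.centralizer ((P : Subgroup G) : Set G) := by
    intro h
    have h5 : v ^ 5 = 1 := by
      have h' := pow_card_eq_one' (G := Subgroup.centralizer ((P : Subgroup G) : Set G))
        (x := ⟨v, h⟩)
      rw [hC] at h'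
      exact congrArg Subtype.val h'
    apply hv1
    calc v = v ^ 5 * ((v * v)⁻¹) ^ 2 := by group
      _ = 1 := by rw [h5, hv2]; group
  have hPcomm : ∀ a b : G, a ∈ (P : Subgroup G) → b ∈ (P : Subgroup G) → a * b = b * a :=
    fun a b ha hb => Subgroup.mem_centralizer_iff.mp (hPC hb) a ha
  have hy' : v * y * v⁻¹ ∈ (P : Subgroup G) := (Subgroup.mem_normalizer_iff.mp hvN y).mp hy
  have hwP : y * (v * y * v⁻¹) ∈ (P : Subgroup G) := mul_mem hy hy'
  have h1 : v * (y * (v * y * v⁻¹)) * v⁻¹ = (v * y * v⁻¹) * y := by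
    calc v * (y * (v * y * v⁻¹)) * v⁻¹ = (v * y * v⁻¹) * ((v * v) * y * (v * v)⁻¹) := by group
      _ = (v * y * v⁻¹) * y := by rw [hv2]; group
  have h2 : v * (y * (v * y * v⁻¹)) * v⁻¹ = y * (v * y * v⁻¹) := by
    rw [h1]
    exact hPcomm _ _ hy' hy
  have hvw : v * (y * (v * y * v⁻¹)) = (y * (v * y * v⁻¹)) * v := by
    calc v * (y * (v * y * v⁻¹)) = (v * (y * (v * y * v⁻¹)) * v⁻¹) * v := by group
      _ = (y * (v * y * v⁻¹)) * v := by rw [h2]
  have hw1 : y * (v * y * v⁻¹) = 1 := by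
    by_contra hne
    exact hvC (Cfsg.Agent.Lib.Helper91.SS.mem_centralizer_of_commute (by norm_num : Nat.Prime 5)
      (P : Subgroup G) hP _ hwP hne v hvw)
  exact eq_inv_of_mul_eq_one_right hw1

/-- The product of two elements inverting a subgroup centralizes it. -/
theorem mul_mem_centralizer_of_invert {G : Type*} [Group G] (P : Subgroup G) (u1 u2 : G)
    (h1 : ∀ p ∈ P, u1 * p * u1⁻¹ = p⁻¹) (h2 : ∀ p ∈ P, u2 * p * u2⁻¹ = p⁻¹) :
    u1 * u2 ∈ Subgroup.centralizer (P : Set G) ∧ u1 * u2⁻¹ ∈ Subgroup.centralizer (P : Set G) := by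
  constructor
  · rw [Subgroup.mem_centralizer_iff]
    intro p hp
    have e1 := h1 p⁻¹ (inv_mem hp)
    rw [inv_inv] at e1
    have e2 := h2 p hp
    calc p * (u1 * u2) = (u1 * p⁻¹ * u1⁻¹) * (u1 * u2) := by rw [e1]
      _ = u1 * p⁻¹ * u2 := by group
      _ = u1 * (u2 * p * u2⁻¹) * u2 := by rw [e2]
      _ = u1 * u2 * p := by group
  · rw [Subgroup.mem_centralizer_iff]
    intro p hp
    have e1 := h1 p⁻¹ (inv_mem hp)
    rw [inv_inv] at e1
    have e2 : u2⁻¹ * p * u2 = p⁻¹ := by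
      have h := h2 p⁻¹ (inv_mem hp)
      rw [inv_inv] at h
      calc u2⁻¹ * p * u2 = u2⁻¹ * (u2 * p⁻¹ * u2⁻¹) * u2 := by rw [h]
        _ = p⁻¹ := by group
    calc p * (u1 * u2⁻¹) = (u1 * p⁻¹ * u1⁻¹) * (u1 * u2⁻¹) := by rw [e1]
      _ = u1 * p⁻¹ * u2⁻¹ := by group
      _ = u1 * (u2⁻¹ * p * u2) * u2⁻¹ := by rw [e2]
      _ = u1 * u2⁻¹ * p := by group

/-- `N(P)` of order `20` with `C(P) = P` contains an element of order `4`. -/
theorem exists_order_four {G : Type*} [Group G] [Finite G] (P : Sylow 5 G)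
    (hP : Nat.card (P : Subgroup G) = 5)
    (hC : Nat.card (Subgroup.centralizer ((P : Subgroup G) : Set G)) = 5)
    (hPC : (P : Subgroup G) ≤ Subgroup.centralizer ((P : Subgroup G) : Set G))
    (hN : Nat.card (Subgroup.normalizer ((P : Subgroup G) : Set G)) = 20) :
    ∃ y : G, y ∈ Subgroup.normalizer ((P : Subgroup G) : Set G) ∧ y ^ 4 = 1 ∧ y ^ 2 ≠ 1 := by
  classical
  have : Fact (Nat.Prime 2) := ⟨by norm_num⟩
  set N := Subgroup.normalizer ((P : Subgroup G) : Set G) with hNdef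
  obtain ⟨Q⟩ := (Sylow.nonempty : Nonempty (Sylow 2 N))
  have hQ : Nat.card (Q : Subgroup N) = 4 := by
    have := card_sylow_eq_of_card_eq (G := N) 2 2 5 (by rw [hN]; norm_num) (by norm_num) Q
    simpa using this
  have hQ4 : ∀ q : N, q ∈ (Q : Subgroup N) → (q : G) ^ 4 = 1 := by
    intro q hq
    have h := pow_card_eq_one' (G := (Q : Subgroup N)) (x := ⟨q, hq⟩)
    rw [hQ] at h
    have h2 : q ^ 4 = 1 := congrArg Subtype.val h
    have h3 := congrArg Subtype.val h2
    simpa using h3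
  by_contra hcon
  push Not at hcon
  have hsq : ∀ q : N, q ∈ (Q : Subgroup N) → (q : G) * (q : G) = 1 := by
    intro q hq
    rw [← pow_two]
    exact hcon (q : G) q.2 (hQ4 q hq)
  have hQn : ((Q : Subgroup N) : Set N).ncard = 4 := by
    rw [← Nat.card_coe_set_eq]
    exact hQ
  obtain ⟨u1, hu1Q, hu1⟩ := Set.exists_mem_notMem_of_ncard_lt_ncard
    (s := ({1} : Set N)) (t := ((Q : Subgroup N) : Set N))
    (by rw [Set.ncard_singleton, hQn]; norm_num)
  obtain ⟨u2, hu2Q, hu2⟩ := Set.exists_mem_notMem_of_ncard_lt_ncard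
    (s := ({1, u1} : Set N)) (t := ((Q : Subgroup N) : Set N))
    (by
      have := Set.ncard_insert_le (1 : N) ({u1} : Set N)
      rw [Set.ncard_singleton] at this
      rw [hQn]
      omega)
  have hu1' : u1 ≠ 1 := fun h => hu1 (by rw [h]; rfl)
  have hu2' : u2 ≠ 1 := fun h => hu2 (by rw [h]; exact Set.mem_insert _ _)
  have hu21 : u2 ≠ u1 := fun h => hu2 (by rw [h]; exact Set.mem_insert_of_mem _ rfl)
  have hG1 : (u1 : G) ≠ 1 := fun h => hu1' (Subtype.ext h)
  have hG2 : (u2 : G) ≠ 1 := fun h => hu2' (Subtype.ext h)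
  have hinv1 := involution_inverts P hP hC hPC (u1 : G) u1.2 (hsq u1 hu1Q) hG1
  have hinv2 := involution_inverts P hP hC hPC (u2 : G) u2.2 (hsq u2 hu2Q) hG2
  have hcent := (mul_mem_centralizer_of_invert (P : Subgroup G) (u1 : G) (u2 : G) hinv1 hinv2).2
  have h5 : ((u1 : G) * (u2 : G)⁻¹) ^ 5 = 1 := by
    have h := pow_card_eq_one' (G := Subgroup.centralizer ((P : Subgroup G) : Set G))
      (x := ⟨_, hcent⟩)
    rw [hC] at h
    exact congrArg Subtype.val h
  have h4 : ((u1 : G) * (u2 : G)⁻¹) ^ 4 = 1 := by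
    have := hQ4 (u1 * u2⁻¹) (mul_mem hu1Q (inv_mem hu2Q))
    simpa using this
  have h1 : (u1 : G) * (u2 : G)⁻¹ = 1 := by
    calc (u1 : G) * (u2 : G)⁻¹ = ((u1 : G) * (u2 : G)⁻¹) ^ 5 * (((u1 : G) * (u2 : G)⁻¹) ^ 4)⁻¹ := by
          group
      _ = 1 := by rw [h5, h4]; group
  apply hu21
  apply Subtype.ext
  exact (mul_inv_eq_one.mp h1).symm

theorem arith_fix (F cl c J : ℕ) (h1 : F * cl = 36 * J) (h2 : cl * c = 720) (hJ : J ≤ 5)
    (h5 : ¬ 5 ∣ c) (hF : F = 4 ∨ F = 8) : F = 4 ∧ c = 16 := by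
  rcases hF with rfl | rfl
  · have hclJ : cl = 9 * J := by omega
    subst hclJ
    interval_cases J <;> omega
  · exfalso
    obtain ⟨k, rfl⟩ : ∃ k, J = 2 * k := ⟨J / 2, by omega⟩
    have hclJ : cl = 9 * k := by omega
    subst hclJ
    have hk : k ≤ 2 := by omega
    interval_cases k <;> omega

/-- In a simple group of order `720` with `|N(P_5)| = 20`, `C(P_5) = P_5`: an involution of
`N(P_5)` fixes `4` Sylow `5`-subgroups and has centralizer of order `16`. -/
theorem fix_t_data {G : Type*} [Group G] [Finite G] [IsSimpleGroup G]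
    (hGn : ¬ (Nat.card G).Prime) (hcard : Nat.card G = 720) (P : Sylow 5 G)
    (hP : Nat.card (P : Subgroup G) = 5)
    (hC : Nat.card (Subgroup.centralizer ((P : Subgroup G) : Set G)) = 5)
    (hPC : (P : Subgroup G) ≤ Subgroup.centralizer ((P : Subgroup G) : Set G))
    (hN : Nat.card (Subgroup.normalizer ((P : Subgroup G) : Set G)) = 20)
    (t : G) (htN : t ∈ Subgroup.normalizer ((P : Subgroup G) : Set G)) (ht2 : t * t = 1)
    (ht1 : t ≠ 1) :
    Set.ncard {q : G ⧸ Subgroup.normalizer ((P : Subgroup G) : Set G) | t • q = q} = 4 ∧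
      Nat.card (Subgroup.centralizer ({t} : Set G)) = 16 := by
  classical
  have : Fact (Nat.Prime 5) := ⟨by norm_num⟩
  set N := Subgroup.normalizer ((P : Subgroup G) : Set G) with hNdef
  have hidx : N.index = 36 := by
    have := Subgroup.index_mul_card N
    rw [hN, hcard] at this
    omega
  have hX : Nat.card (G ⧸ N) = 36 := hidx
  obtain ⟨z', hz'⟩ := exists_prime_orderOf_dvd_card' (G := (P : Subgroup G)) 5 (by rw [hP])
  obtain ⟨z, hzdef⟩ : ∃ z : G, z = (z' : G) := ⟨_, rfl⟩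
  have hzP : z ∈ (P : Subgroup G) := by rw [hzdef]; exact z'.2
  have hzo : orderOf z = 5 := by rw [hzdef, Subgroup.orderOf_coe]; exact hz'
  have hz5 : z ^ 5 = 1 := by rw [← hzo]; exact pow_orderOf_eq_one z
  have htinv := involution_inverts P hP hC hPC t htN ht2 ht1
  have hinv : t * z * t⁻¹ = z⁻¹ := htinv z hzP
  have hz1 : Set.ncard {q : G ⧸ N | z • q = q} = 1 := by
    have := (Cfsg.Agent.S1018.result 5 P hP).1 z hzo
    rw [← Nat.card_coe_set_eq]
    exact this
  have hzm : Set.ncard {q : G ⧸ N | z • q ≠ q} = 35 := by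
    have := Set.ncard_add_ncard_compl {q : G ⧸ N | z • q = q}
    rw [hz1, hX] at this
    have e : {q : G ⧸ N | z • q = q}ᶜ = {q : G ⧸ N | z • q ≠ q} := rfl
    rw [e] at this
    omega
  have h5le := five_mul_ncard_fixed_le (X := G ⧸ N) z t hz5 hinv
  rw [hzm] at h5le
  obtain ⟨F, hF⟩ : ∃ F, F = Set.ncard {q : G ⧸ N | t • q = q} := ⟨_, rfl⟩
  have hFle : F ≤ 8 := by
    have hsub : {q : G ⧸ N | t • q = q} ⊆
        {q : G ⧸ N | t • q = q ∧ z • q ≠ q} ∪ {q : G ⧸ N | z • q = q} := by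
      intro q hq
      by_cases h : z • q = q
      · exact Or.inr h
      · exact Or.inl ⟨hq, h⟩
    have h1 := Set.ncard_le_ncard hsub
    have h2 := Set.ncard_union_le {q : G ⧸ N | t • q = q ∧ z • q ≠ q} {q : G ⧸ N | z • q = q}
    rw [hz1] at h2
    omega
  have hFpos : 0 < F := by
    rw [hF, Set.ncard_pos]
    refine ⟨((1 : G) : G ⧸ N), ?_⟩
    show t • ((1 : G) : G ⧸ N) = ((1 : G) : G ⧸ N)
    rw [smul_coset_eq_iff]
    simpa using htN
  obtain ⟨c4, hc4⟩ := involution_fixed_mod_four hGn (X := G ⧸ N) t ht2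
  rw [hX, ← hF] at hc4
  have hF48 : F = 4 ∨ F = 8 := by omega
  have h19 := Cfsg.Agent.S1019.result N t htN
  have hcl := card_isConj_mul_card_centralizer t
  rw [hcard] at hcl
  have hFc : Nat.card (MulAction.fixedBy (G ⧸ N) t) = F := by
    rw [hF, ← Nat.card_coe_set_eq]
    rfl
  rw [hFc, hidx] at h19
  have hCP : Subgroup.centralizer ((P : Subgroup G) : Set G) = (P : Subgroup G) := by
    symm
    exact Subgroup.eq_of_le_of_card_ge hPC (by rw [hP, hC])
  have hJ : Nat.card {g : G // IsConj t g ∧ g ∈ N} ≤ 5 := by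
    let f : {g : G // IsConj t g ∧ g ∈ N} → (P : Subgroup G) := fun g => ⟨(g : G) * t⁻¹, by
      obtain ⟨c, hc⟩ := isConj_iff.mp g.2.1
      have hg2 : (g : G) * (g : G) = 1 := by
        rw [← hc]
        calc c * t * c⁻¹ * (c * t * c⁻¹) = c * (t * t) * c⁻¹ := by group
          _ = 1 := by rw [ht2]; group
      have hg1 : (g : G) ≠ 1 := by
        intro h
        apply ht1
        rw [← hc] at h
        calc t = c⁻¹ * (c * t * c⁻¹) * c := by group
          _ = 1 := by rw [h]; group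
      have hginv := involution_inverts P hP hC hPC (g : G) g.2.2 hg2 hg1
      have := (mul_mem_centralizer_of_invert (P : Subgroup G) (g : G) t hginv htinv).2
      rw [hCP] at this
      exact this⟩
    have hf : Function.Injective f := by
      intro a b hab
      have h1 : (a : G) * t⁻¹ = (b : G) * t⁻¹ := congrArg Subtype.val hab
      exact Subtype.ext (mul_right_cancel h1)
    have := Nat.card_le_card_of_injective f hf
    rwa [hP] at this
  have h5c : ¬ 5 ∣ Nat.card (Subgroup.centralizer ({t} : Set G)) := by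
    intro hdvd
    obtain ⟨w', hw'⟩ :=
      exists_prime_orderOf_dvd_card' (G := Subgroup.centralizer ({t} : Set G)) 5 hdvd
    have hwo : orderOf (w' : G) = 5 := by rw [Subgroup.orderOf_coe]; exact hw'
    have hcomm : t * (w' : G) = (w' : G) * t :=
      (Subgroup.mem_centralizer_singleton_iff.mp w'.2).symm
    have h5 := pow_five_of_commute P hP hC (w' : G) t hwo hcomm
    apply ht1
    calc t = t ^ 5 * ((t * t)⁻¹) ^ 2 := by group
      _ = 1 := by rw [h5, ht2]; group
  rw [← hF]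
  exact arith_fix F _ _ _ h19 hcl hJ h5c hF48

theorem arith_ti (m n : ℕ) (hm : m ∣ 80) (h5 : ¬ 5 ∣ m) (hn : n ∣ m) (h3 : n % 3 = 1)
    (h1 : n ≠ 1) : m = 4 ∨ m = 8 ∨ m = 16 := by
  have hm0 : m ≠ 0 := by rintro rfl; simp at hm
  have hm' : m ∈ Nat.divisors 80 := Nat.mem_divisors.mpr ⟨hm, by norm_num⟩
  have hn' : n ∈ Nat.divisors m := Nat.mem_divisors.mpr ⟨hn, hm0⟩
  have key : ∀ m ∈ Nat.divisors 80, ¬ 5 ∣ m → ∀ n ∈ Nat.divisors m, n % 3 = 1 → n ≠ 1 →
      m = 4 ∨ m = 8 ∨ m = 16 := by decide +kernel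
  exact key m hm' h5 n hn' h3 h1

/-- Distinct Sylow `3`-subgroups of a simple group of order `720` (in the `F_20` case) intersect
trivially. -/
theorem sylow3_ti {G : Type*} [Group G] [Finite G] [IsSimpleGroup G]
    (hGn : ¬ (Nat.card G).Prime) (hcard : Nat.card G = 720)
    (hC5 : ∀ w u : G, orderOf w = 5 → u * w = w * u → u ^ 5 = 1)
    (y : G) (hy4 : y ^ 4 = 1)
    (hCt : Nat.card (Subgroup.centralizer ({y ^ 2} : Set G)) = 16)
    (P3 R3 : Sylow 3 G) (d : G) (hdP : d ∈ (P3 : Subgroup G)) (hdR : d ∈ (R3 : Subgroup G))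
    (hd1 : d ≠ 1) : P3 = R3 := by
  classical
  have : Fact (Nat.Prime 3) := ⟨by norm_num⟩
  have hS9 : ∀ Q : Sylow 3 G, Nat.card (Q : Subgroup G) = 9 := fun Q => by
    have := card_sylow_eq_of_card_eq (G := G) 3 2 80 (by rw [hcard]; norm_num) (by norm_num) Q
    simpa using this
  have hcomm : ∀ Q : Sylow 3 G, ∀ a b : G, a ∈ (Q : Subgroup G) → b ∈ (Q : Subgroup G) →
      a * b = b * a := by
    intro Q a b ha hb
    have hmc := IsPGroup.isMulCommutative_of_card_eq_prime_sq (p := 3) (G := (Q : Subgroup G))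
      (by rw [hS9 Q]; norm_num)
    have h : (⟨a, ha⟩ : (Q : Subgroup G)) * ⟨b, hb⟩ = ⟨b, hb⟩ * ⟨a, ha⟩ := hmc.1.1 _ _
    exact congrArg Subtype.val h
  set CD := Subgroup.centralizer ({d} : Set G) with hCD
  have hPle : (P3 : Subgroup G) ≤ CD := fun g hg =>
    Subgroup.mem_centralizer_singleton_iff.mpr (hcomm P3 g d hg hdP)
  have hRle : (R3 : Subgroup G) ≤ CD := fun g hg =>
    Subgroup.mem_centralizer_singleton_iff.mpr (hcomm R3 g d hg hdR)
  have hd9 : d ^ 9 = 1 := by
    have h := pow_card_eq_one' (G := (P3 : Subgroup G)) (x := ⟨d, hdP⟩)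
    rw [hS9 P3] at h
    exact congrArg Subtype.val h
  have h5 : ¬ 5 ∣ Nat.card CD := by
    intro hdvd
    have : Fact (Nat.Prime 5) := ⟨by norm_num⟩
    obtain ⟨w', hw'⟩ := exists_prime_orderOf_dvd_card' (G := CD) 5 hdvd
    have hwo : orderOf (w' : G) = 5 := by rw [Subgroup.orderOf_coe]; exact hw'
    have hcm : d * (w' : G) = (w' : G) * d :=
      (Subgroup.mem_centralizer_singleton_iff.mp w'.2).symm
    have hd5 := hC5 (w' : G) d hwo hcm
    apply hd1
    calc d = (d ^ 5) ^ 2 * (d ^ 9)⁻¹ := by group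
      _ = 1 := by rw [hd5, hd9]; group
  by_contra hne
  obtain ⟨m, hm⟩ : ∃ m, Nat.card CD = 9 * m := by
    have := Subgroup.card_dvd_of_le hPle
    rw [hS9 P3] at this
    exact this
  have hm80 : m ∣ 80 := by
    have := Subgroup.card_subgroup_dvd_card CD
    rw [hm, hcard] at this
    exact Nat.dvd_of_mul_dvd_mul_left (by norm_num : 0 < 9) (by simpa using this)
  have hm5 : ¬ 5 ∣ m := fun h => h5 (by rw [hm]; exact Dvd.dvd.mul_left h 9)
  have hn1 := card_sylow_mod (G := CD) 3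
  have hn2 := card_sylow_dvd_of_card_eq (G := CD) 3 2 m (by rw [hm]; norm_num)
  have hn3 : Nat.card (Sylow 3 CD) ≠ 1 := by
    intro h
    have hsub : Subsingleton (Sylow 3 CD) := (Nat.card_eq_one_iff_unique.mp h).1
    have heq : P3.subtype hPle = R3.subtype hRle := Subsingleton.elim _ _
    have h2 : ((P3.subtype hPle : Sylow 3 CD) : Subgroup CD) =
        ((R3.subtype hRle : Sylow 3 CD) : Subgroup CD) := by rw [heq]
    rw [Sylow.coe_subtype, Sylow.coe_subtype, Subgroup.subgroupOf_inj, inf_eq_left.mpr hPle,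
      inf_eq_left.mpr hRle] at h2
    exact hne (Sylow.ext h2)
  have hm' := arith_ti m _ hm80 hm5 hn2 hn1 hn3
  have hidx : CD.index * (9 * m) = 720 := by
    have := Subgroup.index_mul_card CD
    rwa [hm, hcard] at this
  have hCDtop : CD ≠ ⊤ := by
    intro h
    rw [h, Subgroup.index_top] at hidx
    omega
  have hfix0 : {q : G ⧸ CD | y ^ 2 • q = q} = ∅ := by
    ext q
    simp only [Set.mem_ofPred_eq, Set.mem_empty_iff_false, iff_false]
    induction q using QuotientGroup.induction_on with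
    | H g =>
      intro h
      rw [smul_coset_eq_iff] at h
      have hc : (g⁻¹ * y ^ 2 * g) * d = d * (g⁻¹ * y ^ 2 * g) :=
        Subgroup.mem_centralizer_singleton_iff.mp h
      have hmem : g * d * g⁻¹ ∈ Subgroup.centralizer ({y ^ 2} : Set G) := by
        rw [Subgroup.mem_centralizer_singleton_iff]
        calc g * d * g⁻¹ * y ^ 2 = g * (d * (g⁻¹ * y ^ 2 * g)) * g⁻¹ := by group
          _ = g * ((g⁻¹ * y ^ 2 * g) * d) * g⁻¹ := by rw [hc]
          _ = y ^ 2 * (g * d * g⁻¹) := by group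
      have h16 : (g * d * g⁻¹) ^ 16 = 1 := by
        have h := pow_card_eq_one' (G := Subgroup.centralizer ({y ^ 2} : Set G))
          (x := ⟨_, hmem⟩)
        rw [hCt] at h
        exact congrArg Subtype.val h
      rw [conj_pow] at h16
      have hd16 : d ^ 16 = 1 := by
        calc d ^ 16 = g⁻¹ * (g * d ^ 16 * g⁻¹) * g := by group
          _ = 1 := by rw [h16]; group
      apply hd1
      calc d = (d ^ 16) ^ 4 * ((d ^ 9) ^ 7)⁻¹ := by group
        _ = 1 := by rw [hd16, hd9]; group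
  have ht2 : y ^ 2 * y ^ 2 = 1 := by rw [← pow_add]; exact hy4
  rcases hm' with rfl | rfl | rfl
  · have hX : Nat.card (G ⧸ CD) = 20 := by
      have : CD.index = 20 := by omega
      exact this
    obtain ⟨a, b, c, e1, e2, e3, e4⟩ := pow8_fixed hGn (X := G ⧸ CD) y (by
      calc y ^ 8 = (y ^ 4) ^ 2 := by group
        _ = 1 := by rw [hy4]; group)
    rw [hfix0, Set.ncard_empty, hX] at e2
    have h4 : {x : G ⧸ CD | y ^ 4 • x = x} = Set.univ := by
      ext x; simp [hy4]
    rw [h4, Set.ncard_univ, hX] at e3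
    rw [hX] at e1
    have hc0 : c = 0 := by omega
    have hb5 : b = 5 := by omega
    have ha0 : a = 0 := by omega
    rw [ha0, hb5, hc0] at e4
    exact absurd e4 (by decide)
  · have hX : Nat.card (G ⧸ CD) = 10 := by
      have : CD.index = 10 := by omega
      exact this
    obtain ⟨c, hc⟩ := involution_fixed_mod_four hGn (X := G ⧸ CD) (y ^ 2) ht2
    rw [hfix0, Set.ncard_empty, hX] at hc
    omega
  · have h5i : CD.index = 5 := by omega
    have := card_dvd_factorial_index CD hCDtop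
    rw [h5i, hcard] at this
    revert this
    decide

end Cfsg.Agent.Lib.Helper93.SO
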