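import Mathlib
import Cfsg.Agent.Lib.Helper93.SOg
import Cfsg.Agent.Lib.Helper17.Small

set_option autoImplicit false

namespace Cfsg.Agent.Lib.Helper93.SO

open Cfsg.Agent.Lib.Helper17

universe u

theorem card_sylow3_eq_ten {G : Type*} [Group G] [Finite G] [IsSimpleGroup G]
    (hcard : Nat.card G = 720)
    (hTI : ∀ (P3 R3 : Sylow 3 G) (d : G), d ∈ (P3 : Subgroup G) → d ∈ (R3 : Subgroup G) →
      d ≠ 1 → P3 = R3) :
    Nat.card (Sylow 3 G) = 10 := by
  have : Fact (Nat.Prime 3) := ⟨by norm_num⟩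
  have hS9 : ∀ Q : Sylow 3 G, Nat.card (Q : Subgroup G) = 9 := fun Q => by
    have := card_sylow_eq_of_card_eq (G := G) 3 2 80 (by rw [hcard]; norm_num) (by norm_num) Q
    simpa using this
  have hmod : Nat.card (Sylow 3 G) ≡ 1 [MOD 3 ^ 2] := by
    by_contra h
    obtain ⟨P, R, hPR, hidx⟩ := Cfsg.Agent.S0985.result 3 2 h
    have hbot : (R : Subgroup G).subgroupOf (P : Subgroup G) = ⊥ := by
      rw [Subgroup.subgroupOf_eq_bot, Subgroup.disjoint_def]
      intro x hxR hxP
      by_contra hx1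
      exact hPR (hTI P R x hxP hxR hx1)
    rw [hbot, Subgroup.index_bot, hS9 P] at hidx
    norm_num at hidx
  have hc := card_sylow_mem_cands (G := G) 3 2 80 (by rw [hcard]; norm_num) (by norm_num)
  have hcl : sylowCands 3 80 = [1, 4, 10, 16, 40] := by decide +kernel
  rw [hcl] at hc
  simp only [List.mem_cons, List.not_mem_nil, or_false] at hc
  have h1 : Nat.card (Sylow 3 G) ≠ 1 :=
    card_sylow_ne_one 3 (by rw [hcard]; norm_num) 2 (by norm_num) (by norm_num)
      (by rw [hcard]; norm_num)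
  obtain ⟨n, hn⟩ : ∃ n, n = Nat.card (Sylow 3 G) := ⟨_, rfl⟩
  rw [← hn] at hmod hc h1 ⊢
  have hmod' : n % 9 = 1 := by
    unfold Nat.ModEq at hmod
    norm_num at hmod
    exact hmod
  rcases hc with rfl | rfl | rfl | rfl | rfl <;> omega

/-- No involution commutes with a non-trivial `3`-element. -/
theorem no_six {G : Type*} [Group G] [Finite G] [IsSimpleGroup G]
    (hGn : ¬ (Nat.card G).Prime)
    (hTI : ∀ (P3 R3 : Sylow 3 G) (d : G), d ∈ (P3 : Subgroup G) → d ∈ (R3 : Subgroup G) →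
      d ≠ 1 → P3 = R3)
    (hn3 : Nat.card (Sylow 3 G) = 10)
    (x u : G) (hx2 : x * x = 1) (hu9 : u ^ 9 = 1) (hu1 : u ≠ 1) (hcomm : x * u = u * x) :
    x = 1 := by
  have : Fact (Nat.Prime 3) := ⟨by norm_num⟩
  have hu9' : u ^ 3 ^ 2 = 1 := by
    rw [show (3 : ℕ) ^ 2 = 9 by norm_num]; exact hu9
  have hpg : IsPGroup 3 (Subgroup.zpowers u) :=
    Cfsg.Agent.Lib.Helper90.isPGroup_zpowers u 2 hu9'
  obtain ⟨R0, hR0⟩ := hpg.exists_le_sylow
  have huR0 : u ∈ (R0 : Subgroup G) := hR0 (Subgroup.mem_zpowers u)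
  obtain ⟨k, hk⟩ : ∃ k, orderOf u = 3 ^ k := by
    have : orderOf u ∣ 3 ^ 2 := orderOf_dvd_of_pow_eq_one hu9'
    obtain ⟨k, -, hk⟩ := (Nat.dvd_prime_pow (by norm_num : Nat.Prime 3)).mp this
    exact ⟨k, hk⟩
  have huniq : ∀ Q : Sylow 3 G, u • Q = Q ↔ Q = R0 := by
    intro Q
    constructor
    · intro h
      have hN : u ∈ Subgroup.normalizer ((Q : Subgroup G) : Set G) :=
        Sylow.smul_eq_iff_mem_normalizer.mp h
      have huQ := mem_sylow_of_mem_normalizer_of_orderOf 3 Q u hN k hk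
      exact hTI Q R0 u huQ huR0 hu1
    · rintro rfl
      exact Sylow.smul_eq_iff_mem_normalizer.mpr (Subgroup.le_normalizer huR0)
  have hmod := ncard_fixed_commute_mod (X := Sylow 3 G) 3 u x 2 hu9' hcomm R0 huniq
  obtain ⟨c, hc⟩ := involution_fixed_mod_four hGn (X := Sylow 3 G) x hx2
  rw [hn3] at hc
  have h10 : Set.ncard {Q : Sylow 3 G | x • Q = Q} = 10 := by omega
  have hall : {Q : Sylow 3 G | x • Q = Q} = Set.univ := by
    apply Set.eq_of_subset_of_ncard_le (Set.subset_univ _)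
    rw [Set.ncard_univ, hn3, h10]
  apply eq_one_of_forall_smul_sylow 3 (by rw [hn3]; norm_num) x
  intro Q
  have : Q ∈ {Q : Sylow 3 G | x • Q = Q} := by rw [hall]; trivial
  exact this

/-- An involution inverting an element of order `5` fixes exactly two Sylow `3`-subgroups. -/
theorem ncard_fixed_sylow3 {G : Type*} [Group G] [Finite G] [IsSimpleGroup G]
    (hGn : ¬ (Nat.card G).Prime) (hcard : Nat.card G = 720)
    (hn3 : Nat.card (Sylow 3 G) = 10)
    (z t : G) (hz : orderOf z = 5) (hinv : t * z * t⁻¹ = z⁻¹) (ht2 : t * t = 1) :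
    Set.ncard {Q : Sylow 3 G | t • Q = Q} = 2 := by
  have : Fact (Nat.Prime 3) := ⟨by norm_num⟩
  have hz5 : z ^ 5 = 1 := by rw [← hz]; exact pow_orderOf_eq_one z
  have hzall : {Q : Sylow 3 G | z • Q ≠ Q} = Set.univ := by
    ext Q
    simp only [Set.mem_ofPred_eq, Set.mem_univ, iff_true]
    intro h
    have hN : z ∈ Subgroup.normalizer ((Q : Subgroup G) : Set G) :=
      Sylow.smul_eq_iff_mem_normalizer.mp h
    have hdvd := Subgroup.orderOf_dvd_natCard _ hN
    have hNc := card_sylow_mul_card_normalizer 3 Q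
    rw [hn3, hcard] at hNc
    rw [hz] at hdvd
    omega
  have h5 := five_mul_ncard_fixed_le (X := Sylow 3 G) z t hz5 hinv
  rw [hzall, Set.ncard_univ, hn3] at h5
  have heq : {Q : Sylow 3 G | t • Q = Q ∧ z • Q ≠ Q} = {Q : Sylow 3 G | t • Q = Q} := by
    ext Q
    simp only [Set.mem_ofPred_eq]
    constructor
    · exact fun h => h.1
    · intro h
      refine ⟨h, ?_⟩
      have : Q ∈ {Q : Sylow 3 G | z • Q ≠ Q} := by rw [hzall]; trivial
      exact this
  rw [heq] at h5
  obtain ⟨c, hc⟩ := involution_fixed_mod_four hGn (X := Sylow 3 G) t ht2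
  rw [hn3] at hc
  omega

/-- A square root of `t` fixes the Sylow `3`-subgroups fixed by `t`. -/
theorem sq_fixed_sylow3 {G : Type*} [Group G] [Finite G] [IsSimpleGroup G]
    (hGn : ¬ (Nat.card G).Prime) (hn3 : Nat.card (Sylow 3 G) = 10)
    (t w : G) (ht2 : t * t = 1) (hF : Set.ncard {Q : Sylow 3 G | t • Q = Q} = 2)
    (hw : w ^ 2 = t) (Q : Sylow 3 G) (hQ : t • Q = Q) : w • Q = Q := by
  have hw4 : w ^ 4 = 1 := by
    calc w ^ 4 = w ^ 2 * w ^ 2 := by group
      _ = 1 := by rw [hw, ht2]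
  obtain ⟨a, b, c, e1, e2, e3, e4⟩ := pow8_fixed hGn (X := Sylow 3 G) w (by
    calc w ^ 8 = (w ^ 4) ^ 2 := by group
      _ = 1 := by rw [hw4]; group)
  rw [hw, hF, hn3] at e2
  have h4 : {x : Sylow 3 G | w ^ 4 • x = x} = Set.univ := by
    ext x; simp [hw4]
  rw [h4, Set.ncard_univ, hn3] at e3
  rw [hn3] at e1
  have hc0 : c = 0 := by omega
  have hb : b = 2 := by omega
  have ha : a = 0 := by
    rw [hc0, hb] at e4
    have ha1 : a ≤ 1 := by omega
    interval_cases a
    · rfl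
    · exact absurd e4 (by decide)
  have hfw : Set.ncard {Q : Sylow 3 G | w • Q = Q} = 2 := by omega
  have hsub : {Q : Sylow 3 G | w • Q = Q} ⊆ {Q : Sylow 3 G | t • Q = Q} := by
    intro Q hQ
    show t • Q = Q
    have hQ' : w • Q = Q := hQ
    rw [← hw, pow_two, mul_smul, hQ', hQ']
  have heq := Set.eq_of_subset_of_ncard_le hsub (by rw [hF, hfw])
  have hmem : Q ∈ {Q : Sylow 3 G | t • Q = Q} := hQ
  rw [← heq] at hmem
  exact hmem

/-- No element of order `8` has fourth power `t`. -/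
theorem no_order_eight {G : Type*} [Group G] [Finite G] [IsSimpleGroup G]
    (hGn : ¬ (Nat.card G).Prime) (hcard : Nat.card G = 720)
    (t a : G) (ht1 : t ≠ 1) (ht2 : t * t = 1)
    (hCt : Nat.card (Subgroup.centralizer ({t} : Set G)) = 16)
    (ha : a ^ 4 = t) : False := by
  have : Fact (Nat.Prime 2) := ⟨by norm_num⟩
  have ha8 : a ^ 8 = 1 := by
    calc a ^ 8 = a ^ 4 * a ^ 4 := by group
      _ = 1 := by rw [ha, ht2]
  have hord : orderOf a = 8 := by
    have := orderOf_eq_prime_pow (x := a) (n := 2) (p := 2)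
      (by rw [show (2 : ℕ) ^ 2 = 4 by norm_num, ha]; exact ht1)
      (by rw [show (2 : ℕ) ^ (2 + 1) = 8 by norm_num]; exact ha8)
    simpa using this
  set K := Subgroup.zpowers a with hK
  have hKc : Nat.card K = 8 := by rw [hK, Nat.card_zpowers, hord]
  have hidx : K.index = 90 := by
    have := Subgroup.index_mul_card K
    rw [hKc, hcard] at this
    omega
  have hX : Nat.card (G ⧸ K) = 90 := hidx
  have htK : t ∈ K := by rw [← ha]; exact Subgroup.pow_mem _ (Subgroup.mem_zpowers a) 4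
  have h19 := Cfsg.Agent.S1019.result K t htK
  have hcl := card_isConj_mul_card_centralizer t
  rw [hCt, hcard] at hcl
  have hcl45 : Nat.card {g : G // IsConj t g} = 45 := by omega
  rw [hcl45, hidx] at h19
  have key : ∀ g : G, IsConj t g → g ∈ K → g = t := by
    intro g hconj hgK
    obtain ⟨c, hc⟩ := isConj_iff.mp hconj
    have hg2 : g * g = 1 := by
      rw [← hc]
      calc c * t * c⁻¹ * (c * t * c⁻¹) = c * (t * t) * c⁻¹ := by group
        _ = 1 := by rw [ht2]; group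
    have hg1 : g ≠ 1 := by
      intro h
      apply ht1
      rw [← hc] at h
      calc t = c⁻¹ * (c * t * c⁻¹) * c := by group
        _ = 1 := by rw [h]; group
    obtain ⟨k, hk⟩ := Subgroup.mem_zpowers_iff.mp hgK
    have h2k : a ^ (2 * k) = 1 := by
      rw [two_mul, zpow_add, hk]; exact hg2
    have hdvd : (8 : ℤ) ∣ 2 * k := by
      have := orderOf_dvd_iff_zpow_eq_one.mpr h2k
      rwa [hord] at this
    obtain ⟨j, hj⟩ : ∃ j, k = 4 * j := by
      obtain ⟨e, he⟩ := hdvd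
      exact ⟨e, by omega⟩
    have hgt : g = t ^ j := by
      rw [← hk, hj, zpow_mul, ← ha]
      norm_cast
    rcases Int.even_or_odd j with ⟨i, hi⟩ | ⟨i, hi⟩
    · exfalso
      apply hg1
      rw [hgt, hi, ← two_mul, zpow_mul]
      have : t ^ (2 : ℤ) = 1 := by
        have := zpow_natCast t 2
        rw [pow_two, ht2] at this
        exact_mod_cast this
      rw [this, one_zpow]
    · rw [hgt, hi, zpow_add, zpow_mul]
      have : t ^ (2 : ℤ) = 1 := by
        have := zpow_natCast t 2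
        rw [pow_two, ht2] at this
        exact_mod_cast this
      rw [this, one_zpow, one_mul, zpow_one]
  have hJ : Nat.card {g : G // IsConj t g ∧ g ∈ K} ≤ 1 := by
    have hsub : Subsingleton {g : G // IsConj t g ∧ g ∈ K} :=
      ⟨fun g1 g2 => Subtype.ext ((key g1 g1.2.1 g1.2.2).trans (key g2 g2.2.1 g2.2.2).symm)⟩
    exact Finite.card_le_one_iff_subsingleton.mpr hsub
  have hFc : Nat.card (MulAction.fixedBy (G ⧸ K) t) =
      Set.ncard {q : G ⧸ K | a ^ 4 • q = q} := by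
    rw [ha, ← Nat.card_coe_set_eq]
    rfl
  rw [hFc] at h19
  obtain ⟨a', b, c, e1, e2, e3, e4⟩ := pow8_fixed hGn (X := G ⧸ K) a ha8
  rw [hX] at e1 e2 e3
  have hfa : 0 < Set.ncard {q : G ⧸ K | a • q = q} := by
    rw [Set.ncard_pos]
    refine ⟨((1 : G) : G ⧸ K), ?_⟩
    show a • ((1 : G) : G ⧸ K) = ((1 : G) : G ⧸ K)
    rw [smul_coset_eq_iff]
    have e : (1 : G)⁻¹ * a * 1 = a := by group
    rw [e]
    exact Subgroup.mem_zpowers a
  have hc : c = 11 := by omega
  have hb : b = 0 := by omega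
  have ha' : a' = 0 := by omega
  rw [ha', hb, hc] at e4
  exact absurd e4 (by decide)

/-- The centralizer of an element `y` of order `4` of `N(P_5)` has order at least `8`: there is
an element commuting with `y`, outside `⟨y⟩`, with square in `⟨y⟩`. -/
theorem exists_commuting {G : Type*} [Group G] [Finite G] [IsSimpleGroup G]
    (hGn : ¬ (Nat.card G).Prime) (hcard : Nat.card G = 720) (P : Sylow 5 G)
    (hN : Nat.card (Subgroup.normalizer ((P : Subgroup G) : Set G)) = 20)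
    (y : G) (hyN : y ∈ Subgroup.normalizer ((P : Subgroup G) : Set G)) (hy4 : y ^ 4 = 1)
    (ht1 : y ^ 2 ≠ 1)
    (hF : Set.ncard {q : G ⧸ Subgroup.normalizer ((P : Subgroup G) : Set G) | y ^ 2 • q = q} = 4)
    (hCt : Nat.card (Subgroup.centralizer ({y ^ 2} : Set G)) = 16) :
    ∃ x : G, x * y = y * x ∧ x ∉ Subgroup.zpowers y ∧ x ^ 2 ∈ Subgroup.zpowers y := by
  classical
  have : Fact (Nat.Prime 2) := ⟨by norm_num⟩
  set N := Subgroup.normalizer ((P : Subgroup G) : Set G) with hNdef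
  have hidx : N.index = 36 := by
    have := Subgroup.index_mul_card N
    rw [hN, hcard] at this
    omega
  have hX : Nat.card (G ⧸ N) = 36 := hidx
  have hy8 : y ^ 8 = 1 := by
    calc y ^ 8 = (y ^ 4) ^ 2 := by group
      _ = 1 := by rw [hy4]; group
  obtain ⟨a, b, c, e1, e2, e3, e4⟩ := pow8_fixed hGn (X := G ⧸ N) y hy8
  rw [hF, hX] at e2
  have h4 : {x : G ⧸ N | y ^ 4 • x = x} = Set.univ := by
    ext x; simp [hy4]
  rw [h4, Set.ncard_univ, hX] at e3
  rw [hX] at e1
  have hfy : 0 < Set.ncard {q : G ⧸ N | y • q = q} := by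
    rw [Set.ncard_pos]
    refine ⟨((1 : G) : G ⧸ N), ?_⟩
    show y • ((1 : G) : G ⧸ N) = ((1 : G) : G ⧸ N)
    rw [smul_coset_eq_iff]
    have e : (1 : G)⁻¹ * y * 1 = y := by group
    rw [e]
    exact hyN
  have hc0 : c = 0 := by omega
  have hb : b = 8 := by omega
  have ha : a = 0 := by
    rw [hc0, hb] at e4
    have ha1 : a ≤ 1 := by omega
    interval_cases a
    · rfl
    · exact absurd e4 (by decide)
  have hfy4 : Set.ncard {q : G ⧸ N | y • q = q} = 4 := by omega
  have h19 := Cfsg.Agent.S1019.result N y hyN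
  have hcl := card_isConj_mul_card_centralizer y
  rw [hcard] at hcl
  have hFc : Nat.card (MulAction.fixedBy (G ⧸ N) y) = 4 := by
    rw [← hfy4, ← Nat.card_coe_set_eq]
    rfl
  rw [hFc, hidx] at h19
  have hy1 : y ≠ 1 := by
    intro h
    apply ht1
    rw [h, one_pow]
  have hJ : Nat.card {g : G // IsConj y g ∧ g ∈ N} ≤ 19 := by
    have : Fintype {g : G // IsConj y g ∧ g ∈ N} := Fintype.ofFinite _
    have : Fintype N := Fintype.ofFinite _
    let f : {g : G // IsConj y g ∧ g ∈ N} → N := fun g => ⟨(g : G), g.2.2⟩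
    have hf : Function.Injective f := by
      intro g1 g2 h
      have h' : (g1 : G) = (g2 : G) := congrArg (fun n : N => (n : G)) h
      exact Subtype.ext h'
    have hnot : (1 : N) ∉ Set.range f := by
      rintro ⟨g, hg⟩
      have h1 : (g : G) = 1 := congrArg (fun n : N => (n : G)) hg
      obtain ⟨c, hc⟩ := isConj_iff.mp g.2.1
      apply hy1
      rw [h1] at hc
      calc y = c⁻¹ * (c * y * c⁻¹) * c := by group
        _ = 1 := by rw [hc]; group
    have hlt := Fintype.card_lt_of_injective_of_notMem f hf hnot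
    rw [← Nat.card_eq_fintype_card, ← Nat.card_eq_fintype_card, hN] at hlt
    omega
  have hCle : Subgroup.centralizer ({y} : Set G) ≤ Subgroup.centralizer ({y ^ 2} : Set G) := by
    intro g hg
    rw [Subgroup.mem_centralizer_singleton_iff] at hg ⊢
    have hc : Commute g y := hg
    exact (hc.pow_right 2).eq
  have hcdvd : Nat.card (Subgroup.centralizer ({y} : Set G)) ∣ 16 := by
    have := Subgroup.card_dvd_of_le hCle
    rwa [hCt] at this
  obtain ⟨cy, hcy⟩ : ∃ cy, cy = Nat.card (Subgroup.centralizer ({y} : Set G)) := ⟨_, rfl⟩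
  obtain ⟨cl, hcl'⟩ : ∃ cl, cl = Nat.card {h : G // IsConj y h} := ⟨_, rfl⟩
  obtain ⟨J, hJ'⟩ : ∃ J, J = Nat.card {g : G // IsConj y g ∧ g ∈ N} := ⟨_, rfl⟩
  rw [← hcy] at hcdvd hcl
  rw [← hcl'] at hcl h19
  rw [← hJ'] at h19 hJ
  have hcy8 : 8 ≤ cy := by
    have hle : cy ≤ 16 := Nat.le_of_dvd (by norm_num) hcdvd
    clear hcy hcl' hJ'
    interval_cases cy <;> omega
  have hyord : orderOf y = 4 := by
    have := orderOf_eq_prime_pow (x := y) (n := 1) (p := 2)
      (by rw [pow_one]; exact ht1)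
      (by rw [show (2 : ℕ) ^ (1 + 1) = 4 by norm_num]; exact hy4)
    simpa using this
  have hZc : Nat.card (Subgroup.zpowers y) = 4 := by rw [Nat.card_zpowers, hyord]
  obtain ⟨x0, hx0C, hx0Z⟩ : ∃ x0 : G, x0 ∈ Subgroup.centralizer ({y} : Set G) ∧
      x0 ∉ Subgroup.zpowers y := by
    by_contra hcon
    push Not at hcon
    have hle : Subgroup.centralizer ({y} : Set G) ≤ Subgroup.zpowers y := fun g hg => hcon g hg
    have := Subgroup.card_le_of_le hle
    rw [hZc, ← hcy] at this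
    omega
  have hx0y : Commute x0 y := Subgroup.mem_centralizer_singleton_iff.mp hx0C
  have hx16 : x0 ^ 16 = 1 := by
    have h := pow_card_eq_one' (G := Subgroup.centralizer ({y} : Set G)) (x := ⟨x0, hx0C⟩)
    have h' : x0 ^ Nat.card (Subgroup.centralizer ({y} : Set G)) = 1 := congrArg Subtype.val h
    rw [← hcy] at h'
    obtain ⟨e, he⟩ := hcdvd
    rw [he, pow_mul, h', one_pow]
  by_cases h2 : x0 ^ 2 ∈ Subgroup.zpowers y
  · exact ⟨x0, hx0y.eq, hx0Z, h2⟩
  by_cases h4 : x0 ^ 4 ∈ Subgroup.zpowers y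
  · refine ⟨x0 ^ 2, (hx0y.pow_left 2).eq, h2, ?_⟩
    rw [← pow_mul]
    exact h4
  by_cases h8 : x0 ^ 8 ∈ Subgroup.zpowers y
  · refine ⟨x0 ^ 4, (hx0y.pow_left 4).eq, h4, ?_⟩
    rw [← pow_mul]
    exact h8
  · refine ⟨x0 ^ 8, (hx0y.pow_left 8).eq, h8, ?_⟩
    rw [← pow_mul, hx16]
    exact one_mem _

/-- The final contradiction: an involution `x ∉ ⟨y⟩` commuting with `y`. -/
theorem case_involution {G : Type*} [Group G] [Finite G] [IsSimpleGroup G]
    (hcard : Nat.card G = 720)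
    (hNoSix : ∀ x u : G, x * x = 1 → u ^ 9 = 1 → u ≠ 1 → x * u = u * x → x = 1)
    (y : G) (hy4 : y ^ 4 = 1) (ht1 : y ^ 2 ≠ 1)
    (hF3 : Set.ncard {Q : Sylow 3 G | y ^ 2 • Q = Q} = 2)
    (hsq : ∀ w : G, w ^ 2 = y ^ 2 → ∀ Q : Sylow 3 G, y ^ 2 • Q = Q → w • Q = Q)
    (x : G) (hxy : x * y = y * x) (hxZ : x ∉ Subgroup.zpowers y) (hx2 : x ^ 2 = 1) : False := by
  have : Fact (Nat.Prime 3) := ⟨by norm_num⟩
  obtain ⟨t, ht⟩ : ∃ t, t = y ^ 2 := ⟨_, rfl⟩
  rw [← ht] at ht1 hF3 hsq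
  have ht2 : t * t = 1 := by rw [ht, ← pow_add]; exact hy4
  obtain ⟨R1, hR1⟩ : ∃ R1 : Sylow 3 G, t • R1 = R1 := by
    have h0 : (0 : ℕ) < Set.ncard {Q : Sylow 3 G | t • Q = Q} := by rw [hF3]; norm_num
    rw [Set.ncard_pos] at h0
    exact h0
  have hyR : y • R1 = R1 := hsq y ht.symm R1 hR1
  have hc : Commute x y := hxy
  have hxt : x * t = t * x := by
    rw [ht]
    exact (hc.pow_right 2).eq
  have hw2 : (x * y) ^ 2 = t := by
    rw [hc.mul_pow, hx2, one_mul, ht]
  have hwR : (x * y) • R1 = R1 := hsq (x * y) hw2 R1 hR1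
  have hxR : x • R1 = R1 := by
    rw [mul_smul, hyR] at hwR
    exact hwR
  have hxN : x ∈ Subgroup.normalizer ((R1 : Subgroup G) : Set G) :=
    Sylow.smul_eq_iff_mem_normalizer.mp hxR
  have htN : t ∈ Subgroup.normalizer ((R1 : Subgroup G) : Set G) :=
    Sylow.smul_eq_iff_mem_normalizer.mp hR1
  have hS9 : Nat.card (R1 : Subgroup G) = 9 := by
    have := card_sylow_eq_of_card_eq (G := G) 3 2 80 (by rw [hcard]; norm_num) (by norm_num) R1
    simpa using this
  have hcommR : ∀ a b : G, a ∈ (R1 : Subgroup G) → b ∈ (R1 : Subgroup G) → a * b = b * a := by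
    intro a b ha hb
    have hmc := IsPGroup.isMulCommutative_of_card_eq_prime_sq (p := 3) (G := (R1 : Subgroup G))
      (by rw [hS9]; norm_num)
    have h : (⟨a, ha⟩ : (R1 : Subgroup G)) * ⟨b, hb⟩ = ⟨b, hb⟩ * ⟨a, ha⟩ := hmc.1.1 _ _
    exact congrArg Subtype.val h
  have hr9 : ∀ r : G, r ∈ (R1 : Subgroup G) → r ^ 9 = 1 := by
    intro r hr
    have h := pow_card_eq_one' (G := (R1 : Subgroup G)) (x := ⟨r, hr⟩)
    rw [hS9] at h
    exact congrArg Subtype.val h
  have hinv : ∀ s : G, s ∈ Subgroup.normalizer ((R1 : Subgroup G) : Set G) → s * s = 1 →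
      s ≠ 1 → ∀ r ∈ (R1 : Subgroup G), s * r * s⁻¹ = r⁻¹ := by
    intro s hsN hs2 hs1 r hr
    have hr' : s * r * s⁻¹ ∈ (R1 : Subgroup G) := (Subgroup.mem_normalizer_iff.mp hsN r).mp hr
    have heR : r * (s * r * s⁻¹) ∈ (R1 : Subgroup G) := mul_mem hr hr'
    have h1 : s * (r * (s * r * s⁻¹)) * s⁻¹ = (s * r * s⁻¹) * r := by
      calc s * (r * (s * r * s⁻¹)) * s⁻¹ = (s * r * s⁻¹) * ((s * s) * r * (s * s)⁻¹) := by group
        _ = (s * r * s⁻¹) * r := by rw [hs2]; group
    have hcm : s * (r * (s * r * s⁻¹)) = (r * (s * r * s⁻¹)) * s := by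
      calc s * (r * (s * r * s⁻¹)) = (s * (r * (s * r * s⁻¹)) * s⁻¹) * s := by group
        _ = ((s * r * s⁻¹) * r) * s := by rw [h1]
        _ = (r * (s * r * s⁻¹)) * s := by rw [hcommR _ _ hr' hr]
    have he1 : r * (s * r * s⁻¹) = 1 := by
      by_contra hne
      exact hs1 (hNoSix s _ hs2 (hr9 _ heR) hne hcm)
    exact eq_inv_of_mul_eq_one_right he1
  have hx1 : x ≠ 1 := fun h => hxZ (by rw [h]; exact one_mem _)
  have hxx : x * x = 1 := by rw [← pow_two]; exact hx2
  have hix := hinv x hxN hxx hx1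
  have hit := hinv t htN ht2 ht1
  have hcent := (mul_mem_centralizer_of_invert (R1 : Subgroup G) x t hix hit).1
  have hv2 : (x * t) * (x * t) = 1 := by
    calc (x * t) * (x * t) = x * (t * x) * t := by group
      _ = x * (x * t) * t := by rw [hxt]
      _ = (x * x) * (t * t) := by group
      _ = 1 := by rw [hxx, ht2, one_mul]
  have hv1 : x * t ≠ 1 := by
    intro h
    apply hxZ
    have : x = t⁻¹ := eq_inv_of_mul_eq_one_left h
    rw [this, ht]
    exact inv_mem (Subgroup.pow_mem _ (Subgroup.mem_zpowers y) 2)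
  obtain ⟨r, hr, hr1⟩ : ∃ r ∈ (R1 : Subgroup G), r ≠ 1 := by
    by_contra hcon
    push Not at hcon
    have : (R1 : Subgroup G) = ⊥ := (Subgroup.eq_bot_iff_forall _).mpr hcon
    rw [this, Subgroup.card_bot] at hS9
    omega
  have hvr : (x * t) * r = r * (x * t) := (Subgroup.mem_centralizer_iff.mp hcent r hr).symm
  exact hv1 (hNoSix (x * t) r hv2 (hr9 r hr) hr1 hvr)

/-- No non-abelian simple group has order `720 = 2^4 * 3^2 * 5`. -/
theorem noSimple_720 : NoSimple.{u} 720 := by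
  intro G _ _ _ hG hcard
  have : Fact (Nat.Prime 5) := ⟨by norm_num⟩
  obtain ⟨hGn, P, d, r, hP, hd, hdc, hd1, hfac, hdN, hr, hr1, hrp, hrC, hPC⟩ :=
    sylow_prime_data (G := G) 5 144 2 (by norm_num) (by norm_num) (by rw [hcard]) (by norm_num)
      (by rw [hcard]; norm_num)
  rw [hcard] at hfac hdN
  have hcl : sylowCands 5 144 = [1, 6, 16, 36] := by decide +kernel
  rw [hcl] at hdc
  simp only [List.mem_cons, List.not_mem_nil, or_false] at hdc
  have hr4 : r ∣ 4 := by simpa using hrp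
  have hrle : r ≤ 4 := Nat.le_of_dvd (by norm_num) hr4
  have hpC : 5 ∣ Nat.card (Subgroup.centralizer ((P : Subgroup G) : Set G)) := by
    have := Subgroup.card_dvd_of_le hPC
    rwa [hP] at this
  have hdN0 := hdN
  have hrC0 := hrC
  obtain ⟨C, hC⟩ : ∃ C, C = Nat.card (Subgroup.centralizer ((P : Subgroup G) : Set G)) := ⟨_, rfl⟩
  obtain ⟨N, hN⟩ : ∃ N, N = Nat.card (Subgroup.normalizer ((P : Subgroup G) : Set G)) := ⟨_, rfl⟩
  rw [← hC] at hrC hpC
  rw [← hN] at hrC hdN
  rcases hdc with rfl | rfl | rfl | rfl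
  · exact hd1 rfl
  · revert hfac
    decide
  · have hN45 : N = 45 := by omega
    rw [hN45] at hrC
    clear hr hrC0
    interval_cases r <;> omega
  · have hN20 : N = 20 := by omega
    rw [hN20] at hrC
    have hr24 : r = 2 ∨ r = 4 := by
      clear hr hrC0
      interval_cases r <;> omega
    rcases hr24 with rfl | rfl
    · exact false_of_rOK hG hGn 720 5 36 2 (by norm_num) hcard P hP hd (by norm_num) hdN0 hr hrC0
        (by decide +kernel)
    · have hC5 : Nat.card (Subgroup.centralizer ((P : Subgroup G) : Set G)) = 5 := by omega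
      have hN20' : Nat.card (Subgroup.normalizer ((P : Subgroup G) : Set G)) = 20 := by omega
      obtain ⟨y, hyN, hy4, hy2⟩ := exists_order_four P hP hC5 hPC hN20'
      have ht2 : y ^ 2 * y ^ 2 = 1 := by rw [← pow_add]; exact hy4
      have hy2N : y ^ 2 ∈ Subgroup.normalizer ((P : Subgroup G) : Set G) := pow_mem hyN 2
      obtain ⟨hF, hCt⟩ := fix_t_data hGn hcard P hP hC5 hPC hN20' (y ^ 2) hy2N ht2 hy2
      have hc5 : ∀ w u : G, orderOf w = 5 → u * w = w * u → u ^ 5 = 1 :=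
        fun w u hw hcomm => pow_five_of_commute P hP hC5 w u hw hcomm
      have hTI : ∀ (P3 R3 : Sylow 3 G) (d : G), d ∈ (P3 : Subgroup G) → d ∈ (R3 : Subgroup G) →
          d ≠ 1 → P3 = R3 :=
        fun P3 R3 d h1 h2 h3 => sylow3_ti hGn hcard hc5 y hy4 hCt P3 R3 d h1 h2 h3
      have hn3 := card_sylow3_eq_ten hcard hTI
      have hNoSix : ∀ x u : G, x * x = 1 → u ^ 9 = 1 → u ≠ 1 → x * u = u * x → x = 1 :=
        fun x u h1 h2 h3 h4 => no_six hGn hTI hn3 x u h1 h2 h3 h4
      obtain ⟨z', hz'⟩ := exists_prime_orderOf_dvd_card' (G := (P : Subgroup G)) 5 (by rw [hP])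
      have hzo : orderOf (z' : G) = 5 := by rw [Subgroup.orderOf_coe]; exact hz'
      have hinv : y ^ 2 * (z' : G) * (y ^ 2)⁻¹ = (z' : G)⁻¹ :=
        involution_inverts P hP hC5 hPC (y ^ 2) hy2N ht2 hy2 (z' : G) z'.2
      have hF3 := ncard_fixed_sylow3 hGn hcard hn3 (z' : G) (y ^ 2) hzo hinv ht2
      have hsq : ∀ w : G, w ^ 2 = y ^ 2 → ∀ Q : Sylow 3 G, y ^ 2 • Q = Q → w • Q = Q :=
        fun w hw Q hQ => sq_fixed_sylow3 hGn hn3 (y ^ 2) w ht2 hF3 hw Q hQ
      have hE8 : ∀ a : G, a ^ 4 = y ^ 2 → False :=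
        fun a ha => no_order_eight hGn hcard (y ^ 2) a hy2 ht2 hCt ha
      obtain ⟨x, hxy, hxZ, hx2Z⟩ := exists_commuting hGn hcard P hN20' y hyN hy4 hy2 hF hCt
      have hcase0 : ∀ x : G, x * y = y * x → x ∉ Subgroup.zpowers y → x ^ 2 = 1 → False :=
        fun x h1 h2 h3 => case_involution hcard hNoSix y hy4 hy2 hF3 hsq x h1 h2 h3
      obtain ⟨k, hk⟩ := Subgroup.mem_zpowers_iff.mp hx2Z
      have hyord : orderOf y = 4 := by
        have : Fact (Nat.Prime 2) := ⟨by norm_num⟩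
        have := orderOf_eq_prime_pow (x := y) (n := 1) (p := 2)
          (by rw [pow_one]; exact hy2)
          (by rw [show (2 : ℕ) ^ (1 + 1) = 4 by norm_num]; exact hy4)
        simpa using this
      have hk' : y ^ (k % 4) = x ^ 2 := by
        rw [← hk]
        have := zpow_mod_orderOf y k
        rw [hyord] at this
        exact_mod_cast this
      have hkr : k % 4 = 0 ∨ k % 4 = 1 ∨ k % 4 = 2 ∨ k % 4 = 3 := by omega
      have hc : Commute x y := hxy
      rcases hkr with h | h | h | h <;> rw [h] at hk'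
      · apply hcase0 x hxy hxZ
        rw [← hk', zpow_zero]
      · apply hE8 x
        calc x ^ 4 = (x ^ 2) ^ 2 := by group
          _ = y ^ 2 := by rw [← hk', zpow_one]
      · have hk2 : x ^ 2 = y ^ 2 := by
          rw [← hk']
          norm_cast
        apply hcase0 (x * y⁻¹)
        · calc x * y⁻¹ * y = y * (y⁻¹ * x) := by group
            _ = y * (y⁻¹ * (x * y) * y⁻¹) := by group
            _ = y * (y⁻¹ * (y * x) * y⁻¹) := by rw [hxy]
            _ = y * (x * y⁻¹) := by group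
        · intro hmem
          apply hxZ
          have : x = (x * y⁻¹) * y := by group
          rw [this]
          exact mul_mem hmem (Subgroup.mem_zpowers y)
        · have hc' : Commute x y⁻¹ := hc.inv_right
          rw [hc'.mul_pow, hk2, inv_pow, mul_inv_cancel]
      · apply hE8 x
        calc x ^ 4 = (x ^ 2) ^ 2 := by group
          _ = (y ^ (3 : ℤ)) ^ 2 := by rw [hk']
          _ = y ^ 4 * y ^ 2 := by group
          _ = y ^ 2 := by rw [hy4, one_mul]

end Cfsg.Agent.Lib.Helper93.SO
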