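import Cfsg.Agent.Lib.Helper93.Tets5

set_option autoImplicit false

open scoped Pointwise

namespace Cfsg.Agent.Lib.Helper93

theorem sextet_disjoint {S : Finset (Finset Cfsg.GolayPt)} (hS : S ∈ Cfsg.sextets)
    {t u : Finset Cfsg.GolayPt} (ht : t ∈ S) (hu : u ∈ S) (hne : t ≠ u) : Disjoint t u := by
  classical
  rw [Finset.disjoint_iff_inter_eq_empty, ← Finset.card_eq_zero]
  have := Finset.card_union_add_card_inter t u
  rw [octad_card (hS.2.2 t ht u hu hne), hS.2.1 t ht, hS.2.1 u hu] at this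
  omega

theorem sextet_isTetOf {S : Finset (Finset Cfsg.GolayPt)} (hS : S ∈ Cfsg.sextets)
    {t u : Finset Cfsg.GolayPt} (ht : t ∈ S) (hu : u ∈ S) (hne : t ≠ u) : IsTetOf t u :=
  ⟨sextet_disjoint hS ht hu hne, hS.2.2 t ht u hu hne⟩

theorem sextet_eq_of_mem_mem {S : Finset (Finset Cfsg.GolayPt)} (hS : S ∈ Cfsg.sextets)
    {t u : Finset Cfsg.GolayPt} (ht : t ∈ S) (hu : u ∈ S) {x : Cfsg.GolayPt}
    (hxt : x ∈ t) (hxu : x ∈ u) : t = u := by
  by_contra hne
  exact Finset.disjoint_left.mp (sextet_disjoint hS ht hu hne) hxt hxu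

theorem sextet_cover {S : Finset (Finset Cfsg.GolayPt)} (hS : S ∈ Cfsg.sextets)
    (x : Cfsg.GolayPt) : ∃ t ∈ S, x ∈ t := by
  classical
  obtain ⟨t0, ht0⟩ : S.Nonempty := by rw [← Finset.card_pos, hS.1]; norm_num
  by_cases hx : x ∈ t0
  · exact ⟨t0, ht0, hx⟩
  · obtain ⟨Y, hY, hxY⟩ := exists_tetOf (hS.2.1 t0 ht0) hx
    refine ⟨Y, ?_, hxY⟩
    rw [sextet_eq_sextetOf hS ht0, mem_sextetOf]
    exact Or.inr ⟨t0 ∪ Y, hY.2, Finset.subset_union_left, Finset.union_sdiff_cancel_left hY.1⟩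

theorem smul_mem_sextets {g : Equiv.Perm Cfsg.GolayPt} (hg : g ∈ Cfsg.M24)
    {S : Finset (Finset Cfsg.GolayPt)} (hS : S ∈ Cfsg.sextets) : g • S ∈ Cfsg.sextets := by
  classical
  obtain ⟨hcard, h4, hoct⟩ := hS
  refine ⟨by rw [Finset.card_smul_finset, hcard], ?_, ?_⟩
  · intro c hc
    obtain ⟨c', hc', rfl⟩ := Finset.mem_smul_finset.mp hc
    rw [Finset.card_smul_finset]
    exact h4 c' hc'
  · intro c hc d hd hne
    obtain ⟨c', hc', rfl⟩ := Finset.mem_smul_finset.mp hc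
    obtain ⟨d', hd', rfl⟩ := Finset.mem_smul_finset.mp hd
    rw [← Finset.smul_finset_union]
    exact Cfsg.Agent.Lib.Helper7.smul_mem_octads hg
      (hoct c' hc' d' hd' (fun e => hne (by rw [e])))

theorem smul_sextetOf {g : Equiv.Perm Cfsg.GolayPt} (hg : g ∈ Cfsg.M24)
    {t : Finset Cfsg.GolayPt} (ht : t.card = 4) : g • sextetOf t = sextetOf (g • t) :=
  sextet_eq_sextetOf (smul_mem_sextets hg (sextetOf_mem ht))
    (Finset.smul_mem_smul_finset (self_mem_sextetOf t))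

/-- The tetrads of a sextet meeting `Y` cut `Y` into disjoint pieces. -/
theorem sum_inter_filter {S : Finset (Finset Cfsg.GolayPt)} (hS : S ∈ Cfsg.sextets)
    (Y : Finset Cfsg.GolayPt) :
    ∑ t ∈ S.filter (fun t => (t ∩ Y).Nonempty), (t ∩ Y).card = Y.card := by
  classical
  have hdisj : ∀ t ∈ S.filter (fun t => (t ∩ Y).Nonempty),
      ∀ u ∈ S.filter (fun t => (t ∩ Y).Nonempty), t ≠ u → Disjoint (t ∩ Y) (u ∩ Y) := by
    intro t ht u hu hne
    have h := sextet_disjoint hS (Finset.mem_filter.mp ht).1 (Finset.mem_filter.mp hu).1 hne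
    rw [Finset.disjoint_left] at h ⊢
    intro x hx hx'
    exact h (Finset.mem_inter.mp hx).1 (Finset.mem_inter.mp hx').1
  rw [← Finset.card_biUnion hdisj]
  congr 1
  ext x
  rw [Finset.mem_biUnion]
  constructor
  · rintro ⟨t, -, hx⟩
    exact (Finset.mem_inter.mp hx).2
  · intro hx
    obtain ⟨t, ht, hxt⟩ := sextet_cover hS x
    have hxi : x ∈ t ∩ Y := Finset.mem_inter.mpr ⟨hxt, hx⟩
    exact ⟨t, Finset.mem_filter.mpr ⟨ht, ⟨x, hxi⟩⟩, hxi⟩

theorem filter_card_le {S : Finset (Finset Cfsg.GolayPt)} (hS : S ∈ Cfsg.sextets)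
    (Y : Finset Cfsg.GolayPt) : (S.filter (fun t => (t ∩ Y).Nonempty)).card ≤ Y.card := by
  classical
  rw [← sum_inter_filter hS Y, Finset.card_eq_sum_ones]
  apply Finset.sum_le_sum
  intro t ht
  exact Finset.card_pos.mpr (Finset.mem_filter.mp ht).2

theorem filter_card_pos {S : Finset (Finset Cfsg.GolayPt)} (hS : S ∈ Cfsg.sextets)
    {Y : Finset Cfsg.GolayPt} (hY : Y.Nonempty) :
    0 < (S.filter (fun t => (t ∩ Y).Nonempty)).card := by
  classical
  obtain ⟨x, hx⟩ := hY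
  obtain ⟨t, ht, hxt⟩ := sextet_cover hS x
  exact Finset.card_pos.mpr ⟨t, Finset.mem_filter.mpr ⟨ht, ⟨x, Finset.mem_inter.mpr ⟨hxt, hx⟩⟩⟩⟩

/-- One tetrad meets `Y` iff some tetrad contains `Y`. -/
theorem filter_card_eq_one_iff {S : Finset (Finset Cfsg.GolayPt)} (hS : S ∈ Cfsg.sextets)
    {Y : Finset Cfsg.GolayPt} (hY : Y.Nonempty) :
    (S.filter (fun t => (t ∩ Y).Nonempty)).card = 1 ↔ ∃ t ∈ S, Y ⊆ t := by
  classical
  constructor
  · intro h
    obtain ⟨t, ht⟩ := Finset.card_eq_one.mp h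
    have hsum := sum_inter_filter hS Y
    rw [ht, Finset.sum_singleton] at hsum
    have htS : t ∈ S := (Finset.mem_filter.mp (ht ▸ Finset.mem_singleton_self t)).1
    refine ⟨t, htS, ?_⟩
    have : t ∩ Y = Y := Finset.eq_of_subset_of_card_le Finset.inter_subset_right (by rw [hsum])
    rw [← this]
    exact Finset.inter_subset_left
  · rintro ⟨t, ht, hYt⟩
    rw [Finset.card_eq_one]
    refine ⟨t, ?_⟩
    ext u
    rw [Finset.mem_filter, Finset.mem_singleton]
    constructor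
    · rintro ⟨hu, x, hx⟩
      exact sextet_eq_of_mem_mem hS hu ht (Finset.mem_inter.mp hx).1
        (hYt (Finset.mem_inter.mp hx).2)
    · rintro rfl
      obtain ⟨x, hx⟩ := hY
      exact ⟨ht, ⟨x, Finset.mem_inter.mpr ⟨hYt hx, hx⟩⟩⟩

/-- For a triple `Y`: two tetrads meet `Y` iff some tetrad meets `Y` in two points. -/
theorem filter_card_eq_two_iff {S : Finset (Finset Cfsg.GolayPt)} (hS : S ∈ Cfsg.sextets)
    {Y : Finset Cfsg.GolayPt} (hY : Y.card = 3) :
    (S.filter (fun t => (t ∩ Y).Nonempty)).card = 2 ↔ ∃ t ∈ S, (t ∩ Y).card = 2 := by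
  classical
  have hsum := sum_inter_filter hS Y
  rw [hY] at hsum
  constructor
  · intro h
    obtain ⟨t, u, hne, htu⟩ := Finset.card_eq_two.mp h
    rw [htu, Finset.sum_insert (by simpa using hne), Finset.sum_singleton] at hsum
    have ht : t ∈ S.filter (fun t => (t ∩ Y).Nonempty) := htu ▸ Finset.mem_insert_self t {u}
    have hu : u ∈ S.filter (fun t => (t ∩ Y).Nonempty) :=
      htu ▸ Finset.mem_insert_of_mem (Finset.mem_singleton_self u)
    have ht1 := Finset.card_pos.mpr (Finset.mem_filter.mp ht).2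
    have hu1 := Finset.card_pos.mpr (Finset.mem_filter.mp hu).2
    by_cases h2 : (t ∩ Y).card = 2
    · exact ⟨t, (Finset.mem_filter.mp ht).1, h2⟩
    · exact ⟨u, (Finset.mem_filter.mp hu).1, by omega⟩
  · rintro ⟨t, ht, h2⟩
    have htF : t ∈ S.filter (fun t => (t ∩ Y).Nonempty) :=
      Finset.mem_filter.mpr ⟨ht, Finset.card_pos.mp (by rw [h2]; norm_num)⟩
    rw [← Finset.insert_erase htF, Finset.sum_insert (Finset.notMem_erase _ _), h2] at hsum
    have h1 : ∑ u ∈ (S.filter (fun t => (t ∩ Y).Nonempty)).erase t, (u ∩ Y).card = 1 := by omega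
    have hle : ((S.filter (fun t => (t ∩ Y).Nonempty)).erase t).card ≤ 1 := by
      rw [← h1, Finset.card_eq_sum_ones]
      apply Finset.sum_le_sum
      intro u hu
      exact Finset.card_pos.mpr (Finset.mem_filter.mp (Finset.mem_of_mem_erase hu)).2
    have hge : 0 < ((S.filter (fun t => (t ∩ Y).Nonempty)).erase t).card := by
      rw [Finset.card_pos]
      by_contra hem
      rw [Finset.not_nonempty_iff_eq_empty] at hem
      rw [hem, Finset.sum_empty] at h1
      omega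
    rw [Finset.card_erase_of_mem htF] at hle hge
    omega

end Cfsg.Agent.Lib.Helper93
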