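import Cfsg.Agent.Lib.Helper93.SextetY

set_option autoImplicit false

open scoped Pointwise

namespace Cfsg.Agent.Lib.Helper93

/-- `5`-transitivity of the group of the code, for lists of points. -/
theorem exists_map_list (l l' : List Cfsg.GolayPt) (hl : l.Nodup) (hl' : l'.Nodup)
    (hlen : l.length = l'.length) (h5 : l.length ≤ 5) :
    ∃ g ∈ Cfsg.M24, ∀ i (hi : i < l.length), g (l[i]) = l'[i]'(by omega) := by
  let x : Fin l.length ↪ Cfsg.GolayPt := ⟨fun i => l[i.val], fun i j hij =>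
    Fin.ext ((List.Nodup.getElem_inj_iff hl).mp hij)⟩
  let y : Fin l.length ↪ Cfsg.GolayPt := ⟨fun i => l'[i.val]'(by have := i.2; omega),
    fun i j hij => Fin.ext ((List.Nodup.getElem_inj_iff hl').mp hij)⟩
  obtain ⟨g, hg, hgxy⟩ := Cfsg.Agent.Lib.Helper7.M24_exists_smul_eq h5 x y
  exact ⟨g, hg, fun i hi => hgxy ⟨i, hi⟩⟩

theorem exists_map4 {a b c d a' b' c' d' : Cfsg.GolayPt} (hl : [a, b, c, d].Nodup)
    (hl' : [a', b', c', d'].Nodup) :
    ∃ g ∈ Cfsg.M24, g a = a' ∧ g b = b' ∧ g c = c' ∧ g d = d' := by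
  obtain ⟨g, hg, h⟩ := exists_map_list _ _ hl hl' rfl (by simp)
  exact ⟨g, hg, h 0 (by simp), h 1 (by simp), h 2 (by simp), h 3 (by simp)⟩

theorem exists_map5 {a b c d e a' b' c' d' e' : Cfsg.GolayPt} (hl : [a, b, c, d, e].Nodup)
    (hl' : [a', b', c', d', e'].Nodup) :
    ∃ g ∈ Cfsg.M24, g a = a' ∧ g b = b' ∧ g c = c' ∧ g d = d' ∧ g e = e' := by
  obtain ⟨g, hg, h⟩ := exists_map_list _ _ hl hl' rfl (by simp)
  exact ⟨g, hg, h 0 (by simp), h 1 (by simp), h 2 (by simp), h 3 (by simp), h 4 (by simp)⟩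

/-- Moving a tetrad containing the triple `Y` to another such tetrad, fixing `Y`. -/
theorem move_tetrad_superset {Y t t' : Finset Cfsg.GolayPt} (hY : Y.card = 3)
    (ht : t.card = 4) (ht' : t'.card = 4) (hYt : Y ⊆ t) (hYt' : Y ⊆ t') :
    ∃ g ∈ Cfsg.M24, g • Y = Y ∧ g • t = t' := by
  classical
  obtain ⟨a, b, c, hab, hac, hbc, rfl⟩ := Finset.card_eq_three.mp hY
  have h1 : (t \ {a, b, c}).card = 1 := by rw [Finset.card_sdiff_of_subset hYt, ht, hY]
  have h1' : (t' \ {a, b, c}).card = 1 := by rw [Finset.card_sdiff_of_subset hYt', ht', hY]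
  obtain ⟨x, hx⟩ := Finset.card_eq_one.mp h1
  obtain ⟨x', hx'⟩ := Finset.card_eq_one.mp h1'
  have hxm : x ∈ t \ {a, b, c} := hx ▸ Finset.mem_singleton_self x
  have hxm' : x' ∈ t' \ {a, b, c} := hx' ▸ Finset.mem_singleton_self x'
  have hxY := (Finset.mem_sdiff.mp hxm).2
  have hxY' := (Finset.mem_sdiff.mp hxm').2
  simp only [Finset.mem_insert, Finset.mem_singleton, not_or] at hxY hxY'
  have hteq : t = insert x {a, b, c} := by
    rw [← Finset.sdiff_union_of_subset hYt, hx]; rfl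
  have hteq' : t' = insert x' {a, b, c} := by
    rw [← Finset.sdiff_union_of_subset hYt', hx']; rfl
  obtain ⟨g, hg, hga, hgb, hgc, hgx⟩ := exists_map4 (a := a) (b := b) (c := c) (d := x)
    (a' := a) (b' := b) (c' := c) (d' := x')
    (by simp [hab, hac, hbc, Ne.symm hxY.1, Ne.symm hxY.2.1, Ne.symm hxY.2.2])
    (by simp [hab, hac, hbc, Ne.symm hxY'.1, Ne.symm hxY'.2.1, Ne.symm hxY'.2.2])
  have hgY : g • ({a, b, c} : Finset Cfsg.GolayPt) = {a, b, c} := by
    apply smul_eq_of_fix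
    intro y hy
    simp only [Finset.mem_insert, Finset.mem_singleton] at hy
    rcases hy with rfl | rfl | rfl
    · exact hga
    · exact hgb
    · exact hgc
  refine ⟨g, hg, hgY, ?_⟩
  rw [hteq, hteq', Finset.smul_finset_insert, hgY]
  congr 1

/-- Moving a tetrad through two points of `Y` to another such tetrad, fixing `Y`. -/
theorem move_tetrad_two {a b c a' b' c' : Cfsg.GolayPt} {t t' : Finset Cfsg.GolayPt}
    (hab : a ≠ b) (hac : a ≠ c) (hbc : b ≠ c) (hab' : a' ≠ b') (hac' : a' ≠ c')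
    (hbc' : b' ≠ c') (hYY : ({a, b, c} : Finset Cfsg.GolayPt) = {a', b', c'})
    (ht : t.card = 4) (ht' : t'.card = 4) (hat : a ∈ t) (hbt : b ∈ t) (hct : c ∉ t)
    (hat' : a' ∈ t') (hbt' : b' ∈ t') (hct' : c' ∉ t') :
    ∃ g ∈ Cfsg.M24, g • ({a, b, c} : Finset Cfsg.GolayPt) = {a, b, c} ∧ g • t = t' := by
  classical
  have hsub : ({a, b} : Finset Cfsg.GolayPt) ⊆ t := by
    intro y hy
    simp only [Finset.mem_insert, Finset.mem_singleton] at hy
    rcases hy with rfl | rfl
    · exact hat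
    · exact hbt
  have hsub' : ({a', b'} : Finset Cfsg.GolayPt) ⊆ t' := by
    intro y hy
    simp only [Finset.mem_insert, Finset.mem_singleton] at hy
    rcases hy with rfl | rfl
    · exact hat'
    · exact hbt'
  have h2 : (t \ {a, b}).card = 2 := by
    rw [Finset.card_sdiff_of_subset hsub, ht, Finset.card_pair hab]
  have h2' : (t' \ {a', b'}).card = 2 := by
    rw [Finset.card_sdiff_of_subset hsub', ht', Finset.card_pair hab']
  obtain ⟨p, q, hpq, hpqe⟩ := Finset.card_eq_two.mp h2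
  obtain ⟨p', q', hpq', hpqe'⟩ := Finset.card_eq_two.mp h2'
  have hp : p ∈ t \ {a, b} := hpqe ▸ Finset.mem_insert_self p {q}
  have hq : q ∈ t \ {a, b} := hpqe ▸ Finset.mem_insert_of_mem (Finset.mem_singleton_self q)
  have hp' : p' ∈ t' \ {a', b'} := hpqe' ▸ Finset.mem_insert_self p' {q'}
  have hq' : q' ∈ t' \ {a', b'} :=
    hpqe' ▸ Finset.mem_insert_of_mem (Finset.mem_singleton_self q')
  rw [Finset.mem_sdiff] at hp hq hp' hq'
  simp only [Finset.mem_insert, Finset.mem_singleton, not_or] at hp hq hp' hq'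
  have hcp : c ≠ p := by rintro rfl; exact hct hp.1
  have hcq : c ≠ q := by rintro rfl; exact hct hq.1
  have hcp' : c' ≠ p' := by rintro rfl; exact hct' hp'.1
  have hcq' : c' ≠ q' := by rintro rfl; exact hct' hq'.1
  have hteq : t = {a, b, p, q} := by
    rw [← Finset.sdiff_union_of_subset hsub, hpqe]
    ext y
    simp only [Finset.mem_union, Finset.mem_insert, Finset.mem_singleton]
    tauto
  have hteq' : t' = {a', b', p', q'} := by
    rw [← Finset.sdiff_union_of_subset hsub', hpqe']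
    ext y
    simp only [Finset.mem_union, Finset.mem_insert, Finset.mem_singleton]
    tauto
  obtain ⟨g, hg, hga, hgb, hgc, hgp, hgq⟩ := exists_map5 (a := a) (b := b) (c := c) (d := p)
    (e := q) (a' := a') (b' := b') (c' := c') (d' := p') (e' := q')
    (by simp [hab, hac, hbc, Ne.symm hp.2.1, Ne.symm hp.2.2, Ne.symm hq.2.1, Ne.symm hq.2.2,
      hcp, hcq, hpq])
    (by simp [hab', hac', hbc', Ne.symm hp'.2.1, Ne.symm hp'.2.2, Ne.symm hq'.2.1,
      Ne.symm hq'.2.2, hcp', hcq', hpq'])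
  refine ⟨g, hg, ?_, ?_⟩
  · have : g • ({a, b, c} : Finset Cfsg.GolayPt) = {a', b', c'} := by
      rw [Finset.smul_finset_insert, Finset.smul_finset_insert, Finset.smul_finset_singleton]
      show ({g a, g b, g c} : Finset Cfsg.GolayPt) = _
      rw [hga, hgb, hgc]
    rw [this, hYY]
  · rw [hteq, hteq', Finset.smul_finset_insert, Finset.smul_finset_insert,
      Finset.smul_finset_insert, Finset.smul_finset_singleton]
    show ({g a, g b, g p, g q} : Finset Cfsg.GolayPt) = _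
    rw [hga, hgb, hgp, hgq]

end Cfsg.Agent.Lib.Helper93
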