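import Cfsg.Agent.Lib.Helper93.SextetY2

set_option autoImplicit false

open scoped Pointwise

namespace Cfsg.Agent.Lib.Helper93

/-- An element of the pointwise stabiliser of the union of two tetrads of a sextet which maps a
point of a third tetrad into that tetrad stabilises the third tetrad. -/
theorem fixG_smul_tet {U V W : Finset Cfsg.GolayPt} (hU : U.card = 4) (hUV : IsTetOf U V)
    (hUW : IsTetOf U W) {k : Equiv.Perm Cfsg.GolayPt}
    (hk : k ∈ fixG ((U ∪ V : Finset Cfsg.GolayPt) : Set Cfsg.GolayPt))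
    {y : Cfsg.GolayPt} (hy : y ∈ W) (hky : k y ∈ W) : k • W = W := by
  classical
  obtain ⟨hkM, hkfix⟩ := mem_fixG.mp hk
  have hkU : k • U = U := smul_eq_of_fix (fun x hx =>
    hkfix x (Finset.mem_coe.mpr (Finset.mem_union_left _ hx)))
  have h1 : IsTetOf U (k • W) := by
    have := hUW.smul hkM
    rw [hkU] at this
    exact this
  exact h1.eq_of_mem hU hUW (Finset.smul_mem_smul_finset hy) hky

/-- Transitivity on sextets with marked points in three distinct tetrads. -/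
theorem move_three_points {S S' : Finset (Finset Cfsg.GolayPt)} (hS : S ∈ Cfsg.sextets)
    (hS' : S' ∈ Cfsg.sextets) {a b c : Cfsg.GolayPt}
    {U1 U2 U3 U1' U2' U3' : Finset Cfsg.GolayPt}
    (h1 : U1 ∈ S) (h2 : U2 ∈ S) (h3 : U3 ∈ S) (h12 : U1 ≠ U2) (h13 : U1 ≠ U3) (h23 : U2 ≠ U3)
    (ha : a ∈ U1) (hb : b ∈ U2) (hc : c ∈ U3)
    (h1' : U1' ∈ S') (h2' : U2' ∈ S') (h3' : U3' ∈ S') (h12' : U1' ≠ U2') (h13' : U1' ≠ U3')
    (h23' : U2' ≠ U3') (ha' : a ∈ U1') (hb' : b ∈ U2') (hc' : c ∈ U3') :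
    ∃ g ∈ Cfsg.M24, g a = a ∧ g b = b ∧ g c = c ∧ g • S = S' := by
  classical
  have hc1 := hS.2.1 U1 h1
  have hc1' := hS'.2.1 U1' h1'
  have hc2' := hS'.2.1 U2' h2'
  -- a fourth tetrad
  have hex : ∀ {S : Finset (Finset Cfsg.GolayPt)} (_ : S ∈ Cfsg.sextets)
      (U1 U2 U3 : Finset Cfsg.GolayPt), ∃ U4 ∈ S, U4 ≠ U1 ∧ U4 ≠ U2 ∧ U4 ≠ U3 := by
    intro S hS U1 U2 U3
    have hlt : ({U1, U2, U3} : Finset (Finset Cfsg.GolayPt)).card < S.card := by
      rw [hS.1]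
      exact lt_of_le_of_lt (Finset.card_le_three) (by norm_num)
    obtain ⟨U4, hU4, hU4n⟩ := Finset.exists_mem_notMem_of_card_lt_card hlt
    simp only [Finset.mem_insert, Finset.mem_singleton, not_or] at hU4n
    exact ⟨U4, hU4, hU4n.1, hU4n.2.1, hU4n.2.2⟩
  obtain ⟨U4, h4, h41, h42, h43⟩ := hex hS U1 U2 U3
  obtain ⟨U4', h4', h41', h42', h43'⟩ := hex hS' U1' U2' U3'
  obtain ⟨g1, hg1, hgU1, hgU2, hgU3, -⟩ := tets_transitive hc1 hc1'
    (sextet_isTetOf hS h1 h2 h12) (sextet_isTetOf hS h1 h3 h13) (sextet_isTetOf hS h1 h4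
      (Ne.symm h41)) h23 h42 h43
    (sextet_isTetOf hS' h1' h2' h12') (sextet_isTetOf hS' h1' h3' h13')
    (sextet_isTetOf hS' h1' h4' (Ne.symm h41')) h23' h42' h43'
  have hg1a : g1 a ∈ U1' := by rw [← hgU1]; exact Finset.smul_mem_smul_finset ha
  have hg1b : g1 b ∈ U2' := by rw [← hgU2]; exact Finset.smul_mem_smul_finset hb
  have hg1c : g1 c ∈ U3' := by rw [← hgU3]; exact Finset.smul_mem_smul_finset hc
  have t12 := sextet_isTetOf hS' h1' h2' h12'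
  have t13 := sextet_isTetOf hS' h1' h3' h13'
  have t23 := sextet_isTetOf hS' h2' h3' h23'
  have t21 := sextet_isTetOf hS' h2' h1' (Ne.symm h12')
  have hnot : ∀ {U V W : Finset Cfsg.GolayPt}, Disjoint U W → Disjoint V W → ∀ y ∈ W,
      y ∉ U ∪ V := by
    intro U V W hUW hVW y hy hmem
    rw [Finset.mem_union] at hmem
    rcases hmem with h | h
    · exact Finset.disjoint_left.mp hUW h hy
    · exact Finset.disjoint_left.mp hVW h hy
  -- adjust a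
  obtain ⟨k1, hk1, hk1a⟩ := Cfsg.Agent.S1554.pointwise_trans t23.2
    (hnot t21.1 (t13.1.symm) _ hg1a) (hnot t21.1 (t13.1.symm) _ ha')
  have hk1f := (mem_fixG.mp hk1).2
  -- adjust b
  obtain ⟨k2, hk2, hk2b⟩ := Cfsg.Agent.S1554.pointwise_trans t13.2
    (hnot t12.1 (t23.1.symm) _ hg1b) (hnot t12.1 (t23.1.symm) _ hb')
  have hk2f := (mem_fixG.mp hk2).2
  -- adjust c
  obtain ⟨k3, hk3, hk3c⟩ := Cfsg.Agent.S1554.pointwise_trans t12.2
    (hnot t13.1 t23.1 _ hg1c) (hnot t13.1 t23.1 _ hc')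
  have hk3f := (mem_fixG.mp hk3).2
  have hk1U1 : k1 • U1' = U1' := by
    have := fixG_smul_tet hc2' t23 t21 hk1 hg1a (by rw [hk1a]; exact ha')
    exact this
  have hk2U1 : k2 • U1' = U1' := smul_eq_of_fix (fun x hx =>
    hk2f x (Finset.mem_coe.mpr (Finset.mem_union_left _ hx)))
  have hk3U1 : k3 • U1' = U1' := smul_eq_of_fix (fun x hx =>
    hk3f x (Finset.mem_coe.mpr (Finset.mem_union_left _ hx)))
  refine ⟨k3 * k2 * k1 * g1, Cfsg.M24.mul_mem (Cfsg.M24.mul_mem (Cfsg.M24.mul_mem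
    (mem_fixG.mp hk3).1 (mem_fixG.mp hk2).1) (mem_fixG.mp hk1).1) hg1, ?_, ?_, ?_, ?_⟩
  · rw [Equiv.Perm.mul_apply, Equiv.Perm.mul_apply, Equiv.Perm.mul_apply, hk1a,
      hk2f a (Finset.mem_coe.mpr (Finset.mem_union_left _ ha')),
      hk3f a (Finset.mem_coe.mpr (Finset.mem_union_left _ ha'))]
  · rw [Equiv.Perm.mul_apply, Equiv.Perm.mul_apply, Equiv.Perm.mul_apply,
      hk1f _ (Finset.mem_coe.mpr (Finset.mem_union_left _ hg1b)), hk2b,
      hk3f b (Finset.mem_coe.mpr (Finset.mem_union_right _ hb'))]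
  · rw [Equiv.Perm.mul_apply, Equiv.Perm.mul_apply, Equiv.Perm.mul_apply,
      hk1f _ (Finset.mem_coe.mpr (Finset.mem_union_right _ hg1c)),
      hk2f _ (Finset.mem_coe.mpr (Finset.mem_union_right _ hg1c)), hk3c]
  · have hM : k3 * k2 * k1 * g1 ∈ Cfsg.M24 := Cfsg.M24.mul_mem (Cfsg.M24.mul_mem
      (Cfsg.M24.mul_mem (mem_fixG.mp hk3).1 (mem_fixG.mp hk2).1) (mem_fixG.mp hk1).1) hg1
    rw [sextet_eq_sextetOf hS h1, sextet_eq_sextetOf hS' h1', smul_sextetOf hM hc1,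
      mul_smul, mul_smul, mul_smul, hgU1, hk1U1, hk2U1, hk3U1]

end Cfsg.Agent.Lib.Helper93
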