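import Cfsg.Agent.Lib.Helper93.SextetY3
import Cfsg.Agent.Lib.Helper93.Steiner

set_option autoImplicit false

open scoped Pointwise

namespace Cfsg.Agent.Lib.Helper93

theorem sextet_type_two {S : Finset (Finset Cfsg.GolayPt)} (hS : S ∈ Cfsg.sextets)
    {Y : Finset Cfsg.GolayPt} (hY : Y.card = 3)
    (hN : (S.filter (fun t => (t ∩ Y).Nonempty)).card = 2) :
    ∃ a b c, Y = {a, b, c} ∧ a ≠ b ∧ a ≠ c ∧ b ≠ c ∧ ∃ t ∈ S, a ∈ t ∧ b ∈ t ∧ c ∉ t := by
  classical
  obtain ⟨t, ht, h2⟩ := (filter_card_eq_two_iff hS hY).mp hN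
  obtain ⟨a, b, hab, hI⟩ := Finset.card_eq_two.mp h2
  have ha : a ∈ t ∩ Y := hI ▸ Finset.mem_insert_self a {b}
  have hb : b ∈ t ∩ Y := hI ▸ Finset.mem_insert_of_mem (Finset.mem_singleton_self b)
  have h1 : (Y \ t).card = 1 := by
    have := Finset.card_sdiff_add_card_inter Y t
    rw [Finset.inter_comm, h2, hY] at this
    omega
  obtain ⟨c, hc⟩ := Finset.card_eq_one.mp h1
  have hcm : c ∈ Y \ t := hc ▸ Finset.mem_singleton_self c
  rw [Finset.mem_sdiff] at hcm
  rw [Finset.mem_inter] at ha hb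
  refine ⟨a, b, c, ?_, hab, ?_, ?_, t, ht, ha.1, hb.1, hcm.2⟩
  · ext y
    simp only [Finset.mem_insert, Finset.mem_singleton]
    constructor
    · intro hy
      by_cases hyt : y ∈ t
      · have : y ∈ t ∩ Y := Finset.mem_inter.mpr ⟨hyt, hy⟩
        rw [hI, Finset.mem_insert, Finset.mem_singleton] at this
        tauto
      · have : y ∈ Y \ t := Finset.mem_sdiff.mpr ⟨hy, hyt⟩
        rw [hc, Finset.mem_singleton] at this
        tauto
    · rintro (rfl | rfl | rfl)
      · exact ha.2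
      · exact hb.2
      · exact hcm.1
  · rintro rfl; exact hcm.2 ha.1
  · rintro rfl; exact hcm.2 hb.1

theorem sextet_type_three {S : Finset (Finset Cfsg.GolayPt)} (hS : S ∈ Cfsg.sextets)
    {a b c : Cfsg.GolayPt} (hab : a ≠ b) (hac : a ≠ c) (hbc : b ≠ c)
    (hN : (S.filter (fun t => (t ∩ ({a, b, c} : Finset Cfsg.GolayPt)).Nonempty)).card = 3) :
    ∃ U1 U2 U3, U1 ∈ S ∧ U2 ∈ S ∧ U3 ∈ S ∧ U1 ≠ U2 ∧ U1 ≠ U3 ∧ U2 ≠ U3 ∧
      a ∈ U1 ∧ b ∈ U2 ∧ c ∈ U3 := by
  classical
  have hY : ({a, b, c} : Finset Cfsg.GolayPt).card = 3 := Finset.card_eq_three.mpr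
    ⟨a, b, c, hab, hac, hbc, rfl⟩
  have hYne : ({a, b, c} : Finset Cfsg.GolayPt).Nonempty := ⟨a, Finset.mem_insert_self _ _⟩
  -- a tetrad containing two of the points is excluded
  have key : ∀ (x y z : Cfsg.GolayPt), ({a, b, c} : Finset Cfsg.GolayPt) = {x, y, z} → x ≠ y →
      ∀ U ∈ S, x ∈ U → y ∈ U → False := by
    intro x y z hxyz hxy U hU hxU hyU
    by_cases hzU : z ∈ U
    · have : (S.filter (fun t => (t ∩ ({a, b, c} : Finset Cfsg.GolayPt)).Nonempty)).card = 1 := by
        rw [filter_card_eq_one_iff hS hYne]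
        refine ⟨U, hU, ?_⟩
        rw [hxyz]
        intro w hw
        simp only [Finset.mem_insert, Finset.mem_singleton] at hw
        rcases hw with rfl | rfl | rfl
        · exact hxU
        · exact hyU
        · exact hzU
      omega
    · have : (S.filter (fun t => (t ∩ ({a, b, c} : Finset Cfsg.GolayPt)).Nonempty)).card = 2 := by
        rw [filter_card_eq_two_iff hS hY]
        refine ⟨U, hU, ?_⟩
        have : U ∩ ({a, b, c} : Finset Cfsg.GolayPt) = {x, y} := by
          rw [hxyz]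
          ext w
          simp only [Finset.mem_inter, Finset.mem_insert, Finset.mem_singleton]
          constructor
          · rintro ⟨hw, rfl | rfl | rfl⟩
            · exact Or.inl rfl
            · exact Or.inr rfl
            · exact absurd hw hzU
          · rintro (rfl | rfl)
            · exact ⟨hxU, Or.inl rfl⟩
            · exact ⟨hyU, Or.inr (Or.inl rfl)⟩
        rw [this, Finset.card_pair hxy]
      omega
  obtain ⟨U1, h1, ha⟩ := sextet_cover hS a
  obtain ⟨U2, h2, hb⟩ := sextet_cover hS b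
  obtain ⟨U3, h3, hc⟩ := sextet_cover hS c
  refine ⟨U1, U2, U3, h1, h2, h3, ?_, ?_, ?_, ha, hb, hc⟩
  · rintro rfl
    exact key a b c rfl hab U1 h1 ha hb
  · rintro rfl
    refine key a c b ?_ hac U1 h1 ha hc
    ext w; simp only [Finset.mem_insert, Finset.mem_singleton]; tauto
  · rintro rfl
    refine key b c a ?_ hbc U2 h2 hb hc
    ext w; simp only [Finset.mem_insert, Finset.mem_singleton]; tauto

/-- Sextets with the same number of tetrads meeting the triple `Y` are conjugate under the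
stabiliser of `Y`. -/
theorem sextet_triple_transitive {Y : Finset Cfsg.GolayPt} (hY : Y.card = 3)
    {S S' : Finset (Finset Cfsg.GolayPt)} (hS : S ∈ Cfsg.sextets) (hS' : S' ∈ Cfsg.sextets)
    (hN : (S.filter (fun t => (t ∩ Y).Nonempty)).card =
      (S'.filter (fun t => (t ∩ Y).Nonempty)).card) :
    ∃ g ∈ Cfsg.M24, g • Y = Y ∧ g • S = S' := by
  classical
  have hYne : Y.Nonempty := by rw [← Finset.card_pos, hY]; norm_num
  have hle := filter_card_le hS Y
  have hpos := filter_card_pos hS hYne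
  rw [hY] at hle
  have hcases : (S.filter (fun t => (t ∩ Y).Nonempty)).card = 1 ∨
      (S.filter (fun t => (t ∩ Y).Nonempty)).card = 2 ∨
      (S.filter (fun t => (t ∩ Y).Nonempty)).card = 3 := by omega
  rcases hcases with h | h | h
  · have h' := hN ▸ h
    obtain ⟨t, ht, hYt⟩ := (filter_card_eq_one_iff hS hYne).mp h
    obtain ⟨t', ht', hYt'⟩ := (filter_card_eq_one_iff hS' hYne).mp h'
    obtain ⟨g, hg, hgY, hgt⟩ := move_tetrad_superset hY (hS.2.1 t ht) (hS'.2.1 t' ht') hYt hYt'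
    refine ⟨g, hg, hgY, ?_⟩
    rw [sextet_eq_sextetOf hS ht, sextet_eq_sextetOf hS' ht', smul_sextetOf hg (hS.2.1 t ht), hgt]
  · have h' := hN ▸ h
    obtain ⟨a, b, c, rfl, hab, hac, hbc, t, ht, hat, hbt, hct⟩ := sextet_type_two hS hY h
    obtain ⟨a', b', c', hYY, hab', hac', hbc', t', ht', hat', hbt', hct'⟩ :=
      sextet_type_two hS' hY h'
    obtain ⟨g, hg, hgY, hgt⟩ := move_tetrad_two hab hac hbc hab' hac' hbc' hYY
      (hS.2.1 t ht) (hS'.2.1 t' ht') hat hbt hct hat' hbt' hct'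
    refine ⟨g, hg, hgY, ?_⟩
    rw [sextet_eq_sextetOf hS ht, sextet_eq_sextetOf hS' ht', smul_sextetOf hg (hS.2.1 t ht), hgt]
  · have h' := hN ▸ h
    obtain ⟨a, b, c, hab, hac, hbc, rfl⟩ := Finset.card_eq_three.mp hY
    obtain ⟨U1, U2, U3, h1, h2, h3, h12, h13, h23, ha, hb, hc⟩ :=
      sextet_type_three hS hab hac hbc h
    obtain ⟨U1', U2', U3', h1', h2', h3', h12', h13', h23', ha', hb', hc'⟩ :=
      sextet_type_three hS' hab hac hbc h'
    obtain ⟨g, hg, hga, hgb, hgc, hgS⟩ := move_three_points hS hS' h1 h2 h3 h12 h13 h23 ha hb hc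
      h1' h2' h3' h12' h13' h23' ha' hb' hc'
    refine ⟨g, hg, ?_, hgS⟩
    apply smul_eq_of_fix
    intro y hy
    simp only [Finset.mem_insert, Finset.mem_singleton] at hy
    rcases hy with rfl | rfl | rfl
    · exact hga
    · exact hgb
    · exact hgc

end Cfsg.Agent.Lib.Helper93
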