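import Cfsg.Agent.Lib.Helper93.SixSets

set_option autoImplicit false

open scoped Pointwise

namespace Cfsg.Agent.Lib.Helper93

theorem six_in_octad_card {E o : Finset Cfsg.GolayPt} (hE : E.card = 6) (ho : o ∈ Cfsg.octads)
    (hEo : E ⊆ o) :
    Nat.card {g : Equiv.Perm Cfsg.GolayPt // g ∈ Cfsg.M24 ∧ ∀ p ∈ E, g p = p} = 16 := by
  rw [← (Cfsg.Agent.Lib.Helper7.octad_pointwise o ho).1]
  apply Nat.card_congr
  exact {
    toFun := fun g => ⟨g.1, mem_fixG.mpr ⟨g.2.1, fun x hx =>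
      fix_octad_of_fix_six ho hEo hE g.2.1 g.2.2 x (Finset.mem_coe.mp hx)⟩⟩
    invFun := fun k => ⟨k.1, (mem_fixG.mp k.2).1, fun p hp =>
      (mem_fixG.mp k.2).2 p (Finset.mem_coe.mpr (hEo hp))⟩
    left_inv := fun _ => rfl
    right_inv := fun _ => rfl }

theorem six_in_octad_sym {E o : Finset Cfsg.GolayPt} (hE : E.card = 6) (ho : o ∈ Cfsg.octads)
    (hEo : E ⊆ o) (σ : Equiv.Perm ↥E) :
    ∃ g ∈ Cfsg.M24, ∀ p : ↥E, g p = σ p := by
  classical
  let f : ↥E ≃ {x : ↥o // (x : Cfsg.GolayPt) ∈ E} :=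
    { toFun := fun p => ⟨⟨p.1, hEo p.2⟩, p.2⟩
      invFun := fun x => ⟨x.1.1, x.2⟩
      left_inv := fun _ => rfl
      right_inv := fun _ => rfl }
  have hπ0 : ∀ p : ↥E, ((σ.extendDomain f ⟨p.1, hEo p.2⟩ : ↥o) : Cfsg.GolayPt) = σ p := by
    intro p
    have := Equiv.Perm.extendDomain_apply_image σ f p
    exact congrArg Subtype.val this
  have hsign0 : Equiv.Perm.sign (σ.extendDomain f) = Equiv.Perm.sign σ :=
    Equiv.Perm.sign_extendDomain σ f
  have h2 : (o \ E).card = 2 := by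
    rw [Finset.card_sdiff_of_subset hEo, ho.2, hE]
  obtain ⟨a, b, hab, hI⟩ := Finset.card_eq_two.mp h2
  have ha : a ∈ o \ E := hI ▸ Finset.mem_insert_self a {b}
  have hb : b ∈ o \ E := hI ▸ Finset.mem_insert_of_mem (Finset.mem_singleton_self b)
  have hao := (Finset.mem_sdiff.mp ha).1
  have hbo := (Finset.mem_sdiff.mp hb).1
  have hab' : (⟨a, hao⟩ : ↥o) ≠ ⟨b, hbo⟩ := fun h => hab (congrArg Subtype.val h)
  obtain ⟨π, hπsign, hπ⟩ : ∃ π : Equiv.Perm ↥o, Equiv.Perm.sign π = 1 ∧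
      ∀ p : ↥E, ((π ⟨p.1, hEo p.2⟩ : ↥o) : Cfsg.GolayPt) = σ p := by
    rcases Int.units_eq_one_or (Equiv.Perm.sign σ) with hs | hs
    · exact ⟨σ.extendDomain f, by rw [hsign0, hs], hπ0⟩
    · refine ⟨σ.extendDomain f * Equiv.swap ⟨a, hao⟩ ⟨b, hbo⟩, ?_, ?_⟩
      · rw [Equiv.Perm.sign_mul, hsign0, hs, Equiv.Perm.sign_swap hab']
        rfl
      · intro p
        rw [Equiv.Perm.mul_apply, Equiv.swap_apply_of_ne_of_ne]
        · exact hπ0 p
        · intro h
          have h' : (p : Cfsg.GolayPt) = a := congrArg Subtype.val h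
          exact (Finset.mem_sdiff.mp ha).2 (by rw [← h']; exact p.2)
        · intro h
          have h' : (p : Cfsg.GolayPt) = b := congrArg Subtype.val h
          exact (Finset.mem_sdiff.mp hb).2 (by rw [← h']; exact p.2)
  have hmem : π ∈ (Cfsg.Agent.S1553.resHom o).range := by
    rw [Cfsg.Agent.S1553.range_resHom o ho, Equiv.Perm.mem_alternatingGroup]
    exact hπsign
  obtain ⟨g', hg'⟩ := hmem
  refine ⟨g'.1, g'.2.1, fun p => ?_⟩
  rw [← hπ p, ← hg']
  rfl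

theorem six_not_in_octad {E : Finset Cfsg.GolayPt} (hE : E.card = 6)
    (hno : ¬ ∃ o ∈ Cfsg.octads, E ⊆ o) :
    (∀ σ : Equiv.Perm ↥E, ∃ g ∈ Cfsg.M24, ∀ p : ↥E, g p = σ p) ∧
    Nat.card {g : Equiv.Perm Cfsg.GolayPt // g ∈ Cfsg.M24 ∧ ∀ p ∈ E, g p = p} = 3 := by
  classical
  obtain ⟨q, hq⟩ : E.Nonempty := by rw [← Finset.card_pos, hE]; norm_num
  have hFcard : (E.erase q).card = 5 := by rw [Finset.card_erase_of_mem hq, hE]
  have hFsub : E.erase q ⊆ E := Finset.erase_subset _ _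
  let e : Fin 5 ≃ ↥(E.erase q) := (Finset.equivFinOfCardEq hFcard).symm
  let x : Fin 5 ↪ Cfsg.GolayPt := e.toEmbedding.trans (Function.Embedding.subtype _)
  have hxF : ∀ i, x i ∈ E.erase q := fun i => (e i).2
  have hxE : ∀ i, x i ∈ E := fun i => hFsub (hxF i)
  have hxsurj : ∀ p ∈ E, p = q ∨ ∃ i, x i = p := by
    intro p hp
    by_cases hpq : p = q
    · exact Or.inl hpq
    · right
      have hpF : p ∈ E.erase q := Finset.mem_erase.mpr ⟨hpq, hp⟩
      exact ⟨e.symm ⟨p, hpF⟩, by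
        show ((e (e.symm ⟨p, hpF⟩) : ↥(E.erase q)) : Cfsg.GolayPt) = p
        simp⟩
  obtain ⟨A, hA, hFA⟩ := octad_exists hFcard
  have hxA : ∀ i, x i ∈ A := fun i => hFA (hxF i)
  have hqA : q ∉ A := by
    intro h
    apply hno
    refine ⟨A, hA, fun p hp => ?_⟩
    rcases hxsurj p hp with rfl | ⟨i, rfl⟩
    · exact h
    · exact hxA i
  refine ⟨?_, ?_⟩
  · intro σ
    let x' : Fin 5 ↪ Cfsg.GolayPt :=
      ⟨fun i => ((σ ⟨x i, hxE i⟩ : ↥E) : Cfsg.GolayPt), by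
        intro i j hij
        have h1 : σ ⟨x i, hxE i⟩ = σ ⟨x j, hxE j⟩ := Subtype.ext hij
        have h2 := σ.injective h1
        have h3 : x i = x j := congrArg (fun y : ↥E => (y : Cfsg.GolayPt)) h2
        exact x.injective h3⟩
    have hx'card : (Finset.univ.map x').card = 5 := by
      rw [Finset.card_map, Finset.card_univ, Fintype.card_fin]
    obtain ⟨A', hA', hFA'⟩ := octad_exists hx'card
    have hx'A : ∀ i, x' i ∈ A' := fun i =>
      hFA' (Finset.mem_map.mpr ⟨i, Finset.mem_univ _, rfl⟩)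
    have hq'A : ((σ ⟨q, hq⟩ : ↥E) : Cfsg.GolayPt) ∉ A' := by
      intro h
      apply hno
      refine ⟨A', hA', fun p hp => ?_⟩
      have hp' : (σ (σ⁻¹ ⟨p, hp⟩) : ↥E) = ⟨p, hp⟩ := by simp
      rcases hxsurj _ (σ⁻¹ ⟨p, hp⟩).2 with h1 | ⟨i, hi⟩
      · have h2 : σ⁻¹ ⟨p, hp⟩ = ⟨q, hq⟩ := Subtype.ext h1
        rw [h2] at hp'
        have h3 : ((σ ⟨q, hq⟩ : ↥E) : Cfsg.GolayPt) = p := congrArg Subtype.val hp'
        rw [← h3]
        exact h
      · have h2 : σ⁻¹ ⟨p, hp⟩ = ⟨x i, hxE i⟩ := Subtype.ext hi.symm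
        rw [h2] at hp'
        have h3 : ((σ ⟨x i, hxE i⟩ : ↥E) : Cfsg.GolayPt) = p := congrArg Subtype.val hp'
        rw [← h3]
        exact hx'A i
    obtain ⟨g, hg, hgx, hgq⟩ := almost_six_transitive hA hA' x x' hxA hx'A hqA hq'A
    refine ⟨g, hg, fun p => ?_⟩
    rcases hxsurj p.1 p.2 with h1 | ⟨i, hi⟩
    · have h2 : p = ⟨q, hq⟩ := Subtype.ext h1
      rw [h2]
      exact hgq
    · have h2 : p = ⟨x i, hxE i⟩ := Subtype.ext hi.symm
      rw [h2]
      exact hgx i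
  · rw [← card_fix_five_one hA x hxA hqA]
    apply Nat.card_congr
    exact {
      toFun := fun g => ⟨g.1, mem_fixG.mpr ⟨g.2.1, by
        rintro z ⟨i, rfl⟩
        exact g.2.2 (x i) (hxE i)⟩, g.2.2 q hq⟩
      invFun := fun k => ⟨k.1, (mem_fixG.mp k.2.1).1, fun p hp => by
        rcases hxsurj p hp with rfl | ⟨i, rfl⟩
        · exact k.2.2
        · exact (mem_fixG.mp k.2.1).2 _ (Set.mem_range_self i)⟩
      left_inv := fun _ => rfl
      right_inv := fun _ => rfl }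

theorem six_stab_card {E : Finset Cfsg.GolayPt} (hE : E.card = 6)
    (hno : ¬ ∃ o ∈ Cfsg.octads, E ⊆ o) :
    Nat.card ↥(MulAction.stabilizer Cfsg.M24 E) = 2160 := by
  classical
  obtain ⟨hsym, h3⟩ := six_not_in_octad hE hno
  have hstab : ∀ g : ↥(MulAction.stabilizer Cfsg.M24 E),
      (g.1.1 : Equiv.Perm Cfsg.GolayPt) • E = E := fun g => g.2
  let ψ : ↥(MulAction.stabilizer Cfsg.M24 E) →* Equiv.Perm ↥E :=
    { toFun := fun g => (g.1.1 : Equiv.Perm Cfsg.GolayPt).subtypePerm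
        (Cfsg.Agent.S1553.mem_iff_of_smul (hstab g))
      map_one' := by
        apply Equiv.ext
        intro x
        rfl
      map_mul' := fun a b => by
        apply Equiv.ext
        intro x
        rfl }
  have hψ : ∀ g p, ((ψ g p : ↥E) : Cfsg.GolayPt) = (g.1.1 : Equiv.Perm Cfsg.GolayPt) p :=
    fun _ _ => rfl
  have hsurj : Function.Surjective ψ := by
    intro σ
    obtain ⟨g, hg, hgσ⟩ := hsym σ
    have hgE : g • E = E := by
      apply Finset.eq_of_subset_of_card_le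
      · intro y hy
        obtain ⟨z, hz, rfl⟩ := Finset.mem_smul_finset.mp hy
        rw [Equiv.Perm.smul_def]
        have := hgσ ⟨z, hz⟩
        rw [this]
        exact (σ ⟨z, hz⟩).2
      · rw [Finset.card_smul_finset]
    refine ⟨⟨⟨g, hg⟩, hgE⟩, ?_⟩
    apply Equiv.ext
    intro p
    apply Subtype.ext
    rw [hψ]
    exact hgσ p
  have hker : Nat.card ↥ψ.ker = 3 := by
    rw [← h3]
    apply Nat.card_congr
    exact {
      toFun := fun k => ⟨k.1.1.1, k.1.1.2, fun p hp => by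
        have h1 : ψ k.1 = 1 := k.2
        have h2 := hψ k.1 ⟨p, hp⟩
        rw [h1] at h2
        exact h2.symm⟩
      invFun := fun g => ⟨⟨⟨g.1, g.2.1⟩, smul_eq_of_fix g.2.2⟩, by
        rw [MonoidHom.mem_ker]
        apply Equiv.ext
        intro p
        apply Subtype.ext
        rw [hψ]
        exact g.2.2 p.1 p.2⟩
      left_inv := fun _ => rfl
      right_inv := fun _ => rfl }
  have h1 := Subgroup.card_mul_index ψ.ker
  rw [Subgroup.index_ker, MonoidHom.range_eq_top.mpr hsurj, Subgroup.card_top, hker] at h1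
  have h720 : Nat.card (Equiv.Perm ↥E) = 720 := by
    rw [Nat.card_eq_fintype_card, Fintype.card_perm, Fintype.card_coe, hE]
    rfl
  rw [h720] at h1
  omega

end Cfsg.Agent.Lib.Helper93
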