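import Mathlib
import Cfsg.Prelude.Def_Sporadic_a
import Cfsg.Agent.Lib.Helper93.Steiner24

set_option autoImplicit false

namespace Cfsg.Agent.Lib.Helper93

open Finset

variable {α : Type*} [DecidableEq α]

/-- Recursion for the number of blocks meeting `b` exactly in `s`: the blocks containing `s`
are split according to their exact intersection `W ⊇ s` with `b`. -/
theorem exact_inter_rec (Bf : Finset (Finset α)) (b s : Finset α) (hsb : s ⊆ b) (ν : ℕ → ℕ)
    (hν : ∀ W, W ⊆ b → s.card < W.card → (Bf.filter (fun c => c ∩ b = W)).card = ν W.card) :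
    (Bf.filter (fun c => s ⊆ c)).card = (Bf.filter (fun c => c ∩ b = s)).card +
      ∑ i ∈ Ioc s.card b.card, (b.card - s.card).choose (i - s.card) * ν i := by
  set P : Finset (Finset α) := (powerset b).filter (fun W => s ⊆ W) with hP
  have h1 : (Bf.filter (fun c => s ⊆ c)).card = ∑ W ∈ P, (Bf.filter (fun c => c ∩ b = W)).card := by
    rw [Finset.card_eq_sum_card_fiberwise (f := fun c => c ∩ b) (t := P)]
    · apply Finset.sum_congr rfl
      intro W hW
      congr 1
      ext c
      simp only [mem_filter]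
      constructor
      · rintro ⟨⟨hc, _⟩, h⟩; exact ⟨hc, h⟩
      · rintro ⟨hc, h⟩
        refine ⟨⟨hc, ?_⟩, h⟩
        have hsW : s ⊆ W := (mem_filter.mp hW).2
        rw [← h] at hsW
        exact hsW.trans inter_subset_left
    · intro c hc
      simp only [coe_filter, Set.mem_ofPred_eq] at hc
      simp only [hP, coe_filter, mem_powerset, Set.mem_ofPred_eq]
      exact ⟨inter_subset_right, subset_inter hc.2 hsb⟩
  have hsP : s ∈ P := by simp [hP, hsb]
  rw [h1, ← Finset.add_sum_erase P _ hsP]
  congr 1
  have h2 : ∀ W ∈ P.erase s, (Bf.filter (fun c => c ∩ b = W)).card = ν W.card := by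
    intro W hW
    rw [mem_erase, hP, mem_filter, mem_powerset] at hW
    apply hν W hW.2.1
    apply Finset.card_lt_card
    exact lt_of_le_of_ne hW.2.2 (Ne.symm hW.1)
  rw [Finset.sum_congr rfl h2]
  rw [← Finset.sum_fiberwise_of_maps_to (g := fun W : Finset α => W.card) (t := Ioc s.card b.card)]
  · apply Finset.sum_congr rfl
    intro i hi
    rw [mem_Ioc] at hi
    have h3 : ∀ W ∈ (P.erase s).filter (fun W => W.card = i), ν W.card = ν i := by
      intro W hW; rw [(mem_filter.mp hW).2]
    rw [Finset.sum_congr rfl h3, Finset.sum_const, smul_eq_mul]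
    congr 1
    rw [← card_powersetCard_filter_superset b s hsb i (by omega)]
    congr 1
    ext W
    simp only [hP, mem_filter, mem_erase, mem_powerset, mem_powersetCard]
    constructor
    · rintro ⟨⟨_, hWb, hsW⟩, hc⟩; exact ⟨⟨hWb, hc⟩, hsW⟩
    · rintro ⟨⟨hWb, hc⟩, hsW⟩
      refine ⟨⟨?_, hWb, hsW⟩, hc⟩
      rintro rfl
      omega
  · intro W hW
    rw [mem_erase, hP, mem_filter, mem_powerset] at hW
    rw [mem_Ioc]
    constructor
    · apply Finset.card_lt_card
      exact lt_of_le_of_ne hW.2.2 (Ne.symm hW.1)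
    · exact Finset.card_le_card hW.2.1

end Cfsg.Agent.Lib.Helper93
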