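import Mathlib
import Cfsg.Prelude.Def_GeometricClasses

set_option autoImplicit false

namespace Cfsg.Agent.Lib.Helper93

open Matrix
open scoped Kronecker MatrixGroups

/-- Extended centralizer: the elements conjugating `x` to `x` or `x⁻¹`. -/
def extCent {G : Type*} [Group G] (x : G) : Subgroup G where
  carrier := {g | g * x * g⁻¹ = x ∨ g * x * g⁻¹ = x⁻¹}
  one_mem' := Or.inl (by simp)
  mul_mem' := by
    intro g h hg hh
    have e : ∀ y : G, g * h * y * (g * h)⁻¹ = g * (h * y * h⁻¹) * g⁻¹ := by intro y; group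
    have e' : g * x⁻¹ * g⁻¹ = (g * x * g⁻¹)⁻¹ := by group
    show g * h * x * (g * h)⁻¹ = x ∨ g * h * x * (g * h)⁻¹ = x⁻¹
    rw [e]
    rcases hh with hh | hh <;> rcases hg with hg | hg
    · left; rw [hh, hg]
    · right; rw [hh, hg]
    · right; rw [hh, e', hg]
    · left; rw [hh, e', hg, inv_inv]
  inv_mem' := by
    intro g hg
    show g⁻¹ * x * g⁻¹⁻¹ = x ∨ g⁻¹ * x * g⁻¹⁻¹ = x⁻¹
    rcases hg with hg | hg
    · left
      calc g⁻¹ * x * g⁻¹⁻¹ = g⁻¹ * (g * x * g⁻¹) * g := by rw [hg, inv_inv]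
        _ = x := by group
    · right
      have h1 : g * x⁻¹ * g⁻¹ = x := by
        have : g * x⁻¹ * g⁻¹ = (g * x * g⁻¹)⁻¹ := by group
        rw [this, hg, inv_inv]
      calc g⁻¹ * x * g⁻¹⁻¹ = g⁻¹ * (g * x⁻¹ * g⁻¹) * g := by rw [h1, inv_inv]
        _ = x⁻¹ := by group

theorem mem_extCent_iff {G : Type*} [Group G] (x g : G) :
    g ∈ extCent x ↔ g * x = x * g ∨ g * x = x⁻¹ * g := by
  show (g * x * g⁻¹ = x ∨ g * x * g⁻¹ = x⁻¹) ↔ _
  rw [mul_inv_eq_iff_eq_mul, mul_inv_eq_iff_eq_mul]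

theorem one_add_mul_one_sub {R : Type*} [Ring R] {N : R} (h : N * N = 0) :
    (1 + N) * (1 - N) = 1 := by
  have : (1 + N) * (1 - N) = 1 - N * N := by noncomm_ring
  rw [this, h, sub_zero]

theorem one_sub_mul_one_add {R : Type*} [Ring R] {N : R} (h : N * N = 0) :
    (1 - N) * (1 + N) = 1 := by
  have : (1 - N) * (1 + N) = 1 - N * N := by noncomm_ring
  rw [this, h, sub_zero]

variable {F : Type*} [Field F]

/-- An element of order 3 in `GL₂`. -/
def omegaM (F : Type*) [Field F] : Matrix (Fin 2) (Fin 2) F := !![0, 1; -1, -1]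

/-- Its inverse. -/
def omegaM' (F : Type*) [Field F] : Matrix (Fin 2) (Fin 2) F := !![-1, -1; 1, 0]

theorem omegaM_mul : omegaM F * omegaM' F = 1 := by
  ext i j; fin_cases i <;> fin_cases j <;> simp [omegaM, omegaM', Matrix.mul_apply, Fin.sum_univ_two]

theorem omegaM'_mul : omegaM' F * omegaM F = 1 := by
  ext i j; fin_cases i <;> fin_cases j <;> simp [omegaM, omegaM', Matrix.mul_apply, Fin.sum_univ_two]

/-- `ω ⊗ 1` as an element of `GL`. -/
def OmegaG (F : Type*) [Field F] (n₂ : ℕ) : GL (Fin 2 × Fin n₂) F :=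
  ⟨omegaM F ⊗ₖ (1 : Matrix (Fin n₂) (Fin n₂) F), omegaM' F ⊗ₖ (1 : Matrix (Fin n₂) (Fin n₂) F),
    by rw [← Matrix.mul_kronecker_mul, omegaM_mul, Matrix.one_mul, Matrix.one_kronecker_one],
    by rw [← Matrix.mul_kronecker_mul, omegaM'_mul, Matrix.one_mul, Matrix.one_kronecker_one]⟩

theorem card_two_cases [Fintype F] (hF : Fintype.card F = 2) (x : F) : x = 0 ∨ x = 1 := by
  classical
  by_contra hx
  push Not at hx
  have h3 : ({0, 1, x} : Finset F).card ≤ Fintype.card F := Finset.card_le_univ _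
  rw [Finset.card_insert_of_notMem, Finset.card_insert_of_notMem, Finset.card_singleton] at h3
  · omega
  · simp [Ne.symm hx.2]
  · simp [Ne.symm hx.1]

theorem card_two_add [Fintype F] (hF : Fintype.card F = 2) : (1 : F) + 1 = 0 := by
  rcases card_two_cases hF ((1 : F) + 1) with h | h
  · exact h
  · exfalso
    have : (1 : F) = 0 := by
      have h' : (1 : F) + 1 = 1 + 0 := by rw [h, add_zero]
      exact add_left_cancel h'
    exact one_ne_zero this

theorem card_two_neg [Fintype F] (hF : Fintype.card F = 2) : (-1 : F) = 1 := by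
  have := card_two_add hF
  exact neg_eq_of_add_eq_zero_left this

theorem two_by_two [Fintype F] (hF : Fintype.card F = 2) (A : Matrix (Fin 2) (Fin 2) F)
    (hA : A.det ≠ 0) : A * omegaM F = omegaM F * A ∨ A * omegaM F = omegaM' F * A := by
  have h2 := card_two_add hF
  have hn := card_two_neg hF
  rw [Matrix.det_fin_two] at hA
  rcases card_two_cases hF (A 0 0) with h00 | h00 <;>
  rcases card_two_cases hF (A 0 1) with h01 | h01 <;>
  rcases card_two_cases hF (A 1 0) with h10 | h10 <;>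
  rcases card_two_cases hF (A 1 1) with h11 | h11 <;>
  first
  | (exfalso; apply hA; simp [h00, h01, h10, h11]; done)
  | (left; ext i j; fin_cases i <;> fin_cases j <;>
      simp [omegaM, Matrix.mul_apply, Fin.sum_univ_two, h00, h01, h10, h11, hn, h2]; done)
  | (right; ext i j; fin_cases i <;> fin_cases j <;>
      simp [omegaM, omegaM', Matrix.mul_apply, Fin.sum_univ_two, h00, h01, h10, h11, hn, h2])

theorem kron_le_extCent [Fintype F] (hF : Fintype.card F = 2) (n₂ : ℕ) :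
    Cfsg.Geo.kroneckerSubgroup 2 n₂ F ≤ extCent (OmegaG F n₂) := by
  rintro g ⟨a, b, hg⟩
  rw [mem_extCent_iff]
  have hdet : (a : Matrix (Fin 2) (Fin 2) F).det ≠ 0 := by
    have := (Matrix.isUnits_det_units a)
    exact this.ne_zero
  rcases two_by_two hF (a : Matrix (Fin 2) (Fin 2) F) hdet with h | h
  · left
    apply Units.ext
    show (g : Matrix (Fin 2 × Fin n₂) (Fin 2 × Fin n₂) F) * (omegaM F ⊗ₖ 1) =
      (omegaM F ⊗ₖ 1) * (g : Matrix (Fin 2 × Fin n₂) (Fin 2 × Fin n₂) F)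
    rw [hg, ← Matrix.mul_kronecker_mul, ← Matrix.mul_kronecker_mul, h, Matrix.mul_one, Matrix.one_mul]
  · right
    apply Units.ext
    show (g : Matrix (Fin 2 × Fin n₂) (Fin 2 × Fin n₂) F) * (omegaM F ⊗ₖ 1) =
      (omegaM' F ⊗ₖ 1) * (g : Matrix (Fin 2 × Fin n₂) (Fin 2 × Fin n₂) F)
    rw [hg, ← Matrix.mul_kronecker_mul, ← Matrix.mul_kronecker_mul, h, Matrix.mul_one, Matrix.one_mul]

/-- An `F₄`-linear transvection that is not a Kronecker product. -/
def cElt (F : Type*) [Field F] {n₂ : ℕ} (k l : Fin n₂) (hkl : k ≠ l) : GL (Fin 2 × Fin n₂) F :=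
  ⟨1 + omegaM F ⊗ₖ Matrix.single k l (1 : F), 1 - omegaM F ⊗ₖ Matrix.single k l (1 : F),
    by
      have h0 : (omegaM F ⊗ₖ Matrix.single k l (1 : F)) * (omegaM F ⊗ₖ Matrix.single k l (1 : F)) = 0 := by
        rw [← Matrix.mul_kronecker_mul, Matrix.single_mul_single_of_ne (c := (1 : F)) k l k hkl.symm (1 : F),
          Matrix.kronecker_zero]
      exact one_add_mul_one_sub h0,
    by
      have h0 : (omegaM F ⊗ₖ Matrix.single k l (1 : F)) * (omegaM F ⊗ₖ Matrix.single k l (1 : F)) = 0 := by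
        rw [← Matrix.mul_kronecker_mul, Matrix.single_mul_single_of_ne (c := (1 : F)) k l k hkl.symm (1 : F),
          Matrix.kronecker_zero]
      exact one_sub_mul_one_add h0⟩

theorem cElt_mem (F : Type*) [Field F] {n₂ : ℕ} (k l : Fin n₂) (hkl : k ≠ l) :
    cElt F k l hkl ∈ extCent (OmegaG F n₂) := by
  rw [mem_extCent_iff]
  left
  apply Units.ext
  show (1 + omegaM F ⊗ₖ Matrix.single k l (1 : F)) * (omegaM F ⊗ₖ 1) =
    (omegaM F ⊗ₖ 1) * (1 + omegaM F ⊗ₖ Matrix.single k l (1 : F))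
  rw [add_mul, mul_add, one_mul, mul_one, ← Matrix.mul_kronecker_mul, ← Matrix.mul_kronecker_mul,
    Matrix.mul_one, Matrix.one_mul]

theorem cElt_not_mem (F : Type*) [Field F] {n₂ : ℕ} (k l : Fin n₂) (hkl : k ≠ l) :
    cElt F k l hkl ∉ Cfsg.Geo.kroneckerSubgroup 2 n₂ F := by
  rintro ⟨a, b, hg⟩
  have hc : ∀ (i j : Fin 2) (k' l' : Fin n₂),
      ((1 : Matrix (Fin 2 × Fin n₂) (Fin 2 × Fin n₂) F) + omegaM F ⊗ₖ Matrix.single k l (1 : F)) (i, k') (j, l')
        = (a : Matrix _ _ F) i j * (b : Matrix _ _ F) k' l' := by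
    intro i j k' l'
    have : ((cElt F k l hkl : GL (Fin 2 × Fin n₂) F) : Matrix _ _ F) (i, k') (j, l')
        = ((a : Matrix _ _ F) ⊗ₖ (b : Matrix _ _ F)) (i, k') (j, l') := by rw [hg]
    exact this
  have h1 := hc 0 0 k k
  have h2 := hc 0 1 k k
  have h3 := hc 0 1 k l
  simp [omegaM, hkl, hkl.symm] at h1 h2 h3
  rcases h2 with h2 | h2
  · rw [h2] at h3; simp at h3
  · rw [h2] at h1; simp at h1

/-- A transvection that is not semilinear over `F₄`. -/
def tElt (F : Type*) [Field F] {n₂ : ℕ} (k : Fin n₂) : GL (Fin 2 × Fin n₂) F :=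
  ⟨1 + Matrix.single ((0 : Fin 2), k) ((1 : Fin 2), k) (1 : F),
   1 - Matrix.single ((0 : Fin 2), k) ((1 : Fin 2), k) (1 : F),
    by
      have hne : ((1 : Fin 2), k) ≠ ((0 : Fin 2), k) := by simp
      have h0 : Matrix.single ((0 : Fin 2), k) ((1 : Fin 2), k) (1 : F) *
          Matrix.single ((0 : Fin 2), k) ((1 : Fin 2), k) (1 : F) = 0 :=
        Matrix.single_mul_single_of_ne (c := (1 : F)) _ _ _ hne (1 : F)
      exact one_add_mul_one_sub h0,
    by
      have hne : ((1 : Fin 2), k) ≠ ((0 : Fin 2), k) := by simp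
      have h0 : Matrix.single ((0 : Fin 2), k) ((1 : Fin 2), k) (1 : F) *
          Matrix.single ((0 : Fin 2), k) ((1 : Fin 2), k) (1 : F) = 0 :=
        Matrix.single_mul_single_of_ne (c := (1 : F)) _ _ _ hne (1 : F)
      exact one_sub_mul_one_add h0⟩

theorem tElt_not_mem (F : Type*) [Field F] {n₂ : ℕ} (k l : Fin n₂) (hkl : k ≠ l) :
    tElt F k ∉ extCent (OmegaG F n₂) := by
  rw [mem_extCent_iff]
  rintro (h | h)
  · have h1 : (((1 + Matrix.single ((0 : Fin 2), k) ((1 : Fin 2), k) (1 : F)) * (omegaM F ⊗ₖ 1) :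
          Matrix (Fin 2 × Fin n₂) (Fin 2 × Fin n₂) F))
        ((0 : Fin 2), k) ((0 : Fin 2), k) =
        (((omegaM F ⊗ₖ 1) * (1 + Matrix.single ((0 : Fin 2), k) ((1 : Fin 2), k) (1 : F)) :
          Matrix (Fin 2 × Fin n₂) (Fin 2 × Fin n₂) F))
        ((0 : Fin 2), k) ((0 : Fin 2), k) := by
      have := congrArg (fun u : GL (Fin 2 × Fin n₂) F => (u : Matrix (Fin 2 × Fin n₂) (Fin 2 × Fin n₂) F)) h
      exact congrFun (congrFun this _) _
    rw [add_mul, mul_add, one_mul, mul_one, Matrix.add_apply, Matrix.add_apply,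
      Matrix.single_mul_apply_same, Matrix.mul_single_apply_of_ne] at h1
    · simp [omegaM] at h1
    · simp
  · have h1 : (((1 + Matrix.single ((0 : Fin 2), k) ((1 : Fin 2), k) (1 : F)) * (omegaM F ⊗ₖ 1) :
          Matrix (Fin 2 × Fin n₂) (Fin 2 × Fin n₂) F))
        ((0 : Fin 2), l) ((0 : Fin 2), l) =
        (((omegaM' F ⊗ₖ 1) * (1 + Matrix.single ((0 : Fin 2), k) ((1 : Fin 2), k) (1 : F)) :
          Matrix (Fin 2 × Fin n₂) (Fin 2 × Fin n₂) F))
        ((0 : Fin 2), l) ((0 : Fin 2), l) := by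
      have := congrArg (fun u : GL (Fin 2 × Fin n₂) F => (u : Matrix (Fin 2 × Fin n₂) (Fin 2 × Fin n₂) F)) h
      exact congrFun (congrFun this _) _
    rw [add_mul, mul_add, one_mul, mul_one, Matrix.add_apply, Matrix.add_apply,
      Matrix.single_mul_apply_of_ne, Matrix.mul_single_apply_of_ne] at h1
    · simp [omegaM, omegaM'] at h1
    · simp
    · simp [hkl.symm]

end Cfsg.Agent.Lib.Helper93
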