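import Cfsg.Agent.Lib.Helper93.OctPairS6
import Cfsg.Agent.Lib.Helper26.M24Trans

set_option autoImplicit false

open scoped Pointwise

namespace Cfsg.Agent.Lib.Helper93

/-- `Y` is a tetrad, other than `T` itself, of the sextet of the tetrad `T`. -/
def IsTetOf (T Y : Finset Cfsg.GolayPt) : Prop := Disjoint T Y ∧ T ∪ Y ∈ Cfsg.octads

theorem IsTetOf.card {T Y : Finset Cfsg.GolayPt} (hT : T.card = 4) (h : IsTetOf T Y) :
    Y.card = 4 := by
  have := Finset.card_union_of_disjoint h.1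
  rw [octad_card h.2, hT] at this
  omega

theorem IsTetOf.nonempty {T Y : Finset Cfsg.GolayPt} (hT : T.card = 4) (h : IsTetOf T Y) :
    Y.Nonempty := by
  rw [← Finset.card_pos, h.card hT]; norm_num

theorem IsTetOf.eq_of_mem {T Y Y' : Finset Cfsg.GolayPt} (hT : T.card = 4) (h : IsTetOf T Y)
    (h' : IsTetOf T Y') {x : Cfsg.GolayPt} (hx : x ∈ Y) (hx' : x ∈ Y') : Y = Y' := by
  classical
  have hxT : x ∉ T := fun hxT => Finset.disjoint_left.mp h.1 hxT hx
  have heq : T ∪ Y = T ∪ Y' := by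
    apply octad_eq_of_inter_ge h.2 h'.2
    have hsub : insert x T ⊆ (T ∪ Y) ∩ (T ∪ Y') := by
      intro y hy
      rw [Finset.mem_insert] at hy
      rw [Finset.mem_inter, Finset.mem_union, Finset.mem_union]
      rcases hy with rfl | hy
      · exact ⟨Or.inr hx, Or.inr hx'⟩
      · exact ⟨Or.inl hy, Or.inl hy⟩
    have := Finset.card_le_card hsub
    rw [Finset.card_insert_of_notMem hxT, hT] at this
    exact this
  rw [← Finset.union_sdiff_cancel_left h.1, heq, Finset.union_sdiff_cancel_left h'.1]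

theorem IsTetOf.disjoint {T Y Y' : Finset Cfsg.GolayPt} (hT : T.card = 4) (h : IsTetOf T Y)
    (h' : IsTetOf T Y') (hne : Y ≠ Y') : Disjoint Y Y' := by
  rw [Finset.disjoint_left]
  intro x hx hx'
  exact hne (h.eq_of_mem hT h' hx hx')

theorem exists_tetOf {T : Finset Cfsg.GolayPt} (hT : T.card = 4) {x : Cfsg.GolayPt}
    (hx : x ∉ T) : ∃ Y, IsTetOf T Y ∧ x ∈ Y := by
  classical
  obtain ⟨o, ho, hso⟩ := octad_exists (s := insert x T)
    (by rw [Finset.card_insert_of_notMem hx, hT])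
  have hTo : T ⊆ o := fun y hy => hso (Finset.mem_insert_of_mem hy)
  refine ⟨o \ T, ⟨Finset.disjoint_sdiff, ?_⟩, ?_⟩
  · rw [Finset.union_sdiff_of_subset hTo]; exact ho
  · exact Finset.mem_sdiff.mpr ⟨hso (Finset.mem_insert_self _ _), hx⟩

theorem IsTetOf.smul {T Y : Finset Cfsg.GolayPt} {g : Equiv.Perm Cfsg.GolayPt}
    (hg : g ∈ Cfsg.M24) (h : IsTetOf T Y) : IsTetOf (g • T) (g • Y) := by
  classical
  refine ⟨?_, ?_⟩
  · rw [Finset.disjoint_iff_inter_eq_empty, ← Finset.smul_finset_inter,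
      Finset.disjoint_iff_inter_eq_empty.mp h.1, Finset.smul_finset_empty]
  · rw [← Finset.smul_finset_union]
    exact Cfsg.Agent.Lib.Helper7.smul_mem_octads hg h.2

/-- A tetrad has at most five companions in its sextet. -/
theorem not_six_tets {T : Finset Cfsg.GolayPt} (hT : T.card = 4)
    (f : Fin 6 → Finset Cfsg.GolayPt) (hf : Function.Injective f)
    (h : ∀ i, IsTetOf T (f i)) : False := by
  classical
  have hdisj : ∀ i ∈ (Finset.univ : Finset (Fin 6)), ∀ j ∈ (Finset.univ : Finset (Fin 6)),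
      i ≠ j → Disjoint (f i) (f j) := by
    intro i _ j _ hij
    exact (h i).disjoint hT (h j) (fun e => hij (hf e))
  have hcard : (Finset.univ.biUnion f).card = 24 := by
    rw [Finset.card_biUnion hdisj, Finset.sum_congr rfl (fun i _ => (h i).card hT)]
    simp
  have hsub : Finset.univ.biUnion f ⊆ Tᶜ := by
    intro x hx
    rw [Finset.mem_biUnion] at hx
    obtain ⟨i, -, hxi⟩ := hx
    rw [Finset.mem_compl]
    exact fun hxT => Finset.disjoint_left.mp (h i).1 hxT hxi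
  have := Finset.card_le_card hsub
  rw [hcard, Finset.card_compl, hT, card_golayPt] at this
  omega

/-- The pointwise stabiliser of a set in the group of the code. -/
abbrev fixG (s : Set Cfsg.GolayPt) : Subgroup (Equiv.Perm Cfsg.GolayPt) :=
  Cfsg.M24 ⊓ fixingSubgroup (Equiv.Perm Cfsg.GolayPt) s

theorem mem_fixG {s : Set Cfsg.GolayPt} {g : Equiv.Perm Cfsg.GolayPt} :
    g ∈ fixG s ↔ g ∈ Cfsg.M24 ∧ ∀ x ∈ s, g x = x := by
  constructor
  · rintro ⟨h1, h2⟩
    exact ⟨h1, fun x hx => (mem_fixingSubgroup_iff _).mp h2 x hx⟩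
  · rintro ⟨h1, h2⟩
    exact ⟨h1, (mem_fixingSubgroup_iff _).mpr h2⟩

/-- A permutation fixing the points of a finite set fixes the set. -/
theorem smul_eq_of_fix {g : Equiv.Perm Cfsg.GolayPt} {s : Finset Cfsg.GolayPt}
    (h : ∀ x ∈ s, g x = x) : g • s = s := by
  classical
  apply Finset.eq_of_subset_of_card_le
  · intro y hy
    obtain ⟨x, hx, rfl⟩ := Finset.mem_smul_finset.mp hy
    rw [Equiv.Perm.smul_def, h x hx]; exact hx
  · rw [Finset.card_smul_finset]

/-- The pointwise stabiliser of five points has order `48`. -/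
theorem card_fixG_five (x : Fin 5 ↪ Cfsg.GolayPt) :
    Nat.card ↥(fixG (Set.range x)) = 48 := by
  obtain ⟨g₀, hg₀, hgx⟩ := Cfsg.Agent.Lib.Helper7.M24_exists_smul_eq (le_refl 5)
    Cfsg.Agent.Lib.Helper7.baseFive x
  rw [← Cfsg.Agent.Lib.Helper7.card_stabilizer_baseFive]
  apply Nat.card_congr
  refine ⟨fun h => ⟨⟨g₀⁻¹ * h.1 * g₀, Cfsg.M24.mul_mem (Cfsg.M24.mul_mem
      (Cfsg.M24.inv_mem hg₀) (mem_fixG.mp h.2).1) hg₀⟩, ?_⟩,
    fun k => ⟨g₀ * k.1.1 * g₀⁻¹, mem_fixG.mpr ⟨Cfsg.M24.mul_mem (Cfsg.M24.mul_mem hg₀ k.1.2)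
      (Cfsg.M24.inv_mem hg₀), ?_⟩⟩, ?_, ?_⟩
  · rw [MulAction.mem_stabilizer_iff]
    refine DFunLike.ext _ _ (fun i => ?_)
    show (g₀⁻¹ * h.1 * g₀) (Cfsg.Agent.Lib.Helper7.baseFive i) = _
    rw [Equiv.Perm.mul_apply, Equiv.Perm.mul_apply, hgx i,
      (mem_fixG.mp h.2).2 (x i) (Set.mem_range_self i), ← hgx i, ← Equiv.Perm.mul_apply,
      inv_mul_cancel]
    rfl
  · rintro y ⟨i, rfl⟩
    have h1 : k.1 • Cfsg.Agent.Lib.Helper7.baseFive = Cfsg.Agent.Lib.Helper7.baseFive := k.2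
    have h2 : k.1.1 (Cfsg.Agent.Lib.Helper7.baseFive i) = Cfsg.Agent.Lib.Helper7.baseFive i :=
      congrArg (fun e : Fin 5 ↪ Cfsg.GolayPt => e i) h1
    rw [Equiv.Perm.mul_apply, Equiv.Perm.mul_apply, ← hgx i, ← Equiv.Perm.mul_apply g₀⁻¹,
      inv_mul_cancel, Equiv.Perm.one_apply, h2]
  · intro h
    apply Subtype.ext
    show g₀ * (g₀⁻¹ * h.1 * g₀) * g₀⁻¹ = h.1
    group
  · intro k
    apply Subtype.ext
    apply Subtype.ext
    show g₀⁻¹ * (g₀ * k.1.1 * g₀⁻¹) * g₀ = k.1.1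
    group

end Cfsg.Agent.Lib.Helper93
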