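import Cfsg.Agent.Lib.Helper93.Tets

set_option autoImplicit false

open scoped Pointwise

namespace Cfsg.Agent.Lib.Helper93

/-- An element of the group of the code fixing five points of an octad stabilises it. -/
theorem smul_octad_of_fix_five {A : Finset Cfsg.GolayPt} (hA : A ∈ Cfsg.octads)
    {F : Finset Cfsg.GolayPt} (hF : 5 ≤ F.card) (hFA : F ⊆ A)
    {g : Equiv.Perm Cfsg.GolayPt} (hg : g ∈ Cfsg.M24) (hfix : ∀ x ∈ F, g x = x) :
    g • A = A := by
  classical
  apply octad_eq_of_inter_ge (Cfsg.Agent.Lib.Helper7.smul_mem_octads hg hA) hA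
  have hsub : F ⊆ g • A ∩ A := by
    intro y hy
    rw [Finset.mem_inter]
    refine ⟨?_, hFA hy⟩
    rw [← hfix y hy]
    exact Finset.smul_mem_smul_finset (hFA hy)
  exact hF.trans (Finset.card_le_card hsub)

/-- Given five points of an octad and a point outside it, some element of order three of the
group of the code fixes all six. -/
theorem exists_order_three {A : Finset Cfsg.GolayPt} (hA : A ∈ Cfsg.octads)
    (x : Fin 5 ↪ Cfsg.GolayPt) (hx : ∀ i, x i ∈ A) {q : Cfsg.GolayPt} (hq : q ∉ A) :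
    ∃ t ∈ Cfsg.M24, t ≠ 1 ∧ t * t * t = 1 ∧ (∀ i, t (x i) = x i) ∧ t q = q := by
  classical
  have h48 := card_fixG_five x
  have horb := Cfsg.Agent.Lib.Helper7.card_eq_orbit_mul (fixG (Set.range x)) q
  have hset : {y | ∃ g ∈ fixG (Set.range x), g q = y} =
      ((Aᶜ : Finset Cfsg.GolayPt) : Set Cfsg.GolayPt) := by
    ext y
    rw [Finset.mem_coe, Finset.mem_compl]
    constructor
    · rintro ⟨g, hg, rfl⟩
      obtain ⟨hg1, hg2⟩ := mem_fixG.mp hg
      have hgA : g • A = A := by
        apply smul_octad_of_fix_five hA (F := Finset.univ.map x) _ _ hg1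
        · intro z hz
          obtain ⟨i, -, rfl⟩ := Finset.mem_map.mp hz
          exact hg2 _ (Set.mem_range_self i)
        · rw [Finset.card_map, Finset.card_univ, Fintype.card_fin]
        · intro z hz
          obtain ⟨i, -, rfl⟩ := Finset.mem_map.mp hz
          exact hx i
      intro hgq
      exact hq ((Cfsg.Agent.S1553.mem_iff_of_smul hgA q).mp hgq)
    · intro hy
      obtain ⟨k, hk, hkq⟩ := Cfsg.Agent.S1554.pointwise_trans hA hq hy
      refine ⟨k, mem_fixG.mpr ⟨hk.1, ?_⟩, hkq⟩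
      rintro z ⟨i, rfl⟩
      exact (mem_fixG.mp hk).2 _ (Finset.mem_coe.mpr (hx i))
  rw [hset, Set.ncard_coe_finset, Finset.card_compl, octad_card hA, card_golayPt, h48] at horb
  have h3 : Nat.card ↥(fixG (Set.range x) ⊓ MulAction.stabilizer (Equiv.Perm Cfsg.GolayPt) q :
      Subgroup (Equiv.Perm Cfsg.GolayPt)) = 3 := by omega
  have hne : (fixG (Set.range x) ⊓ MulAction.stabilizer (Equiv.Perm Cfsg.GolayPt) q :
      Subgroup (Equiv.Perm Cfsg.GolayPt)) ≠ ⊥ := by
    intro hbot
    rw [hbot, Subgroup.card_bot] at h3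
    omega
  obtain ⟨t, ht⟩ := (Subgroup.ne_bot_iff_exists_ne_one).mp hne
  have hpow : t ^ 3 = 1 := by
    rw [← h3]; exact pow_card_eq_one'
  have hpow' : (t : Equiv.Perm Cfsg.GolayPt) ^ 3 = 1 := by
    have := congrArg Subtype.val hpow
    exact this
  obtain ⟨ht1, ht2⟩ := t.2
  obtain ⟨htM, htx⟩ := mem_fixG.mp ht1
  refine ⟨t.1, htM, fun h => ht (Subtype.ext h), ?_, fun i => htx _ (Set.mem_range_self i), ht2⟩
  rw [← hpow', pow_succ, pow_two]

end Cfsg.Agent.Lib.Helper93
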