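import Cfsg.Agent.Lib.Helper93.Tets2

set_option autoImplicit false

open scoped Pointwise

namespace Cfsg.Agent.Lib.Helper93

/-- A tetrad has at most five companions in its sextet (finset form). -/
theorem tets_card_le {T : Finset Cfsg.GolayPt} (hT : T.card = 4)
    (S : Finset (Finset Cfsg.GolayPt)) (hS : ∀ Y ∈ S, IsTetOf T Y) : S.card ≤ 5 := by
  classical
  have hdisj : ∀ i ∈ S, ∀ j ∈ S, i ≠ j → Disjoint (id i) (id j) := by
    intro i hi j hj hij
    exact (hS i hi).disjoint hT (hS j hj) hij
  have hcard : (S.biUnion id).card = 4 * S.card := by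
    rw [Finset.card_biUnion hdisj]
    have : ∀ i ∈ S, (id i : Finset Cfsg.GolayPt).card = 4 := fun i hi => (hS i hi).card hT
    rw [Finset.sum_congr rfl this]
    simp [mul_comm]
  have hsub : S.biUnion id ⊆ Tᶜ := by
    intro x hx
    rw [Finset.mem_biUnion] at hx
    obtain ⟨i, hi, hxi⟩ := hx
    rw [Finset.mem_compl]
    exact fun hxT => Finset.disjoint_left.mp (hS i hi).1 hxT hxi
  have := Finset.card_le_card hsub
  rw [hcard, Finset.card_compl, hT, card_golayPt] at this
  omega

theorem card_six {α : Type*} [DecidableEq α] {a b c d e f : α}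
    (hab : a ≠ b) (hac : a ≠ c) (had : a ≠ d) (hae : a ≠ e) (haf : a ≠ f)
    (hbc : b ≠ c) (hbd : b ≠ d) (hbe : b ≠ e) (hbf : b ≠ f)
    (hcd : c ≠ d) (hce : c ≠ e) (hcf : c ≠ f) (hde : d ≠ e) (hdf : d ≠ f) (hef : e ≠ f) :
    ({a, b, c, d, e, f} : Finset α).card = 6 := by
  rw [Finset.card_insert_of_notMem, Finset.card_insert_of_notMem, Finset.card_insert_of_notMem,
    Finset.card_insert_of_notMem, Finset.card_insert_of_notMem, Finset.card_singleton]
  · simp [hef]
  · simp [hde, hdf]
  · simp [hcd, hce, hcf]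
  · simp [hbc, hbd, hbe, hbf]
  · simp [hab, hac, had, hae, haf]

/-- A non-trivial element of the group of the code fixing a tetrad pointwise and a point in
each of two further tetrads of its sextet moves some tetrad of the sextet. -/
theorem not_all_tets_fixed {T T1 T2 : Finset Cfsg.GolayPt} (hT : T.card = 4)
    (h1 : IsTetOf T T1) (h2 : IsTetOf T T2) (hne : T1 ≠ T2)
    {t : Equiv.Perm Cfsg.GolayPt} (ht : t ∈ Cfsg.M24) (ht1 : t ≠ 1)
    (hfix : ∀ p ∈ T, t p = p) {x1 x2 : Cfsg.GolayPt} (hx1 : x1 ∈ T1) (hx2 : x2 ∈ T2)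
    (htx1 : t x1 = x1) (htx2 : t x2 = x2)
    (hall : ∀ Y, IsTetOf T Y → t • Y = Y) : False := by
  classical
  obtain ⟨s, hs⟩ : T.Nonempty := by rw [← Finset.card_pos, hT]; norm_num
  have hx1T : x1 ∉ T := fun h => Finset.disjoint_left.mp h1.1 h hx1
  have hx2T : x2 ∉ T := fun h => Finset.disjoint_left.mp h2.1 h hx2
  have hx12 : x1 ≠ x2 := by
    rintro rfl
    exact Finset.disjoint_left.mp (h1.disjoint hT h2 hne) hx1 hx2
  have hT'card : (T.erase s).card = 3 := by rw [Finset.card_erase_of_mem hs, hT]
  have hT'sub : T.erase s ⊆ T := Finset.erase_subset _ _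
  have hFcard : (insert x1 (insert x2 (T.erase s))).card = 5 := by
    rw [Finset.card_insert_of_notMem, Finset.card_insert_of_notMem, hT'card]
    · exact fun h => hx2T (hT'sub h)
    · rw [Finset.mem_insert]
      rintro (h | h)
      · exact hx12 h
      · exact hx1T (hT'sub h)
  obtain ⟨B, hB, hFB⟩ := octad_exists hFcard
  have hx1B : x1 ∈ B := hFB (Finset.mem_insert_self _ _)
  have hx2B : x2 ∈ B := hFB (Finset.mem_insert_of_mem (Finset.mem_insert_self _ _))
  have hT'B : T.erase s ⊆ B := fun y hy =>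
    hFB (Finset.mem_insert_of_mem (Finset.mem_insert_of_mem hy))
  have htB : t • B = B := by
    apply smul_octad_of_fix_five hB (le_of_eq hFcard.symm) hFB ht
    intro y hy
    rw [Finset.mem_insert, Finset.mem_insert] at hy
    rcases hy with rfl | rfl | hy
    · exact htx1
    · exact htx2
    · exact hfix y (hT'sub hy)
  have hTeq : T = insert s (T.erase s) := (Finset.insert_erase hs).symm
  have hsB : s ∉ B := by
    intro hsB
    have hTB : T ⊆ B := by
      intro y hy
      rw [hTeq, Finset.mem_insert] at hy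
      rcases hy with rfl | hy
      · exact hsB
      · exact hT'B hy
    have hBeq : B = T ∪ T1 := by
      apply octad_eq_of_inter_ge hB h1.2
      have hsub : insert x1 T ⊆ B ∩ (T ∪ T1) := by
        intro y hy
        rw [Finset.mem_insert] at hy
        rw [Finset.mem_inter, Finset.mem_union]
        rcases hy with rfl | hy
        · exact ⟨hx1B, Or.inr hx1⟩
        · exact ⟨hTB hy, Or.inl hy⟩
      have := Finset.card_le_card hsub
      rw [Finset.card_insert_of_notMem hx1T, hT] at this
      exact this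
    rw [hBeq, Finset.mem_union] at hx2B
    rcases hx2B with h | h
    · exact hx2T h
    · exact Finset.disjoint_left.mp (h1.disjoint hT h2 hne) h hx2
  by_cases hBfix : ∀ b ∈ B, t b = b
  · have hK : t ∈ Cfsg.M24 ⊓ fixingSubgroup (Equiv.Perm Cfsg.GolayPt) (B : Set Cfsg.GolayPt) :=
      mem_fixG.mpr ⟨ht, fun x hx => hBfix x (Finset.mem_coe.mp hx)⟩
    exact ht1 (Cfsg.Agent.S1554.pointwise_free hB hK hsB (hfix s hs))
  · push Not at hBfix
    obtain ⟨b, hbB, htb⟩ := hBfix
    have hbT : b ∉ T := fun h => htb (hfix b h)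
    obtain ⟨Y, hY, hbY⟩ := exists_tetOf hT hbT
    have htbY : t b ∈ Y := (Cfsg.Agent.S1553.mem_iff_of_smul (hall Y hY) b).mpr hbY
    have htbB : t b ∈ B := (Cfsg.Agent.S1553.mem_iff_of_smul htB b).mpr hbB
    have hYT : ∀ y ∈ Y, y ∉ T := fun y hy h => Finset.disjoint_left.mp hY.1 h hy
    have hGcard : (insert b (insert (t b) (T.erase s))).card = 5 := by
      rw [Finset.card_insert_of_notMem, Finset.card_insert_of_notMem, hT'card]
      · exact fun h => hYT _ htbY (hT'sub h)
      · rw [Finset.mem_insert]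
        rintro (h | h)
        · exact htb h.symm
        · exact hbT (hT'sub h)
    have hBeq : B = T ∪ Y := by
      apply octad_eq_of_inter_ge hB hY.2
      have hsub : insert b (insert (t b) (T.erase s)) ⊆ B ∩ (T ∪ Y) := by
        intro y hy
        rw [Finset.mem_insert, Finset.mem_insert] at hy
        rw [Finset.mem_inter, Finset.mem_union]
        rcases hy with rfl | rfl | hy
        · exact ⟨hbB, Or.inr hbY⟩
        · exact ⟨htbB, Or.inr htbY⟩
        · exact ⟨hT'B hy, Or.inl (hT'sub hy)⟩
      have := Finset.card_le_card hsub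
      rw [hGcard] at this
      exact this
    apply hsB
    rw [hBeq]
    exact Finset.mem_union_left _ hs

end Cfsg.Agent.Lib.Helper93
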