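import Cfsg.Agent.Lib.Helper93.Tets3

set_option autoImplicit false

open scoped Pointwise

namespace Cfsg.Agent.Lib.Helper93

theorem smul_finset_ne_of_ne {g : Equiv.Perm Cfsg.GolayPt} {a b : Finset Cfsg.GolayPt}
    (h : a ≠ b) : g • a ≠ g • b := fun e => h (smul_left_cancel g e)

/-- Fixing a tetrad and two further tetrads of its sextet, the group of the code still permutes
the remaining three tetrads transitively. -/
theorem exists_fix_move {T T1 T2 V V' : Finset Cfsg.GolayPt} (hT : T.card = 4)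
    (h1 : IsTetOf T T1) (h2 : IsTetOf T T2) (hne : T1 ≠ T2)
    (hV : IsTetOf T V) (hV' : IsTetOf T V') (hV1 : V ≠ T1) (hV2 : V ≠ T2)
    (hV1' : V' ≠ T1) (hV2' : V' ≠ T2) :
    ∃ h ∈ Cfsg.M24, h • T = T ∧ h • T1 = T1 ∧ h • T2 = T2 ∧ h • V = V' := by
  classical
  obtain ⟨x1, hx1⟩ := h1.nonempty hT
  obtain ⟨x2, hx2⟩ := h2.nonempty hT
  have hx1T : x1 ∉ T := fun h => Finset.disjoint_left.mp h1.1 h hx1
  have hx2T : x2 ∉ T := fun h => Finset.disjoint_left.mp h2.1 h hx2
  have hx2A : x2 ∉ T ∪ T1 := by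
    rw [Finset.mem_union]
    rintro (h | h)
    · exact hx2T h
    · exact Finset.disjoint_left.mp (h1.disjoint hT h2 hne) h hx2
  -- enumerate T ∪ {x1}
  have hFcard : (insert x1 T).card = 5 := by rw [Finset.card_insert_of_notMem hx1T, hT]
  let e : Fin 5 ≃ ↥(insert x1 T) := (Finset.equivFinOfCardEq hFcard).symm
  let x : Fin 5 ↪ Cfsg.GolayPt := e.toEmbedding.trans (Function.Embedding.subtype _)
  have hxmem : ∀ i, x i ∈ insert x1 T := fun i => (e i).2
  have hxsurj : ∀ p ∈ insert x1 T, ∃ i, x i = p := by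
    intro p hp
    exact ⟨e.symm ⟨p, hp⟩, by show ((e (e.symm ⟨p, hp⟩) : ↥(insert x1 T)) : Cfsg.GolayPt) = p; simp⟩
  have hxA : ∀ i, x i ∈ T ∪ T1 := by
    intro i
    have := hxmem i
    rw [Finset.mem_insert] at this
    rw [Finset.mem_union]
    rcases this with h | h
    · right; rw [h]; exact hx1
    · left; exact h
  obtain ⟨t, ht, ht1, ht3, htx, htx2⟩ := exists_order_three h1.2 x hxA hx2A
  have hfix : ∀ p ∈ T, t p = p := by
    intro p hp
    obtain ⟨i, hi⟩ := hxsurj p (Finset.mem_insert_of_mem hp)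
    rw [← hi]; exact htx i
  have htx1 : t x1 = x1 := by
    obtain ⟨i, hi⟩ := hxsurj x1 (Finset.mem_insert_self _ _)
    rw [← hi]; exact htx i
  have htT : t • T = T := smul_eq_of_fix hfix
  have htet : ∀ Y, IsTetOf T Y → IsTetOf T (t • Y) := by
    intro Y hY
    have := hY.smul ht
    rw [htT] at this
    exact this
  have htT1 : t • T1 = T1 := by
    apply (htet T1 h1).eq_of_mem hT h1 _ hx1
    rw [← htx1]
    exact Finset.smul_mem_smul_finset hx1
  have htT2 : t • T2 = T2 := by
    apply (htet T2 h2).eq_of_mem hT h2 _ hx2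
    rw [← htx2]
    exact Finset.smul_mem_smul_finset hx2
  have hcube : ∀ Y : Finset Cfsg.GolayPt, t • t • t • Y = Y := by
    intro Y
    rw [← mul_smul, ← mul_smul, ht3, one_smul]
  -- no further tetrad is fixed
  have hmoved : ∀ Y, IsTetOf T Y → Y ≠ T1 → Y ≠ T2 → t • Y ≠ Y := by
    intro Y0 hY0 hY01 hY02 hfix0
    apply not_all_tets_fixed hT h1 h2 hne ht ht1 hfix hx1 hx2 htx1 htx2
    intro Y hY
    by_contra hYm
    have hYT1 : Y ≠ T1 := by rintro rfl; exact hYm htT1
    have hYT2 : Y ≠ T2 := by rintro rfl; exact hYm htT2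
    have hYY0 : Y ≠ Y0 := by rintro rfl; exact hYm hfix0
    have hW : IsTetOf T (t • Y) := htet Y hY
    have hW' : IsTetOf T (t • t • Y) := htet _ hW
    have hWT1 : t • Y ≠ T1 := by
      intro h; rw [← htT1] at h; exact hYT1 (smul_left_cancel t h)
    have hWT2 : t • Y ≠ T2 := by
      intro h; rw [← htT2] at h; exact hYT2 (smul_left_cancel t h)
    have hWY0 : t • Y ≠ Y0 := by
      intro h; rw [← hfix0] at h; exact hYY0 (smul_left_cancel t h)
    have hW'T1 : t • t • Y ≠ T1 := by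
      intro h; rw [← htT1] at h; exact hWT1 (smul_left_cancel t h)
    have hW'T2 : t • t • Y ≠ T2 := by
      intro h; rw [← htT2] at h; exact hWT2 (smul_left_cancel t h)
    have hW'Y0 : t • t • Y ≠ Y0 := by
      intro h; rw [← hfix0] at h; exact hWY0 (smul_left_cancel t h)
    have hW'Y : t • t • Y ≠ Y := by
      intro h
      have := congrArg (t • ·) h
      simp only [hcube] at this
      exact hYm this.symm
    have hW'W : t • t • Y ≠ t • Y := fun h => hYm (smul_left_cancel t h)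
    have h6 := card_six hne (Ne.symm hY01) (Ne.symm hYT1) (Ne.symm hWT1) (Ne.symm hW'T1)
      (Ne.symm hY02) (Ne.symm hYT2) (Ne.symm hWT2) (Ne.symm hW'T2)
      (Ne.symm hYY0) (Ne.symm hWY0) (Ne.symm hW'Y0) (Ne.symm hYm) (Ne.symm hW'Y) (Ne.symm hW'W)
    have h5 := tets_card_le hT {T1, T2, Y0, Y, t • Y, t • t • Y} (by
      intro Z hZ
      simp only [Finset.mem_insert, Finset.mem_singleton] at hZ
      rcases hZ with rfl | rfl | rfl | rfl | rfl | rfl
      · exact h1
      · exact h2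
      · exact hY0
      · exact hY
      · exact hW
      · exact hW')
    omega
  by_cases hVV' : V = V'
  · exact ⟨1, Cfsg.M24.one_mem, one_smul _ _, one_smul _ _, one_smul _ _, by rw [one_smul, hVV']⟩
  have hW : IsTetOf T (t • V) := htet V hV
  have hWV : t • V ≠ V := hmoved V hV hV1 hV2
  have hWT1 : t • V ≠ T1 := by
    intro h; rw [← htT1] at h; exact hV1 (smul_left_cancel t h)
  have hWT2 : t • V ≠ T2 := by
    intro h; rw [← htT2] at h; exact hV2 (smul_left_cancel t h)
  by_cases hWV' : t • V = V'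
  · exact ⟨t, ht, htT, htT1, htT2, hWV'⟩
  have hW' : IsTetOf T (t • t • V) := htet _ hW
  have hW'W : t • t • V ≠ t • V := hmoved _ hW hWT1 hWT2
  have hW'T1 : t • t • V ≠ T1 := by
    intro h; rw [← htT1] at h; exact hWT1 (smul_left_cancel t h)
  have hW'T2 : t • t • V ≠ T2 := by
    intro h; rw [← htT2] at h; exact hWT2 (smul_left_cancel t h)
  have hW'V : t • t • V ≠ V := by
    intro h
    have := congrArg (t • ·) h
    simp only [hcube] at this
    exact hWV this.symm
  by_cases hW'V' : t • t • V = V'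
  · refine ⟨t * t, Cfsg.M24.mul_mem ht ht, ?_, ?_, ?_, ?_⟩
    · rw [mul_smul, htT, htT]
    · rw [mul_smul, htT1, htT1]
    · rw [mul_smul, htT2, htT2]
    · rw [mul_smul]; exact hW'V'
  exfalso
  have h6 := card_six hne (Ne.symm hV1) (Ne.symm hV1') (Ne.symm hWT1) (Ne.symm hW'T1)
    (Ne.symm hV2) (Ne.symm hV2') (Ne.symm hWT2) (Ne.symm hW'T2)
    hVV' (Ne.symm hWV) (Ne.symm hW'V) (Ne.symm hWV') (Ne.symm hW'V') (Ne.symm hW'W)
  have h5 := tets_card_le hT {T1, T2, V, V', t • V, t • t • V} (by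
    intro Z hZ
    simp only [Finset.mem_insert, Finset.mem_singleton] at hZ
    rcases hZ with rfl | rfl | rfl | rfl | rfl | rfl
    · exact h1
    · exact h2
    · exact hV
    · exact hV'
    · exact hW
    · exact hW')
  omega

end Cfsg.Agent.Lib.Helper93
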