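import Cfsg.Agent.Lib.Helper93.Tets4

set_option autoImplicit false

open scoped Pointwise

namespace Cfsg.Agent.Lib.Helper93

/-- The group of the code is transitive on ordered quadruples of tetrads of a sextet. -/
theorem tets_transitive {T T1 T2 U T' T1' T2' U' : Finset Cfsg.GolayPt}
    (hT : T.card = 4) (hT' : T'.card = 4)
    (h1 : IsTetOf T T1) (h2 : IsTetOf T T2) (hU : IsTetOf T U)
    (h12 : T1 ≠ T2) (hU1 : U ≠ T1) (hU2 : U ≠ T2)
    (h1' : IsTetOf T' T1') (h2' : IsTetOf T' T2') (hU' : IsTetOf T' U')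
    (h12' : T1' ≠ T2') (hU1' : U' ≠ T1') (hU2' : U' ≠ T2') :
    ∃ g ∈ Cfsg.M24, g • T = T' ∧ g • T1 = T1' ∧ g • T2 = T2' ∧ g • U = U' := by
  classical
  -- Step 1
  obtain ⟨g, hg, hgA, hgT⟩ := Cfsg.Agent.Lib.Helper26.M24_transport h1.2 h1'.2
    (Finset.subset_union_left (s₁ := T) (s₂ := T1)) (Finset.subset_union_left (s₁ := T') (s₂ := T1'))
    (hT.trans hT'.symm) (by rw [hT]; norm_num)
  have hgT1 : g • T1 = T1' := by
    have e1 : T1 = (T ∪ T1) \ T := (Finset.union_sdiff_cancel_left h1.1).symm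
    have e2 : T1' = (T' ∪ T1') \ T' := (Finset.union_sdiff_cancel_left h1'.1).symm
    rw [e1, Finset.smul_finset_sdiff, hgA, hgT, ← e2]
  -- Step 2
  have h2a : IsTetOf T' (g • T2) := by
    have := h2.smul hg
    rw [hgT] at this
    exact this
  have h2a1 : g • T2 ≠ T1' := by
    rw [← hgT1]; exact smul_finset_ne_of_ne (Ne.symm h12)
  obtain ⟨x2, hx2⟩ := h2a.nonempty hT'
  obtain ⟨x2', hx2'⟩ := h2'.nonempty hT'
  have hx2A : x2 ∉ T' ∪ T1' := by
    rw [Finset.mem_union]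
    rintro (h | h)
    · exact Finset.disjoint_left.mp h2a.1 h hx2
    · exact Finset.disjoint_left.mp (h1'.disjoint hT' h2a (Ne.symm h2a1)) h hx2
  have hx2A' : x2' ∉ T' ∪ T1' := by
    rw [Finset.mem_union]
    rintro (h | h)
    · exact Finset.disjoint_left.mp h2'.1 h hx2'
    · exact Finset.disjoint_left.mp (h1'.disjoint hT' h2' h12') h hx2'
  obtain ⟨k, hk, hkx⟩ := Cfsg.Agent.S1554.pointwise_trans h1'.2 hx2A hx2A'
  obtain ⟨hkM, hkfix⟩ := mem_fixG.mp hk
  have hkT : k • T' = T' := smul_eq_of_fix (fun y hy =>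
    hkfix y (Finset.mem_coe.mpr (Finset.mem_union_left _ hy)))
  have hkT1 : k • T1' = T1' := smul_eq_of_fix (fun y hy =>
    hkfix y (Finset.mem_coe.mpr (Finset.mem_union_right _ hy)))
  have hkT2 : k • g • T2 = T2' := by
    have h3 : IsTetOf T' (k • g • T2) := by
      have := h2a.smul hkM
      rw [hkT] at this
      exact this
    apply h3.eq_of_mem hT' h2' _ hx2'
    rw [← hkx]
    exact Finset.smul_mem_smul_finset hx2
  -- Step 3
  have hUa : IsTetOf T' (k • g • U) := by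
    have := (hU.smul hg).smul hkM
    rw [hgT, hkT] at this
    exact this
  have hUa1 : k • g • U ≠ T1' := by
    intro h
    rw [← hkT1, ← hgT1] at h
    exact hU1 (smul_left_cancel g (smul_left_cancel k h))
  have hUa2 : k • g • U ≠ T2' := by
    intro h
    rw [← hkT2] at h
    exact hU2 (smul_left_cancel g (smul_left_cancel k h))
  obtain ⟨h, hh, hhT, hhT1, hhT2, hhU⟩ :=
    exists_fix_move hT' h1' h2' h12' hUa hU' hUa1 hUa2 hU1' hU2'
  refine ⟨h * k * g, Cfsg.M24.mul_mem (Cfsg.M24.mul_mem hh hkM) hg, ?_, ?_, ?_, ?_⟩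
  · rw [mul_smul, mul_smul, hgT, hkT, hhT]
  · rw [mul_smul, mul_smul, hgT1, hkT1, hhT1]
  · rw [mul_smul, mul_smul, hkT2, hhT2]
  · rw [mul_smul, mul_smul, hhU]

/-- The tetrads attached to two octads meeting in four points and an octad disjoint from both. -/
theorem tets_of_octads {A B o : Finset Cfsg.GolayPt} (hA : A ∈ Cfsg.octads)
    (hB : B ∈ Cfsg.octads) (ho : o ∈ Cfsg.octads) (h4 : (A ∩ B).card = 4)
    (hoA : Disjoint o A) (hoB : Disjoint o B) :
    IsTetOf (A ∩ B) (A \ B) ∧ IsTetOf (A ∩ B) (B \ A) ∧ IsTetOf (A ∩ B) (A ∪ B ∪ o)ᶜ ∧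
    A \ B ≠ B \ A ∧ (A ∪ B ∪ o)ᶜ ≠ A \ B ∧ (A ∪ B ∪ o)ᶜ ≠ B \ A ∧
    A = A ∩ B ∪ A \ B ∧ B = A ∩ B ∪ B \ A ∧ o = (A ∪ B ∪ (A ∪ B ∪ o)ᶜ)ᶜ := by
  classical
  have hoA' := Finset.disjoint_left.mp hoA
  have hoB' := Finset.disjoint_left.mp hoB
  have eA : A = A ∩ B ∪ A \ B := by
    ext x; simp only [Finset.mem_union, Finset.mem_inter, Finset.mem_sdiff]; tauto
  have eB : B = A ∩ B ∪ B \ A := by
    ext x; simp only [Finset.mem_union, Finset.mem_inter, Finset.mem_sdiff]; tauto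
  have eo : o = (A ∪ B ∪ (A ∪ B ∪ o)ᶜ)ᶜ := by
    ext x
    simp only [Finset.mem_union, Finset.mem_compl]
    have := @hoA' x
    have := @hoB' x
    tauto
  have hcAB : (A \ B).card = 4 := by
    have := Finset.card_sdiff_add_card_inter A B
    rw [octad_card hA, h4] at this; omega
  have hcBA : (B \ A).card = 4 := by
    have := Finset.card_sdiff_add_card_inter B A
    rw [octad_card hB, Finset.inter_comm, h4] at this; omega
  have t1 : IsTetOf (A ∩ B) (A \ B) := by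
    refine ⟨?_, ?_⟩
    · rw [Finset.disjoint_left]; intro x hx hx'
      exact (Finset.mem_sdiff.mp hx').2 (Finset.mem_inter.mp hx).2
    · rw [← eA]; exact hA
  have t2 : IsTetOf (A ∩ B) (B \ A) := by
    refine ⟨?_, ?_⟩
    · rw [Finset.disjoint_left]; intro x hx hx'
      exact (Finset.mem_sdiff.mp hx').2 (Finset.mem_inter.mp hx).1
    · rw [← eB]; exact hB
  have t3 : IsTetOf (A ∩ B) (A ∪ B ∪ o)ᶜ := by
    refine ⟨?_, ?_⟩
    · rw [Finset.disjoint_left]; intro x hx hx'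
      rw [Finset.mem_compl, Finset.mem_union, Finset.mem_union] at hx'
      exact hx' (Or.inl (Or.inl (Finset.mem_inter.mp hx).1))
    · have he : (A ∪ o)ᶜ ∈ Cfsg.octads := octad_compl_union hA ho hoA.symm
      have hBe : B ∩ (A ∪ o)ᶜ = B \ A := by
        ext x
        simp only [Finset.mem_inter, Finset.mem_compl, Finset.mem_union, Finset.mem_sdiff]
        have := @hoB' x
        tauto
      have hsd : symmDiff B (A ∪ o)ᶜ = A ∩ B ∪ (A ∪ B ∪ o)ᶜ := by
        ext x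
        simp only [Finset.mem_symmDiff, Finset.mem_inter, Finset.mem_compl, Finset.mem_union]
        have := @hoB' x
        tauto
      rw [← hsd]
      exact octad_symmDiff hB he (by rw [hBe, hcBA])
  obtain ⟨y, hy⟩ : (A \ B).Nonempty := by rw [← Finset.card_pos, hcAB]; norm_num
  obtain ⟨z, hz⟩ : (B \ A).Nonempty := by rw [← Finset.card_pos, hcBA]; norm_num
  refine ⟨t1, t2, t3, ?_, ?_, ?_, eA, eB, eo⟩
  · intro h
    have hy' : y ∈ B \ A := h ▸ hy
    exact (Finset.mem_sdiff.mp hy).2 (Finset.mem_sdiff.mp hy').1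
  · intro h
    have hy' : y ∈ (A ∪ B ∪ o)ᶜ := h ▸ hy
    rw [Finset.mem_compl, Finset.mem_union, Finset.mem_union] at hy'
    exact hy' (Or.inl (Or.inl (Finset.mem_sdiff.mp hy).1))
  · intro h
    have hz' : z ∈ (A ∪ B ∪ o)ᶜ := h ▸ hz
    rw [Finset.mem_compl, Finset.mem_union, Finset.mem_union] at hz'
    exact hz' (Or.inl (Or.inr (Finset.mem_sdiff.mp hz).1))

/-- The group of the code is transitive on triples `(A, B, o)` of octads with `A, B` meeting in
four points and `o` disjoint from both. -/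
theorem octad_triple_transitive {A B o A' B' o' : Finset Cfsg.GolayPt}
    (hA : A ∈ Cfsg.octads) (hB : B ∈ Cfsg.octads) (ho : o ∈ Cfsg.octads)
    (hA' : A' ∈ Cfsg.octads) (hB' : B' ∈ Cfsg.octads) (ho' : o' ∈ Cfsg.octads)
    (h4 : (A ∩ B).card = 4) (h4' : (A' ∩ B').card = 4)
    (hoA : Disjoint o A) (hoB : Disjoint o B) (hoA' : Disjoint o' A') (hoB' : Disjoint o' B') :
    ∃ g ∈ Cfsg.M24, g • A = A' ∧ g • B = B' ∧ g • o = o' := by
  classical
  obtain ⟨t1, t2, t3, n12, n31, n32, eA, eB, eo⟩ := tets_of_octads hA hB ho h4 hoA hoB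
  obtain ⟨t1', t2', t3', n12', n31', n32', eA', eB', eo'⟩ :=
    tets_of_octads hA' hB' ho' h4' hoA' hoB'
  obtain ⟨g, hg, hgT, hg1, hg2, hgU⟩ :=
    tets_transitive h4 h4' t1 t2 t3 n12 n31 n32 t1' t2' t3' n12' n31' n32'
  have hgA : g • A = A' := by
    rw [eA, Finset.smul_finset_union, hgT, hg1, ← eA']
  have hgB : g • B = B' := by
    rw [eB, Finset.smul_finset_union, hgT, hg2, ← eB']
  refine ⟨g, hg, hgA, hgB, ?_⟩
  rw [eo, Finset.compl_eq_univ_sdiff, Finset.smul_finset_sdiff, Finset.smul_finset_univ,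
    Finset.smul_finset_union, Finset.smul_finset_union, hgA, hgB, hgU,
    ← Finset.compl_eq_univ_sdiff, ← eo']

end Cfsg.Agent.Lib.Helper93
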