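import Cfsg.Agent.Lib.Helper93.TrioOct

set_option autoImplicit false

open scoped Pointwise

namespace Cfsg.Agent.Lib.Helper93

theorem mem_smul_of_fix {γ : Equiv.Perm Cfsg.GolayPt} {o : Finset Cfsg.GolayPt}
    {T : Finset (Finset Cfsg.GolayPt)} (h : γ • o = o) (hoT : o ∈ T) : o ∈ γ • T := by
  have := Finset.smul_mem_smul_finset (a := γ) hoT
  rw [h] at this
  exact this

/-- The trios through an octad, as a set acted on by the pointwise stabiliser of the octad. -/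
def trioSub (o : Finset Cfsg.GolayPt) :
    SubMulAction ↥(fixG (o : Set Cfsg.GolayPt)) (Finset (Finset Cfsg.GolayPt)) where
  carrier := {T | T ∈ Cfsg.trios ∧ o ∈ T}
  smul_mem' := by
    intro k T hT
    have hk := mem_fixG.mp k.2
    refine ⟨smul_mem_trios hk.1 hT.1, ?_⟩
    have h1 : (k.1 : Equiv.Perm Cfsg.GolayPt) • o = o :=
      smul_eq_of_fix (fun x hx => hk.2 x (Finset.mem_coe.mpr hx))
    exact mem_smul_of_fix h1 hT.2

theorem fixG_fixes_some_trio {o : Finset Cfsg.GolayPt} (ho : o ∈ Cfsg.octads) :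
    ∃ T, T ∈ Cfsg.trios ∧ o ∈ T ∧ ∀ k ∈ fixG (o : Set Cfsg.GolayPt), k • T = T := by
  have hp : IsPGroup 2 ↥(fixG (o : Set Cfsg.GolayPt)) :=
    IsPGroup.of_card (n := 4) (by rw [(Cfsg.Agent.Lib.Helper7.octad_pointwise o ho).1]; norm_num)
  have : Fact (Nat.Prime 2) := ⟨Nat.prime_two⟩
  have hcard : Nat.card ↥(trioSub o) = 15 := by
    rw [← ncard_trios_through ho]
    exact Nat.card_coe_set_eq _
  obtain ⟨⟨T, hT⟩, hfix⟩ := hp.nonempty_fixed_point_of_prime_not_dvd_card ↥(trioSub o)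
    (by rw [hcard]; norm_num)
  refine ⟨T, hT.1, hT.2, fun k hk => ?_⟩
  have := hfix ⟨k, hk⟩
  exact congrArg Subtype.val this

/-- The pointwise stabiliser of an octad fixes every trio through the octad. -/
theorem fixG_fixes_trios {o : Finset Cfsg.GolayPt} (ho : o ∈ Cfsg.octads)
    {T : Finset (Finset Cfsg.GolayPt)} (hT : T ∈ Cfsg.trios) (hoT : o ∈ T)
    {k : Equiv.Perm Cfsg.GolayPt} (hk : k ∈ fixG (o : Set Cfsg.GolayPt)) : k • T = T := by
  obtain ⟨T0, hT0, hoT0, hfix⟩ := fixG_fixes_some_trio ho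
  by_cases hTT0 : T = T0
  · subst hTT0; exact hfix k hk
  obtain ⟨g, hg, hgo, hgT0, -⟩ := trio_pair_transitive ho hT0 hT hT hT0 hoT0 hoT hoT hoT0
    (Ne.symm hTT0) hTT0
  have hconj : g⁻¹ * k * g ∈ fixG (o : Set Cfsg.GolayPt) := by
    rw [mem_fixG]
    refine ⟨Cfsg.M24.mul_mem (Cfsg.M24.mul_mem (Cfsg.M24.inv_mem hg) (mem_fixG.mp hk).1) hg, ?_⟩
    intro x hx
    have hgx : g x ∈ o := (Cfsg.Agent.S1553.mem_iff_of_smul hgo x).mpr (Finset.mem_coe.mp hx)
    rw [Equiv.Perm.mul_apply, Equiv.Perm.mul_apply,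
      (mem_fixG.mp hk).2 (g x) (Finset.mem_coe.mpr hgx), ← Equiv.Perm.mul_apply, inv_mul_cancel]
    rfl
  have h1 := hfix _ hconj
  rw [← hgT0]
  calc k • g • T0 = g • (g⁻¹ * k * g) • T0 := by
        rw [← mul_smul, ← mul_smul]; congr 1; group
    _ = g • T0 := by rw [h1]

/-- An element of the stabiliser of an octad fixing every trio through it fixes the octad
pointwise. -/
theorem fix_of_fixes_trios {o : Finset Cfsg.GolayPt} (ho : o ∈ Cfsg.octads)
    {g : Equiv.Perm Cfsg.GolayPt} (hg : g ∈ Cfsg.M24) (hgo : g • o = o)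
    (hall : ∀ T ∈ Cfsg.trios, o ∈ T → g • T = T) : ∀ p ∈ o, g p = p := by
  classical
  let N : Subgroup ↥(Cfsg.M24 ⊓ MulAction.stabilizer (Equiv.Perm Cfsg.GolayPt) o) :=
    { carrier := {h | ∀ T ∈ Cfsg.trios, o ∈ T → (h : Equiv.Perm Cfsg.GolayPt) • T = T}
      one_mem' := fun T _ _ => one_smul _ T
      mul_mem' := by
        intro a b ha hb T hT hoT
        show ((a : Equiv.Perm Cfsg.GolayPt) * (b : Equiv.Perm Cfsg.GolayPt)) • T = T
        rw [mul_smul, hb T hT hoT, ha T hT hoT]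
      inv_mem' := by
        intro a ha T hT hoT
        show (a : Equiv.Perm Cfsg.GolayPt)⁻¹ • T = T
        rw [inv_smul_eq_iff, ha T hT hoT] }
  have hN : N.Normal := by
    refine ⟨fun n hn h T hT hoT => ?_⟩
    show ((h : Equiv.Perm Cfsg.GolayPt) * (n : Equiv.Perm Cfsg.GolayPt) *
      (h : Equiv.Perm Cfsg.GolayPt)⁻¹) • T = T
    have hh : (h : Equiv.Perm Cfsg.GolayPt) ∈ Cfsg.M24 := h.2.1
    have hho : (h : Equiv.Perm Cfsg.GolayPt) • o = o := h.2.2
    have hT' : (h : Equiv.Perm Cfsg.GolayPt)⁻¹ • T ∈ Cfsg.trios :=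
      smul_mem_trios (Cfsg.M24.inv_mem hh) hT
    have hoT' : o ∈ (h : Equiv.Perm Cfsg.GolayPt)⁻¹ • T := by
      have : (h : Equiv.Perm Cfsg.GolayPt)⁻¹ • o = o := by rw [inv_smul_eq_iff, hho]
      exact mem_smul_of_fix this hoT
    rw [mul_smul, mul_smul, hn _ hT' hoT', smul_inv_smul]
  have hsurj := (Cfsg.Agent.S1553.resHom o).rangeRestrict_surjective
  have hNmap : (N.map (Cfsg.Agent.S1553.resHom o).rangeRestrict).Normal :=
    Subgroup.Normal.map hN _ hsurj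
  have hs : IsSimpleGroup ↥(Cfsg.Agent.S1553.resHom o).range := by
    rw [Cfsg.Agent.S1553.range_resHom o ho]
    exact alternatingGroup.isSimpleGroup
      (by rw [Nat.card_eq_fintype_card, Fintype.card_coe, ho.2]; norm_num)
  rcases hNmap.eq_bot_or_eq_top with hbot | htop
  · intro p hp
    let g' : ↥(Cfsg.M24 ⊓ MulAction.stabilizer (Equiv.Perm Cfsg.GolayPt) o) := ⟨g, hg, hgo⟩
    have hg'N : g' ∈ N := hall
    have h1 : (Cfsg.Agent.S1553.resHom o).rangeRestrict g' ∈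
        N.map (Cfsg.Agent.S1553.resHom o).rangeRestrict := Subgroup.mem_map_of_mem _ hg'N
    rw [hbot, Subgroup.mem_bot] at h1
    have h2 : Cfsg.Agent.S1553.resHom o g' = 1 := congrArg Subtype.val h1
    have h3 := Cfsg.Agent.S1553.resHom_apply o g' ⟨p, hp⟩
    rw [h2] at h3
    exact h3.symm
  · exfalso
    have h15 := ncard_trios_through ho
    obtain ⟨T₁, hT₁⟩ : {T : Finset (Finset Cfsg.GolayPt) | T ∈ Cfsg.trios ∧ o ∈ T}.Nonempty :=
      Set.nonempty_of_ncard_ne_zero (by rw [h15]; norm_num)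
    obtain ⟨T₂, hT₂, hne⟩ := Set.exists_ne_of_one_lt_ncard (by rw [h15]; norm_num) T₁
    obtain ⟨h, hh, hho, hhT, -⟩ := trio_pair_transitive ho hT₁.1 hT₂.1 hT₂.1 hT₁.1
      hT₁.2 hT₂.2 hT₂.2 hT₁.2 (Ne.symm hne) hne
    let h' : ↥(Cfsg.M24 ⊓ MulAction.stabilizer (Equiv.Perm Cfsg.GolayPt) o) := ⟨h, hh, hho⟩
    have h1 : (Cfsg.Agent.S1553.resHom o).rangeRestrict h' ∈
        N.map (Cfsg.Agent.S1553.resHom o).rangeRestrict := by rw [htop]; trivial
    obtain ⟨n, hn, hnh⟩ := Subgroup.mem_map.mp h1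
    have h2 : Cfsg.Agent.S1553.resHom o n = Cfsg.Agent.S1553.resHom o h' :=
      congrArg Subtype.val hnh
    have hk : (n : Equiv.Perm Cfsg.GolayPt)⁻¹ * h ∈ fixG (o : Set Cfsg.GolayPt) := by
      rw [mem_fixG]
      refine ⟨Cfsg.M24.mul_mem (Cfsg.M24.inv_mem n.2.1) hh, ?_⟩
      intro x hx
      have e1 := Cfsg.Agent.S1553.resHom_apply o n ⟨x, Finset.mem_coe.mp hx⟩
      have e2 := Cfsg.Agent.S1553.resHom_apply o h' ⟨x, Finset.mem_coe.mp hx⟩
      rw [h2] at e1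
      have e3 : (n : Equiv.Perm Cfsg.GolayPt) x = h x := e1.symm.trans e2
      rw [Equiv.Perm.mul_apply, ← e3, ← Equiv.Perm.mul_apply, inv_mul_cancel]
      rfl
    have h3 := fixG_fixes_trios ho hT₁.1 hT₁.2 hk
    rw [mul_smul, inv_smul_eq_iff, hhT, hn T₁ hT₁.1 hT₁.2] at h3
    exact hne h3

theorem trio_kernel {o : Finset Cfsg.GolayPt} (ho : o ∈ Cfsg.octads)
    {g : Equiv.Perm Cfsg.GolayPt} (hg : g ∈ Cfsg.M24) (hgo : g • o = o) :
    (∀ T ∈ Cfsg.trios, o ∈ T → g • T = T) ↔ ∀ p ∈ o, g p = p := by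
  constructor
  · exact fix_of_fixes_trios ho hg hgo
  · intro hfix T hT hoT
    exact fixG_fixes_trios ho hT hoT
      (mem_fixG.mpr ⟨hg, fun x hx => hfix x (Finset.mem_coe.mp hx)⟩)

end Cfsg.Agent.Lib.Helper93
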