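import Cfsg.Agent.Lib.Helper93.Tets5

set_option autoImplicit false

open scoped Pointwise

namespace Cfsg.Agent.Lib.Helper93

theorem disjoint_smul_finset_iff' {g : Equiv.Perm Cfsg.GolayPt} {a b : Finset Cfsg.GolayPt} :
    Disjoint (g • a) (g • b) ↔ Disjoint a b := by
  classical
  rw [Finset.disjoint_iff_inter_eq_empty, Finset.disjoint_iff_inter_eq_empty,
    ← Finset.smul_finset_inter]
  constructor
  · intro h
    rw [← Finset.card_eq_zero] at h ⊢
    rw [Finset.card_smul_finset] at h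
    exact h
  · intro h
    rw [h, Finset.smul_finset_empty]

theorem smul_mem_trios {g : Equiv.Perm Cfsg.GolayPt} (hg : g ∈ Cfsg.M24)
    {T : Finset (Finset Cfsg.GolayPt)} (hT : T ∈ Cfsg.trios) : g • T ∈ Cfsg.trios := by
  classical
  obtain ⟨hcard, hoct, hdisj⟩ := hT
  refine ⟨by rw [Finset.card_smul_finset, hcard], ?_, ?_⟩
  · intro c hc
    obtain ⟨c', hc', rfl⟩ := Finset.mem_smul_finset.mp hc
    exact Cfsg.Agent.Lib.Helper7.smul_mem_octads hg (hoct c' hc')
  · intro c hc d hd hne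
    obtain ⟨c', hc', rfl⟩ := Finset.mem_smul_finset.mp hc
    obtain ⟨d', hd', rfl⟩ := Finset.mem_smul_finset.mp hd
    rw [disjoint_smul_finset_iff']
    exact hdisj c' hc' d' hd' (fun e => hne (by rw [e]))

/-- A trio through `o` is `{o, c, (o ∪ c)ᶜ}` for an octad `c` disjoint from `o`. -/
theorem trio_through {T : Finset (Finset Cfsg.GolayPt)} (hT : T ∈ Cfsg.trios)
    {o : Finset Cfsg.GolayPt} (ho : o ∈ T) :
    ∃ c ∈ Cfsg.octads, Disjoint o c ∧ c ∈ T ∧ T = {o, c, (o ∪ c)ᶜ} := by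
  classical
  obtain ⟨c, hc, hne⟩ := Finset.exists_mem_ne (by rw [hT.1]; norm_num : 1 < T.card) o
  exact ⟨c, hT.2.1 c hc, hT.2.2 o ho c hc (Ne.symm hne), hc, trio_eq hT ho hc (Ne.symm hne)⟩

theorem smul_trio (g : Equiv.Perm Cfsg.GolayPt) (o c : Finset Cfsg.GolayPt) :
    g • ({o, c, (o ∪ c)ᶜ} : Finset (Finset Cfsg.GolayPt)) = {g • o, g • c, (g • o ∪ g • c)ᶜ} := by
  classical
  rw [Finset.smul_finset_insert, Finset.smul_finset_insert, Finset.smul_finset_singleton]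
  rw [Finset.compl_eq_univ_sdiff, Finset.compl_eq_univ_sdiff, Finset.smul_finset_sdiff,
    Finset.smul_finset_univ, Finset.smul_finset_union]

/-- Two distinct trios through `o` give octads meeting in four points. -/
theorem trio_pair_octads {o c1 c2 : Finset Cfsg.GolayPt} (ho : o ∈ Cfsg.octads)
    (hc1 : c1 ∈ Cfsg.octads) (hc2 : c2 ∈ Cfsg.octads) (hd1 : Disjoint o c1)
    (hd2 : Disjoint o c2)
    (hne : ({o, c1, (o ∪ c1)ᶜ} : Finset (Finset Cfsg.GolayPt)) ≠ {o, c2, (o ∪ c2)ᶜ}) :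
    (c1 ∩ c2).card = 4 := by
  classical
  have he1 := octad_compl_union ho hc1 hd1
  have h12 : c2 ≠ c1 := by
    rintro rfl; exact hne rfl
  have h1e : c2 ≠ (o ∪ c1)ᶜ := by
    intro h
    apply hne
    have hcc : (o ∪ (o ∪ c1)ᶜ)ᶜ = c1 := by
      ext x
      simp only [Finset.mem_compl, Finset.mem_union]
      have := fun h : x ∈ o => Finset.disjoint_left.mp hd1 h
      tauto
    rw [h, hcc]
    ext x
    simp only [Finset.mem_insert, Finset.mem_singleton]
    tauto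
  have hsum := card_inter_trio hd1 c2
  rw [octad_card hc2, Finset.inter_comm c2 o, Finset.disjoint_iff_inter_eq_empty.mp hd2,
    Finset.card_empty] at hsum
  rw [Finset.inter_comm]
  rcases octad_inter hc2 hc1 h12 with h | h | h <;>
    rcases octad_inter hc2 he1 h1e with h' | h' | h' <;> omega

/-- The stabiliser of an octad is doubly transitive on the trios through it. -/
theorem trio_pair_transitive {o : Finset Cfsg.GolayPt} (ho : o ∈ Cfsg.octads)
    {T₁ T₂ T₁' T₂' : Finset (Finset Cfsg.GolayPt)} (h₁ : T₁ ∈ Cfsg.trios)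
    (h₂ : T₂ ∈ Cfsg.trios) (h₁' : T₁' ∈ Cfsg.trios) (h₂' : T₂' ∈ Cfsg.trios)
    (ho₁ : o ∈ T₁) (ho₂ : o ∈ T₂) (ho₁' : o ∈ T₁') (ho₂' : o ∈ T₂')
    (hne : T₁ ≠ T₂) (hne' : T₁' ≠ T₂') :
    ∃ g ∈ Cfsg.M24, g • o = o ∧ g • T₁ = T₁' ∧ g • T₂ = T₂' := by
  classical
  obtain ⟨c1, hc1, hd1, -, rfl⟩ := trio_through h₁ ho₁
  obtain ⟨c2, hc2, hd2, -, rfl⟩ := trio_through h₂ ho₂
  obtain ⟨c1', hc1', hd1', -, rfl⟩ := trio_through h₁' ho₁'
  obtain ⟨c2', hc2', hd2', -, rfl⟩ := trio_through h₂' ho₂'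
  have h4 := trio_pair_octads ho hc1 hc2 hd1 hd2 hne
  have h4' := trio_pair_octads ho hc1' hc2' hd1' hd2' hne'
  obtain ⟨g, hg, hg1, hg2, hgo⟩ := octad_triple_transitive hc1 hc2 ho hc1' hc2' ho h4 h4'
    hd1 hd2 hd1' hd2'
  refine ⟨g, hg, hgo, ?_, ?_⟩
  · rw [smul_trio, hgo, hg1]
  · rw [smul_trio, hgo, hg2]

/-- An octad lies in exactly fifteen trios. -/
theorem ncard_trios_through {o : Finset Cfsg.GolayPt} (ho : o ∈ Cfsg.octads) :
    {T : Finset (Finset Cfsg.GolayPt) | T ∈ Cfsg.trios ∧ o ∈ T}.ncard = 15 := by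
  classical
  set Df : Finset (Finset Cfsg.GolayPt) := octadFinset.filter (fun c => Disjoint o c) with hDf
  have hDfcard : Df.card = 30 := by
    rw [← ncard_octads_disjoint ho, ← Set.ncard_coe_finset]
    congr 1
    ext c
    rw [Finset.mem_coe, hDf, Finset.mem_filter, mem_octadFinset]
    rfl
  set Xf : Finset (Finset (Finset Cfsg.GolayPt)) :=
    Finset.univ.filter (fun T => T ∈ Cfsg.trios ∧ o ∈ T) with hXf
  have hXfmem : ∀ T, T ∈ Xf ↔ T ∈ Cfsg.trios ∧ o ∈ T := by intro T; simp [hXf]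
  have hfib := Finset.card_eq_sum_card_fiberwise (s := Df) (t := Xf)
    (f := fun c => ({o, c, (o ∪ c)ᶜ} : Finset (Finset Cfsg.GolayPt))) (by
      intro c hc
      rw [Finset.mem_coe, hDf, Finset.mem_filter, mem_octadFinset] at hc
      rw [Finset.mem_coe, hXfmem]
      exact ⟨trio_of_disjoint ho hc.1 hc.2, Finset.mem_insert_self _ _⟩)
  have h2 : ∀ T ∈ Xf, (Df.filter (fun c =>
      ({o, c, (o ∪ c)ᶜ} : Finset (Finset Cfsg.GolayPt)) = T)).card = 2 := by
    intro T hT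
    obtain ⟨hT1, hT2⟩ := (hXfmem T).mp hT
    have : Df.filter (fun c => ({o, c, (o ∪ c)ᶜ} : Finset (Finset Cfsg.GolayPt)) = T)
        = T.erase o := by
      ext c
      rw [Finset.mem_filter, hDf, Finset.mem_filter, mem_octadFinset, Finset.mem_erase]
      constructor
      · rintro ⟨⟨hc, hd⟩, rfl⟩
        exact ⟨(octad_ne_of_disjoint ho hd).symm,
          Finset.mem_insert_of_mem (Finset.mem_insert_self _ _)⟩
      · rintro ⟨hne, hc⟩
        exact ⟨⟨hT1.2.1 c hc, hT1.2.2 o hT2 c hc (Ne.symm hne)⟩,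
          (trio_eq hT1 hT2 hc (Ne.symm hne)).symm⟩
    rw [this, Finset.card_erase_of_mem hT2, hT1.1]
  rw [Finset.sum_congr rfl h2, Finset.sum_const, smul_eq_mul, hDfcard] at hfib
  have hXfcard : Xf.card = 15 := by
    have h := hfib
    clear_value Xf Df
    omega
  have hset : {T : Finset (Finset Cfsg.GolayPt) | T ∈ Cfsg.trios ∧ o ∈ T} =
      (↑Xf : Set (Finset (Finset Cfsg.GolayPt))) := by
    ext T
    rw [Finset.mem_coe]
    exact (hXfmem T).symm
  rw [hset, Set.ncard_coe_finset]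
  exact hXfcard

end Cfsg.Agent.Lib.Helper93
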