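import Cfsg.Agent.Lib.Helper93.U4b

/-!
# `PSU₄(2) ≅ PSp₄(3)`: the two permutation representations of degree 40
-/

set_option autoImplicit false

namespace Cfsg.Agent.Lib.Helper93.U4

open Matrix Cfsg.Agent.Lib.Helper19

/-- A group mapping to a monoid and permuting an injective family by conjugation acts on the
index set. -/
theorem exists_permHom {H R ι : Type*} [Group H] [Monoid R] (φ : H →* R) (t : ι → R)
    (ht : Function.Injective t) (hinv : ∀ h i, ∃ j, φ h * t i = t j * φ h) :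
    ∃ ρ : H →* Equiv.Perm ι, ∀ h i j, ρ h i = j ↔ φ h * t i = t j * φ h := by
  choose f hf using hinv
  have hunit : ∀ h : H, φ h * φ h⁻¹ = 1 := fun h => by rw [← map_mul, mul_inv_cancel, map_one]
  have huniq : ∀ h i j, φ h * t i = t j * φ h → f h i = j := by
    intro h i j hj
    apply ht
    have h1 : t (f h i) * φ h = t j * φ h := by rw [← hf, hj]
    have h2 := congrArg (· * φ h⁻¹) h1
    simpa [mul_assoc, hunit] using h2
  have h1 : ∀ i, f 1 i = i := fun i => huniq 1 i i (by rw [map_one, one_mul, mul_one])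
  have hmul : ∀ g h i, f (g * h) i = f g (f h i) := by
    intro g h i
    apply huniq
    rw [map_mul, mul_assoc, hf h i, ← mul_assoc, hf g, mul_assoc]
  refine ⟨{ toFun := fun g => ⟨f g, f g⁻¹, fun i => by rw [← hmul, inv_mul_cancel, h1],
              fun i => by rw [← hmul, mul_inv_cancel, h1]⟩
            map_one' := Equiv.ext h1
            map_mul' := fun g h => Equiv.ext (hmul g h) }, fun h i j => ⟨?_, huniq h i j⟩⟩
  intro hj
  have : f h i = j := hj
  rw [← this]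
  exact hf h i

/-- Unitary matrices permute the rank one matrices `v ⊗ v^σ`. -/
theorem su_mul_matP {n q : ℕ} {F : Type*} [Field F] (g : ↥(Cfsg.SU n F q)) (v : Fin n → F) :
    g.1.1 * vecMulVec v (fun j => v j ^ q) =
      vecMulVec (g.1.1 *ᵥ v) (fun j => (g.1.1 *ᵥ v) j ^ q) * g.1.1 := by
  have hg : ∀ u v : Fin n → F, Cfsg.hermForm n F q (g.1.1 *ᵥ u) (g.1.1 *ᵥ v)
      = Cfsg.hermForm n F q u v := g.2
  rw [Matrix.mul_vecMulVec, Matrix.vecMulVec_mul]
  congr 1
  funext b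
  have h1 := hg (Pi.single b 1) v
  simp only [Cfsg.hermForm, Matrix.mulVec_single_one] at h1
  have h2 : ∑ i, (Pi.single b (1 : F) : Fin n → F) i * v i ^ q = v b ^ q := by
    rw [Finset.sum_eq_single b (fun c _ hc => by rw [Pi.single_eq_of_ne hc, zero_mul])
      (fun hb => absurd (Finset.mem_univ b) hb), Pi.single_eq_same, one_mul]
  rw [h2] at h1
  rw [← h1]
  simp only [Matrix.vecMul, dotProduct, Matrix.col_apply]
  exact Finset.sum_congr rfl fun c _ => mul_comm _ _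

/-- Symplectic matrices permute the rank one matrices `w ⊗ Jw`. -/
theorem sp_mul_matQ (S : ↥(Matrix.symplecticGroup (Fin 2) (ZMod 3)))
    (w : Fin 2 ⊕ Fin 2 → ZMod 3) : S.1 * matQ w = matQ (S.1 *ᵥ w) * S.1 := by
  unfold matQ
  rw [Matrix.mul_vecMulVec, Matrix.vecMulVec_mul]
  congr 1
  have h := SymplecticGroup.mem_iff'.1 S.2
  rw [← Matrix.mulVec_transpose, Matrix.mulVec_mulVec, Matrix.mulVec_mulVec, h]

/-- the Frobenius map of `F4` -/
def sqHom : F4 →+* F4 where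
  toFun x := x ^ 2
  map_one' := by decide
  map_mul' := by decide
  map_zero' := by decide
  map_add' := by decide

/-- A matrix of determinant one with `Mᵀ M^σ = 1` is unitary. -/
theorem mem_SU_of {M : Matrix (Fin 4) (Fin 4) F4} (hdet : M.det = 1)
    (h : Mᵀ * M.map (fun x => x ^ 2) = 1) :
    (⟨M, hdet⟩ : Matrix.SpecialLinearGroup (Fin 4) F4) ∈ Cfsg.SU 4 F4 2 := by
  intro u v
  show Cfsg.hermForm 4 F4 2 (M *ᵥ u) (M *ᵥ v) = Cfsg.hermForm 4 F4 2 u v
  have hf : ∀ x y : Fin 4 → F4, Cfsg.hermForm 4 F4 2 x y = x ⬝ᵥ (sqHom ∘ y) := fun x y => rfl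
  have h2 : sqHom ∘ (M *ᵥ v) = (M.map sqHom) *ᵥ (sqHom ∘ v) := by
    funext i
    exact RingHom.map_mulVec sqHom M v i
  have h3 : M.map sqHom = M.map (fun x => x ^ 2) := rfl
  rw [hf, hf, h2, h3, ← Matrix.vecMul_transpose M u, ← Matrix.dotProduct_mulVec,
    Matrix.mulVec_mulVec, h, Matrix.one_mulVec]

theorem Umat_det (i : Fin 40) (l : F4) (h0 : l ≠ 0) (h1 : l ≠ 1) : (Umat i l).det = 1 := by
  unfold Umat
  rw [Matrix.det_smul, Matrix.vecMulVec_eq (ι := Unit),
    Matrix.det_one_add_replicateCol_mul_replicateRow]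
  exact Umat_det_aux i l h0 h1

/-- the unitary element which is `1` on the `i`-th point and `l` on its orthogonal complement -/
def Uelt (i : Fin 40) (l : F4) (h0 : l ≠ 0) (h1 : l ≠ 1) : ↥(Cfsg.SU 4 F4 2) :=
  ⟨⟨Umat i l, Umat_det i l h0 h1⟩, mem_SU_of _ (Umat_unit i l h0 h1)⟩

theorem Uelt_coe (i : Fin 40) (l : F4) (h0 : l ≠ 0) (h1 : l ≠ 1) :
    (Uelt i l h0 h1).1.1 = Umat i l := rfl

theorem Umat_mulVec (i : Fin 40) (l : F4) (x : Fin 4 → F4) :
    Umat i l *ᵥ x = l • x + (l * l * ((fun j => vU i j ^ 2) ⬝ᵥ x)) • vU i := by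
  unfold Umat
  rw [Matrix.smul_mulVec, Matrix.add_mulVec, Matrix.one_mulVec, Matrix.vecMulVec_mulVec,
    smul_add]
  congr 1
  funext a
  simp only [Pi.smul_apply, smul_eq_mul, MulOpposite.smul_eq_mul_unop, MulOpposite.unop_op]
  ring

theorem matP_smul (s : F4) (hs : s ≠ 0) (v : Fin 4 → F4) : matP (s • v) = matP v := by
  have h3 : ∀ s : F4, s ≠ 0 → s * s ^ 2 = 1 := by decide
  unfold matP
  ext a b
  simp only [Matrix.vecMulVec_apply, Pi.smul_apply, smul_eq_mul, mul_pow]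
  calc s * v a * (s ^ 2 * v b ^ 2) = (s * s ^ 2) * (v a * v b ^ 2) := by ring
    _ = v a * v b ^ 2 := by rw [h3 s hs, one_mul]

theorem matQ_smul (s : ZMod 3) (hs : s ≠ 0) (w : Fin 2 ⊕ Fin 2 → ZMod 3) :
    matQ (s • w) = matQ w := by
  have h3 : ∀ s : ZMod 3, s ≠ 0 → s * s = 1 := by decide
  unfold matQ
  rw [Matrix.mulVec_smul, Matrix.smul_vecMulVec, Matrix.vecMulVec_smul, smul_smul, h3 s hs,
    one_smul]

theorem symT_mulVec (w : Fin 2 ⊕ Fin 2 → ZMod 3) (c : ZMod 3) (x : Fin 2 ⊕ Fin 2 → ZMod 3) :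
    (1 + c • matQ w) *ᵥ x = x + (c * ((Matrix.J (Fin 2) (ZMod 3) *ᵥ w) ⬝ᵥ x)) • w := by
  unfold matQ
  rw [Matrix.add_mulVec, Matrix.one_mulVec, Matrix.smul_mulVec, Matrix.vecMulVec_mulVec]
  congr 1
  funext a
  simp only [Pi.smul_apply, smul_eq_mul, MulOpposite.smul_eq_mul_unop, MulOpposite.unop_op]
  ring

end Cfsg.Agent.Lib.Helper93.U4
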