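import Cfsg.Agent.Lib.Helper93.U4c
import Cfsg.Agent.S0245
import Cfsg.Agent.S0246
import Cfsg.Agent.S0278
import Cfsg.Agent.S0279
import Cfsg.Agent.S0764
import Cfsg.Agent.S0765

/-!
# `PSU₄(2) ≅ PSp₄(3)` over the concrete fields
-/

set_option autoImplicit false

namespace Cfsg.Agent.Lib.Helper93.U4

open Matrix Cfsg.Agent.Lib.Helper19

/-- the group `Sp₄(3)` -/
abbrev SpG : Type := ↥(Matrix.symplecticGroup (Fin 2) (ZMod 3))

/-- the group `SU₄(2)` -/
abbrev SUG : Type := ↥(Cfsg.SU 4 F4 2)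

theorem vU_noniso : ∀ i : Fin 40, Cfsg.hermForm 4 F4 2 (vU i) (vU i) ≠ 0 := by decide +kernel

theorem wS_ne : ∀ i : Fin 40, wS i ≠ 0 := by decide +kernel

theorem exists_rhoU : ∃ ρ : SUG →* Equiv.Perm (Fin 40),
    ∀ g i j, ρ g i = j ↔ g.1.1 * ptP i = ptP j * g.1.1 := by
  obtain ⟨φ, hφ⟩ : ∃ φ : SUG →* Matrix (Fin 4) (Fin 4) F4, ∀ g, φ g = g.1.1 :=
    ⟨{ toFun := fun g => g.1.1, map_one' := rfl, map_mul' := fun _ _ => rfl }, fun _ => rfl⟩
  obtain ⟨ρ, hρ⟩ := exists_permHom φ ptP (fun i j h => ptP_inj i j h) (by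
    intro g i
    rw [hφ]
    have h1 := su_mul_matP g (vU i)
    have hg : ∀ u v : Fin 4 → F4, Cfsg.hermForm 4 F4 2 (g.1.1 *ᵥ u) (g.1.1 *ᵥ v)
        = Cfsg.hermForm 4 F4 2 u v := g.2
    obtain ⟨x, hx⟩ : ∃ x, x = g.1.1 *ᵥ vU i := ⟨_, rfl⟩
    have hx0 : Cfsg.hermForm 4 F4 2 x x ≠ 0 := by
      rw [hx, hg]
      exact vU_noniso i
    have heta : x = ![x 0, x 1, x 2, x 3] := by
      funext a
      fin_cases a <;> rfl
    rw [heta] at hx0
    obtain ⟨j, hj⟩ := cover_U _ _ _ _ hx0
    rw [← heta] at hj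
    refine ⟨j, ?_⟩
    rw [← hj, hx]
    exact h1)
  exact ⟨ρ, fun g i j => by rw [hρ, hφ]⟩

theorem exists_rhoS : ∃ ρ : SpG →* Equiv.Perm (Fin 40),
    ∀ S i j, ρ S i = j ↔ S.1 * ptQ i = ptQ j * S.1 := by
  obtain ⟨ρ, hρ⟩ := exists_permHom (Matrix.symplecticGroup (Fin 2) (ZMod 3)).subtype ptQ
    (fun i j h => ptQ_inj i j h) (by
    intro S i
    have h1 := sp_mul_matQ S (wS i)
    have hne : S.1 *ᵥ wS i ≠ 0 := by
      intro h0
      have h2 : (S⁻¹).1 *ᵥ (S.1 *ᵥ wS i) = wS i := by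
        rw [Matrix.mulVec_mulVec, ← Submonoid.coe_mul, inv_mul_cancel, Submonoid.coe_one,
          Matrix.one_mulVec]
      rw [h0, Matrix.mulVec_zero] at h2
      exact wS_ne i h2.symm
    obtain ⟨j, hj⟩ := cover_S _ hne
    refine ⟨j, ?_⟩
    rw [← hj]
    exact h1)
  exact ⟨ρ, fun S i j => hρ S i j⟩

theorem symT_one (w : Fin 2 ⊕ Fin 2 → ZMod 3) (c : ZMod 3) (h : w = 0 ∨ c = 0) :
    Cfsg.sympTransvection 2 w c = 1 := by
  unfold Cfsg.sympTransvection
  rcases h with h | h
  · rw [h, Matrix.zero_vecMulVec, smul_zero, add_zero]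
  · rw [h, zero_smul, add_zero]

theorem symT_eq (w : Fin 2 ⊕ Fin 2 → ZMod 3) (c : ZMod 3) :
    Cfsg.sympTransvection 2 w c = 1 + c • matQ w := rfl

theorem lam_ne_zero (c : ZMod 3) : lam c ≠ 0 := by
  revert c
  decide

theorem lam_ne_one (c : ZMod 3) : lam c ≠ 1 := by
  revert c
  decide

theorem card_SpG : Nat.card SpG = 51840 := by
  have h := Cfsg.Agent.S0245.result (F := ZMod 3) (q := 3) (ZMod.card 3) 2
  rw [h]
  decide

theorem card_center_SpG : Nat.card (Subgroup.center SpG) = 2 := by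
  have h := Cfsg.Agent.S0246.result (F := ZMod 3) (q := 3) (ZMod.card 3) 2 (by norm_num)
  rw [h]
  decide

theorem card_SUG : Nat.card SUG = 25920 := by
  have h := Cfsg.Agent.S0278.result (F := F4) (q := 2) (by decide) 4 (by norm_num)
  have h2 : (2 : ℕ) ^ (4 * (4 - 1) / 2) * ∏ i ∈ Finset.range 4,
      (if Even i then 2 ^ (i + 1) + 1 else 2 ^ (i + 1) - 1) = 77760 := by decide
  rw [h2] at h
  have h3 : 3 * Nat.card SUG = 77760 := h
  omega

theorem card_center_SUG : Nat.card (Subgroup.center SUG) = 1 := by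
  have h := Cfsg.Agent.S0279.result (F := F4) (q := 2) (by decide) 4 (by norm_num)
  rw [h]
  decide

/-- `PSU₄(2) ≅ PSp₄(3)` for the concrete fields. -/
theorem concrete : Nonempty (Cfsg.PSU 4 F4 2 ≃* Cfsg.PSp 2 (ZMod 3)) := by
  obtain ⟨ρU, hU⟩ := exists_rhoU
  obtain ⟨ρS, hS⟩ := exists_rhoS
  have hgen := Cfsg.Agent.S0765.result (F := ZMod 3) 2
  have htop : ∀ S : SpG, S ∈ Subgroup.closure {A : SpG | ∃ (w : Fin 2 ⊕ Fin 2 → ZMod 3)
      (c : ZMod 3), (A : Matrix (Fin 2 ⊕ Fin 2) (Fin 2 ⊕ Fin 2) (ZMod 3))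
        = Cfsg.sympTransvection 2 w c} := by
    intro S
    rw [hgen]
    trivial
  -- the kernel of the symplectic representation is the centre
  have hkerS : ρS.ker = Subgroup.center SpG := by
    ext S
    rw [MonoidHom.mem_ker, Subgroup.mem_center_iff]
    constructor
    · intro h g
      have hc : ∀ i, S.1 * ptQ i = ptQ i * S.1 := fun i => (hS S i i).1 (by rw [h]; rfl)
      have hle : Subgroup.closure {A : SpG | ∃ (w : Fin 2 ⊕ Fin 2 → ZMod 3)
          (c : ZMod 3), (A : Matrix (Fin 2 ⊕ Fin 2) (Fin 2 ⊕ Fin 2) (ZMod 3))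
            = Cfsg.sympTransvection 2 w c} ≤ Subgroup.centralizer {S} := by
        rw [Subgroup.closure_le]
        rintro A ⟨w, c, hA⟩
        rw [SetLike.mem_coe, Subgroup.mem_centralizer_singleton_iff]
        apply Subtype.ext
        rw [Submonoid.coe_mul, Submonoid.coe_mul, hA]
        by_cases hw : w = 0
        · rw [symT_one w c (Or.inl hw), one_mul, mul_one]
        · obtain ⟨i, hi⟩ := cover_S w hw
          rw [symT_eq, hi, add_mul, mul_add, one_mul, mul_one, Matrix.smul_mul, Matrix.mul_smul,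
            hc i]
      have h2 := hle (htop g)
      rw [Subgroup.mem_centralizer_singleton_iff] at h2
      exact h2
    · intro hZ
      apply Equiv.ext
      intro i
      rw [Equiv.Perm.one_apply, hS]
      obtain ⟨T, hT⟩ : ∃ T : SpG, T.1 = 1 + ptQ i :=
        ⟨⟨_, Cfsg.Agent.S0764.result 2 (wS i) 1⟩, by
          show Cfsg.sympTransvection 2 (wS i) 1 = _
          rw [symT_eq, one_smul]
          rfl⟩
      have h1 := hZ T
      have h2 := congrArg Subtype.val h1
      rw [Submonoid.coe_mul, Submonoid.coe_mul, hT, add_mul, mul_add, one_mul, mul_one] at h2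
      exact (add_left_cancel h2).symm
  -- the image of the symplectic group lies in the image of the unitary group
  have hrange : ρS.range ≤ ρU.range := by
    rintro _ ⟨S, rfl⟩
    have hle : Subgroup.closure {A : SpG | ∃ (w : Fin 2 ⊕ Fin 2 → ZMod 3)
        (c : ZMod 3), (A : Matrix (Fin 2 ⊕ Fin 2) (Fin 2 ⊕ Fin 2) (ZMod 3))
          = Cfsg.sympTransvection 2 w c} ≤ ρU.range.comap ρS := by
      rw [Subgroup.closure_le]
      rintro A ⟨w, c, hA⟩
      rw [SetLike.mem_coe, Subgroup.mem_comap]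
      by_cases hw : w = 0
      · have hA1 : A = 1 := Subtype.ext (by rw [hA, symT_one w c (Or.inl hw)]; rfl)
        rw [hA1, map_one]
        exact one_mem _
      by_cases hc : c = 0
      · have hA1 : A = 1 := Subtype.ext (by rw [hA, symT_one w c (Or.inr hc)]; rfl)
        rw [hA1, map_one]
        exact one_mem _
      obtain ⟨i, hi⟩ := cover_S w hw
      have hA' : A.1 = 1 + c • matQ (wS i) := by
        rw [hA, symT_eq, hi]
        rfl
      refine ⟨Uelt i (lam c) (lam_ne_zero c) (lam_ne_one c), ?_⟩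
      apply Equiv.ext
      intro k
      have e1 : ρS A k = piT c i k := by
        rw [hS]
        obtain ⟨s, hs, hs'⟩ := certS i c hc k
        have h1 := sp_mul_matQ A (wS k)
        rw [hA', symT_mulVec, hs', matQ_smul s hs] at h1
        rw [hA']
        exact h1
      have e2 : ρU (Uelt i (lam c) (lam_ne_zero c) (lam_ne_one c)) k = piT c i k := by
        rw [hU, Uelt_coe]
        obtain ⟨s, hs, hs'⟩ := certU i c hc k
        have h1 := su_mul_matP (Uelt i (lam c) (lam_ne_zero c) (lam_ne_one c)) (vU k)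
        rw [Uelt_coe, Umat_mulVec, hs'] at h1
        have h2 : matP (s • vU (piT c i k)) = ptP (piT c i k) := matP_smul s hs _
        rw [← h2]
        exact h1
      rw [e2, e1]
    exact hle (htop S)
  have hfinS : Finite SpG := inferInstance
  have hfinU : Finite SUG := inferInstance
  have h1 := Subgroup.card_mul_index ρS.ker
  rw [Subgroup.index_ker, hkerS, card_center_SpG, card_SpG] at h1
  have h2 := Subgroup.card_mul_index ρU.ker
  rw [Subgroup.index_ker, card_SUG] at h2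
  have h3 : Nat.card ρS.range ≤ Nat.card ρU.range := Subgroup.card_le_of_le hrange
  have h5 : Nat.card ρS.range = 25920 := by omega
  have hk : 0 < Nat.card ρU.ker := Nat.card_pos
  have h4 : Nat.card ρU.ker = 1 := by nlinarith
  have h6 : Nat.card ρU.range = 25920 := by
    rw [h4, one_mul] at h2
    exact h2
  have hrange_eq : ρS.range = ρU.range :=
    Subgroup.eq_of_le_of_card_ge hrange (by rw [h5, h6])
  have hkerU : ρU.ker = Subgroup.center SUG := by
    rw [Subgroup.card_eq_one.1 h4, Subgroup.card_eq_one.1 card_center_SUG]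
  exact ⟨((QuotientGroup.quotientMulEquivOfEq hkerU).symm.trans
    (QuotientGroup.quotientKerEquivRange ρU)).trans
    ((MulEquiv.subgroupCongr hrange_eq.symm).trans
      ((QuotientGroup.quotientKerEquivRange ρS).symm.trans
        (QuotientGroup.quotientMulEquivOfEq hkerS)))⟩

end Cfsg.Agent.Lib.Helper93.U4
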